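import Mathlib

/-! `-1` is a sum of three squares in `ℚ(√5, ζ_p)`: Gauss's identity for `4 Φ_ℓ` with a prime
`ℓ ≡ -1 (mod p)`, `ℓ ≡ 3 (mod 20)`. -/

set_option autoImplicit false

namespace CfsgLib.DivRing

open Polynomial Finset

theorem gauss_aux {l : ℕ} [hl : Fact l.Prime] (h4 : l % 4 = 3) {L : Type} [Field L] [Algebra ℚ L]
    [IsGalois ℚ L] [FiniteDimensional ℚ L] {η : L} (hη : IsPrimitiveRoot η l) :
    ∃ A B : ℚ[X], (X - 1) * (A ^ 2 + C (l : ℚ) * B ^ 2) = 4 * (X ^ l - 1) := by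
  classical
  have : NeZero l := ⟨hl.out.ne_zero⟩
  have : CharZero L := algebraRat.charZero L
  let ψ : AddChar (ZMod l) L := AddChar.zmodChar l hη.pow_eq_one
  have hψ : ψ.IsPrimitive := AddChar.zmodChar_primitive_of_primitive_root l hη
  have h2 : ringChar (ZMod l) ≠ 2 := by rw [ZMod.ringChar_zmod_n]; omega
  let χ0 := quadraticChar (ZMod l)
  let χ : MulChar (ZMod l) L := χ0.ringHomComp (Int.castRingHom L)
  have hχ1 : χ ≠ 1 := by
    rw [MulChar.ringHomComp_ne_one_iff (RingHom.injective_int _)]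
    exact quadraticChar_ne_one h2
  have hχ2 : χ.IsQuadratic := (quadraticChar_isQuadratic _).comp _
  set g := gaussSum χ ψ with hg
  have hg2 : g ^ 2 = -(l : L) := by
    rw [hg, gaussSum_sq hχ1 hχ2 hψ, ZMod.card]
    have : χ0 (-1) = -1 := by
      rw [quadraticChar_neg_one h2, ZMod.card, ZMod.χ₄_nat_three_mod_four h4]
    rw [show χ (-1) = (χ0 (-1) : L) from rfl, this]
    simp
  have hg0 : g ≠ 0 := fun h => by
    rw [h] at hg2
    have : (l : L) = 0 := by simpa using hg2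
    exact hl.out.ne_zero (by exact_mod_cast this)
  let P : ℤ → L[X] := fun e => ∏ a ∈ univ.filter (fun a : ZMod l => χ0 a = e), (X - C (ψ a))
  have hσ : ∀ σ : Gal(L/ℚ), ∃ k : (ZMod l)ˣ, ∀ a, σ (ψ a) = ψ (k * a) := by
    intro σ
    have h1 : IsPrimitiveRoot (σ η) l := hη.map_of_injective σ.injective
    obtain ⟨k, hk, hk'⟩ := hη.eq_pow_of_pow_eq_one h1.pow_eq_one
    have hk0 : (k : ZMod l) ≠ 0 := by
      intro h
      rw [ZMod.natCast_eq_zero_iff] at h
      have : k = 0 := Nat.eq_zero_of_dvd_of_lt h hk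
      rw [this, pow_zero] at hk'
      exact h1.ne_one hl.out.one_lt hk'.symm
    refine ⟨Units.mk0 _ hk0, fun a => ?_⟩
    obtain ⟨n, rfl⟩ := ZMod.natCast_zmod_surjective a
    rw [Units.val_mk0, ← Nat.cast_mul, AddChar.zmodChar_apply', AddChar.zmodChar_apply', map_pow,
      ← hk', pow_mul]
  have hk1 : ∀ k : (ZMod l)ˣ, χ0 k = 1 ∨ χ0 k = -1 := fun k => quadraticChar_dichotomy k.ne_zero
  have hP : ∀ (σ : Gal(L/ℚ)) (k : (ZMod l)ˣ), (∀ a, σ (ψ a) = ψ (k * a)) → ∀ e,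
      (P e).map (σ : L →+* L) = P (χ0 k * e) := by
    intro σ k hk e
    simp only [P, Polynomial.map_prod, Polynomial.map_sub, map_X, map_C, RingHom.coe_coe, hk]
    refine prod_bij (fun a _ => k * a) (fun a ha => ?_) (fun a _ b _ h => ?_) (fun b hb => ?_)
      (fun _ _ => rfl)
    · simp only [mem_filter, mem_univ, true_and] at ha ⊢
      rw [map_mul, ha]
    · exact k.mul_right_inj.1 h
    · simp only [mem_filter, mem_univ, true_and] at hb ⊢
      refine ⟨↑k⁻¹ * b, ?_, k.mul_inv_cancel_left b⟩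
      have h3 : χ0 k * χ0 (↑k⁻¹ * b) = χ0 k * e := by rw [← map_mul, k.mul_inv_cancel_left, hb]
      rcases hk1 k with h | h <;> rw [h] at h3 <;> omega
  have hgσ : ∀ (σ : Gal(L/ℚ)) (k : (ZMod l)ˣ), (∀ a, σ (ψ a) = ψ (k * a)) →
      (χ0 k : L) * σ g = g := by
    intro σ k hk
    have h3 : σ g = gaussSum χ (ψ.mulShift k) := by
      simp only [hg, gaussSum, map_sum, map_mul, hk, AddChar.mulShift_apply]
      exact sum_congr rfl fun a _ => by rw [show χ a = (χ0 a : L) from rfl, map_intCast]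
    rw [h3]
    exact gaussSum_mulShift χ ψ k
  have lift : ∀ f : L[X], (∀ σ : Gal(L/ℚ), f.map (σ : L →+* L) = f) →
      ∃ f0 : ℚ[X], f0.map (algebraMap ℚ L) = f := by
    intro f hf
    rw [← mem_lifts, lifts_iff_coeff_lifts]
    intro n
    rw [IsGalois.mem_range_algebraMap_iff_fixed]
    intro σ
    have := congrArg (fun f => coeff f n) (hf σ)
    simpa using this
  obtain ⟨A, hA⟩ := lift (P 1 + P (-1)) fun σ => by
    obtain ⟨k, hk⟩ := hσ σ
    rw [Polynomial.map_add, hP σ k hk, hP σ k hk]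
    rcases hk1 k with h | h <;> simp [h, add_comm]
  obtain ⟨B, hB⟩ := lift (C g⁻¹ * (P 1 - P (-1))) fun σ => by
    obtain ⟨k, hk⟩ := hσ σ
    have h3 := hgσ σ k hk
    rw [Polynomial.map_mul, Polynomial.map_sub, hP σ k hk, hP σ k hk, map_C, RingHom.coe_coe,
      map_inv₀]
    rcases hk1 k with h | h <;> rw [h] at h3 ⊢
    · simp only [Int.cast_one, one_mul] at h3 ⊢
      rw [h3]
    · have h5 : σ g = -g := by
        push_cast at h3
        linear_combination -h3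
      rw [h5, inv_neg, C_neg]
      simp only [mul_one, mul_neg, neg_neg]
      ring
  refine ⟨A, B, Polynomial.map_injective (algebraMap ℚ L) (algebraMap ℚ L).injective ?_⟩
  have h5 : (X - 1) * (P 1 * P (-1)) = X ^ l - 1 := by
    have h6 : (X : L[X]) ^ l - 1 = ∏ a : ZMod l, (X - C (ψ a)) := by
      rw [X_pow_sub_one_eq_prod hl.out.pos hη]
      symm
      refine prod_bij (fun a _ => ψ a) (fun a _ => ?_) (fun a _ b _ h => ?_) (fun b hb => ?_)
        (fun _ _ => rfl)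
      · rw [mem_nthRootsFinset hl.out.pos, ← AddChar.map_nsmul_eq_pow]
        simp
      · have h7 : ψ (a - b) = 1 := by
          rw [AddChar.map_sub_eq_div, h, div_self]
          exact AddChar.val_isUnit ψ b |>.ne_zero
        exact sub_eq_zero.1 ((hψ.zmod_char_eq_one_iff l _).1 h7)
      · rw [mem_nthRootsFinset hl.out.pos] at hb
        obtain ⟨k, -, rfl⟩ := hη.eq_pow_of_pow_eq_one hb
        exact ⟨k, mem_univ _, AddChar.zmodChar_apply' _ _⟩
    rw [h6, ← prod_filter_mul_prod_filter_not univ (fun a => χ0 a = 0),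
      ← prod_filter_mul_prod_filter_not (univ.filter fun a => ¬ χ0 a = 0) (fun a => χ0 a = 1),
      filter_filter, filter_filter]
    congr 1
    · have : univ.filter (fun a => χ0 a = 0) = {0} := by
        ext a
        rw [mem_filter, mem_singleton, quadraticChar_eq_zero_iff, and_iff_right (mem_univ _)]
      simp [this]
    · congr 1 <;> refine prod_congr (filter_congr fun a _ => ?_) fun _ _ => rfl <;>
        rcases quadraticChar_isQuadratic (ZMod l) a with h | h | h <;> simp [χ0, h]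
  have h7 : C (l : L) * C g⁻¹ ^ 2 = -1 := by
    rw [← C_pow, ← C_mul, inv_pow, hg2, inv_neg, mul_neg, mul_inv_cancel₀, C_neg, C_1]
    exact_mod_cast hl.out.ne_zero
  simp only [Polynomial.map_mul, Polynomial.map_add, Polynomial.map_sub, Polynomial.map_pow, map_X,
    Polynomial.map_one, hA, hB, map_natCast, Polynomial.map_ofNat, Polynomial.map_natCast]
  rw [← h5, ← C_eq_natCast]
  linear_combination (X - 1) * (P 1 - P (-1)) ^ 2 * h7

/-- Gauss's identity `4 Φ_ℓ = A² + ℓ B²` for a prime `ℓ ≡ 3 (mod 4)`. -/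
theorem gauss_identity {l : ℕ} [hl : Fact l.Prime] (h4 : l % 4 = 3) :
    ∃ A B : ℚ[X], (X - 1) * (A ^ 2 + C (l : ℚ) * B ^ 2) = 4 * (X ^ l - 1) := by
  have : NeZero l := ⟨hl.out.ne_zero⟩
  have aux : ∀ (L : Type) [Field L] [Algebra ℚ L] [IsCyclotomicExtension {l} ℚ L],
      ∃ A B : ℚ[X], (X - 1) * (A ^ 2 + C (l : ℚ) * B ^ 2) = 4 * (X ^ l - 1) := fun L _ _ _ => by
    have := IsCyclotomicExtension.isGalois {l} ℚ L
    have := IsCyclotomicExtension.finiteDimensional {l} ℚ L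
    exact gauss_aux h4 (IsCyclotomicExtension.zeta_spec l ℚ L)
  exact @aux _ _ _ (CyclotomicField.isCyclotomicExtension l ℚ)

/-- Thue's lemma for the form `x² + 5 y²`. -/
theorem thue_five {l : ℕ} [hl : Fact l.Prime] (h : l % 20 = 3) :
    ∃ (x y : ℤ) (m : ℕ), 1 ≤ m ∧ m ≤ 5 ∧ x ^ 2 + 5 * y ^ 2 = m * l := by
  have : NeZero l := ⟨hl.out.ne_zero⟩
  have : Fact (Nat.Prime 5) := ⟨by norm_num⟩
  obtain ⟨z, hz⟩ : IsSquare ((-5 : ℤ) : ZMod l) := by
    have h0 : ((-5 : ℤ) : ZMod l) ≠ 0 := by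
      rw [Ne, ZMod.intCast_zmod_eq_zero_iff_dvd, dvd_neg]
      intro h1
      have := (Nat.prime_dvd_prime_iff_eq hl.out (by norm_num : Nat.Prime 5)).1
        (by exact_mod_cast h1)
      omega
    rw [← legendreSym.eq_one_iff l h0, show (-5 : ℤ) = -1 * (5 : ℕ) by norm_num, legendreSym.mul,
      legendreSym.at_neg_one (by omega), ZMod.χ₄_nat_three_mod_four (by omega),
      legendreSym.quadratic_reciprocity_one_mod_four (p := 5) (by norm_num) (by omega),
      legendreSym.mod 5, show (l : ℤ) % (5 : ℕ) = 3 by omega]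
    norm_num
  let s := l.sqrt
  have hs : s * s < l := lt_of_le_of_ne (Nat.sqrt_le l) fun h1 =>
    hl.out.not_isSquare ⟨s, h1.symm⟩
  obtain ⟨a, b, hab, he⟩ := Fintype.exists_ne_map_eq_of_card_lt
    (fun v : Fin (s + 1) × Fin (s + 1) => ((v.1 : ℕ) : ZMod l) - z * (v.2 : ℕ))
    (by simpa using Nat.lt_succ_sqrt l)
  set x : ℤ := (a.1 : ℕ) - (b.1 : ℕ) with hx
  set y : ℤ := (a.2 : ℕ) - (b.2 : ℕ) with hy
  have h1 : (l : ℤ) ∣ x ^ 2 + 5 * y ^ 2 := by
    rw [← ZMod.intCast_zmod_eq_zero_iff_dvd]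
    have h2 : (x : ZMod l) = z * y := by
      simp only [hx, hy]; push_cast; linear_combination he
    push_cast at hz ⊢
    rw [h2]
    linear_combination (-(y : ZMod l) ^ 2) * hz
  obtain ⟨m, hm⟩ := h1
  have hx2 : x ^ 2 ≤ s * s := by
    have := a.1.2; have := b.1.2
    rw [← sq]; exact sq_le_sq' (by omega) (by omega)
  have hy2 : y ^ 2 ≤ s * s := by
    have := a.2.2; have := b.2.2
    rw [← sq]; exact sq_le_sq' (by omega) (by omega)
  have h0 : 0 < x ^ 2 + 5 * y ^ 2 := by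
    by_contra h3
    have h4 : x = 0 := by nlinarith [sq_nonneg x, sq_nonneg y]
    have h5 : y = 0 := by nlinarith [sq_nonneg x, sq_nonneg y]
    exact hab (Prod.ext (Fin.ext (by omega)) (Fin.ext (by omega)))
  have hl0 : (0 : ℤ) < l := by exact_mod_cast hl.out.pos
  have hs' : (s : ℤ) * s < l := by exact_mod_cast hs
  have hm0 : 0 < m := by
    by_contra h3
    nlinarith
  have hm6 : m < 6 := by
    by_contra h3
    nlinarith
  refine ⟨x, y, m.toNat, by omega, by omega, ?_⟩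
  rw [hm, Int.toNat_of_nonneg hm0.le, mul_comm]

variable {A : Type*} [CommRing A] [Algebra ℚ A]

theorem sum_two_sq {l : ℕ} [Fact l.Prime] (h : l % 20 = 3) {s : A} (hs : s * s = s + 1) :
    ∃ u v : A, (l : A) = u ^ 2 + v ^ 2 := by
  obtain ⟨x, y, m, h1, h2, h3⟩ := thue_five h
  obtain ⟨a, b, hab⟩ : ∃ a b : A, (m : A) = a ^ 2 + b ^ 2 := by
    interval_cases m
    · exact ⟨1, 0, by simp⟩
    · exact ⟨1, 1, by norm_num⟩
    · exact ⟨s, 1 - s, by push_cast; linear_combination -2 * hs⟩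
    · exact ⟨2, 0, by norm_num⟩
    · exact ⟨2, 1, by norm_num⟩
  have h4 : (x : A) ^ 2 + 5 * (y : A) ^ 2 = m * l := by exact_mod_cast congrArg (Int.cast (R := A)) h3
  obtain ⟨n, hn⟩ : ∃ n : A, n * m = 1 := ⟨algebraMap ℚ A (m : ℚ)⁻¹, by
    rw [← map_natCast (algebraMap ℚ A), ← map_mul, inv_mul_cancel₀, map_one]
    exact_mod_cast (by omega : m ≠ 0)⟩
  refine ⟨n * (x * a + y * (2 * s - 1) * b), n * (x * b - y * (2 * s - 1) * a), ?_⟩
  have h5 : (2 * s - 1) ^ 2 = 5 := by linear_combination 4 * hs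
  linear_combination (-(l : A) * (n * m + 1)) * hn - n ^ 2 * m * h4 + n ^ 2 * (x ^ 2 + 5 * y ^ 2) * hab -
    n ^ 2 * y ^ 2 * (a ^ 2 + b ^ 2) * h5

/-- `-1` is a sum of three squares in `ℚ(√5, ζ_p)`. -/
theorem exists_sum_sq [IsDomain A] {p : ℕ} (hp : p.Prime) (h2 : p ≠ 2) (h5 : p ≠ 5) {c s : A}
    (hc : c ^ p = 1) (hc1 : c ≠ 1) (hs : s * s = s + 1) :
    ∃ a b d : A, 1 + a ^ 2 + b ^ 2 + d ^ 2 = 0 := by
  have hco : p.Coprime 20 := by
    rw [show 20 = 2 * 2 * 5 by norm_num]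
    have := (Nat.coprime_primes hp Nat.prime_two).2 h2
    exact (this.mul_right this).mul_right ((Nat.coprime_primes hp (by norm_num)).2 h5)
  obtain ⟨r, hr1, hr2⟩ := Nat.chineseRemainder hco (p - 1) 3
  obtain ⟨l, -, hl, hlr⟩ := Nat.forall_exists_prime_gt_and_modEq 0 (q := p * 20) (a := r)
    (by have := hp.pos; positivity) (by
      refine Nat.Coprime.mul_right ?_ ?_
      · rw [Nat.Coprime, hr1.gcd_eq]
        exact (Nat.coprime_self_sub_left hp.one_le).2 (Nat.coprime_one_left _)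
      · rw [Nat.Coprime, hr2.gcd_eq]; norm_num)
  have := Fact.mk hl
  have hl1 : l % 20 = 3 := (hlr.of_mul_left p).trans hr2
  have hl2 : c ^ l = c ^ (p - 1) := by
    rw [pow_eq_pow_mod l hc, (hlr.of_mul_right 20).trans hr1, ← pow_eq_pow_mod _ hc]
  obtain ⟨P, Q, hPQ⟩ := gauss_identity (l := l) (by omega)
  obtain ⟨u, v, huv⟩ := sum_two_sq hl1 hs
  obtain ⟨k, hk⟩ := hp.odd_of_ne_two h2
  have h3 := congrArg (aeval c) hPQ
  simp only [map_mul, map_sub, map_add, map_pow, aeval_X, map_one, map_natCast, hl2,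
    map_ofNat, hk, Nat.add_sub_cancel] at h3
  rw [hk] at hc
  have h4 : aeval c P ^ 2 + l * aeval c Q ^ 2 = -4 * c ^ (2 * k) :=
    mul_left_cancel₀ (sub_ne_zero.2 hc1) (by rw [h3]; linear_combination 4 * hc)
  obtain ⟨n, hn⟩ : ∃ n : A, n * 2 = 1 := ⟨algebraMap ℚ A 2⁻¹, by
    rw [← map_ofNat (algebraMap ℚ A), ← map_mul, inv_mul_cancel₀ two_ne_zero, map_one]⟩
  refine ⟨n * c ^ (k + 1) * aeval c P, n * c ^ (k + 1) * aeval c Q * u,
    n * c ^ (k + 1) * aeval c Q * v, ?_⟩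
  linear_combination (n * c ^ (k + 1)) ^ 2 * h4 - (n * c ^ (k + 1) * aeval c Q) ^ 2 * huv -
    (n * 2 + 1) * hn - 4 * n ^ 2 * (c ^ (2 * k + 1) + 1) * hc

end CfsgLib.DivRing
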