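import Mathlib
import Cfsg.Agent.Lib.FrobMain

/-! A group on which `Q₈` acts fixed-point-freely has odd square order. -/

set_option autoImplicit false

namespace CfsgLib.Frob

open Subgroup Cfsg

theorem even_finrank_of_anticommute {k E : Type*} [Field k] [AddCommGroup E] [Module k E]
    [Module.Finite k E] (h2 : (2 : k) ≠ 0) (I J : E →ₗ[k] E) (hI : Function.Injective I)
    (hJ : Function.Injective J) (h : ∀ v, I (J v) = - J (I v)) : Even (Module.finrank k E) := by
  have h1 : I ∘ₗ J = (-1 : k) • (J ∘ₗ I) := by ext v; simp [h]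
  have h3 := congrArg LinearMap.det h1
  rw [LinearMap.det_smul, LinearMap.det_comp, LinearMap.det_comp] at h3
  have hI0 : LinearMap.det I ≠ 0 := fun e =>
    LinearMap.det_eq_zero_iff_ker_ne_bot.mp e (LinearMap.ker_eq_bot.mpr hI)
  have hJ0 : LinearMap.det J ≠ 0 := fun e =>
    LinearMap.det_eq_zero_iff_ker_ne_bot.mp e (LinearMap.ker_eq_bot.mpr hJ)
  by_contra hodd
  rw [(Nat.not_even_iff_odd.mp hodd).neg_one_pow] at h3
  have : (2 : k) * (LinearMap.det I * LinearMap.det J) = 0 := by linear_combination h3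
  exact mul_ne_zero h2 (mul_ne_zero hI0 hJ0) this

theorem isSquare_card_of_anticommute_zmod {p : ℕ} [hp : Fact p.Prime] (hp2 : p ≠ 2) {E : Type*}
    [AddCommGroup E] [Module (ZMod p) E] [Finite E] (I J : E →+ E) (hI : Function.Injective I)
    (hJ : Function.Injective J) (h : ∀ v, I (J v) = - J (I v)) : IsSquare (Nat.card E) := by
  have h2 : (2 : ZMod p) ≠ 0 := fun e => hp2 ((Nat.prime_dvd_prime_iff_eq hp.out Nat.prime_two).mp
    ((ZMod.natCast_eq_zero_iff 2 p).mp (by exact_mod_cast e)))
  have : Module.Finite (ZMod p) E := Module.Finite.of_finite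
  obtain ⟨m, hm⟩ := even_finrank_of_anticommute h2 (I.toZModLinearMap p) (J.toZModLinearMap p)
    hI hJ h
  rw [Module.natCard_eq_pow_finrank (K := ZMod p), hm, pow_add]
  exact IsSquare.mul_self _

theorem isSquare_card_of_anticommute.{u} (n : ℕ) : ∀ (V : Type u) [AddCommGroup V] [Finite V],
    Nat.card V = n → Odd n → ∀ (I J : V →+ V), Function.Injective I → Function.Injective J →
      (∀ v, I (J v) = - J (I v)) → IsSquare n := by
  induction n using Nat.strong_induction_on with
  | _ n ih =>
  intro V _ _ hn hodd I J hI hJ h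
  by_cases h1 : n = 1
  · rw [h1]; exact IsSquare.one
  obtain ⟨p, hp, hd⟩ := Nat.exists_prime_and_dvd h1
  have := Fact.mk hp
  let f : V →+ V := nsmulAddMonoidHom p
  have hc : Nat.card f.ker * Nat.card f.range = n := by
    rw [← AddSubgroup.index_ker, AddSubgroup.card_mul_index, hn]
  have hp2 : p ≠ 2 := by
    rintro rfl
    exact (Nat.not_even_iff_odd.mpr hodd) (even_iff_two_dvd.mpr hd)
  have hk : IsSquare (Nat.card f.ker) := by
    let _ : Module (ZMod p) f.ker := AddCommGroup.zmodModule fun x => Subtype.ext x.2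
    have hres : ∀ T : V →+ V, ∀ x ∈ f.ker, T x ∈ f.ker := fun T x hx => by
      have hx' : p • x = 0 := hx
      change p • T x = 0
      rw [← map_nsmul, hx', map_zero]
    let I' : f.ker →+ f.ker := (I.comp f.ker.subtype).codRestrict _ fun x => hres I x x.2
    let J' : f.ker →+ f.ker := (J.comp f.ker.subtype).codRestrict _ fun x => hres J x x.2
    exact isSquare_card_of_anticommute_zmod hp2 I' J'
      (fun x y e => Subtype.ext (hI (congrArg Subtype.val e)))
      (fun x y e => Subtype.ext (hJ (congrArg Subtype.val e))) (fun v => Subtype.ext (h v))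
  have hlt : Nat.card f.range < n := by
    obtain ⟨x, hx⟩ := exists_prime_addOrderOf_dvd_card' (G := V) p (hn ▸ hd)
    have : f.ker ≠ ⊥ := by
      intro e
      have h3 : x ∈ f.ker := by
        change p • x = 0
        rw [← hx, addOrderOf_nsmul_eq_zero]
      rw [e, AddSubgroup.mem_bot] at h3
      rw [h3, addOrderOf_zero] at hx
      exact hp.one_lt.ne hx
    have h4 := (AddSubgroup.one_lt_card_iff_ne_bot _).mpr this
    have h5 : 0 < Nat.card f.range := Nat.card_pos
    nlinarith
  have hres : ∀ T : V →+ V, ∀ x ∈ f.range, T x ∈ f.range := by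
    rintro T _ ⟨x, rfl⟩
    exact ⟨T x, (map_nsmul T p x).symm⟩
  have hr := ih _ hlt f.range rfl (Odd.of_dvd_nat hodd (Dvd.intro_left _ hc))
    ((I.comp f.range.subtype).codRestrict _ fun x => hres I x x.2)
    ((J.comp f.range.subtype).codRestrict _ fun x => hres J x x.2)
    (fun x y e => Subtype.ext (hI (congrArg Subtype.val e)))
    (fun x y e => Subtype.ext (hJ (congrArg Subtype.val e))) (fun v => Subtype.ext (h v))
  rw [← hc]
  exact hk.mul hr

theorem IsFPF.odd_and_isSquare {A V : Type*} [Group A] [Group V] [Finite V] {φ : A →* MulAut V}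
    (h : IsFPF φ) {i j : A} (h1 : i * i ≠ 1) (h2 : (i * i) * (i * i) = 1)
    (h3 : i * j = (i * i) * (j * i)) : Odd (Nat.card V) ∧ IsSquare (Nat.card V) := by
  have hodd : Odd (Nat.card V) :=
    MonoidHom.FixedPointFree.odd_card_of_involutive (φ := φ (i * i)) (h _ h1) fun w => by
      rw [← MulAut.mul_apply, ← map_mul, h2, map_one]; rfl
  refine ⟨hodd, ?_⟩
  let _ : CommGroup V := { (inferInstance : Group V) with mul_comm := h.comm_of_involution h1 h2 }
  refine isSquare_card_of_anticommute _ (Additive V) rfl hodd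
    (MonoidHom.toAdditive (φ i).toMonoidHom) (MonoidHom.toAdditive (φ j).toMonoidHom)
    (φ i).injective (φ j).injective fun v => ?_
  change φ i (φ j v.toMul) = (φ j (φ i v.toMul))⁻¹
  rw [← MulAut.mul_apply, ← map_mul, h3, map_mul, MulAut.mul_apply, h.apply_eq_inv h1 h2, map_mul]
  rfl

theorem IsFPF.prod {A V W : Type*} [Group A] [Group V] [Group W] {φ : A →* MulAut V}
    {ψ : A →* MulAut W} (h : IsFPF φ) (h' : IsFPF ψ) :
    ∃ χ : A →* MulAut (V × W), IsFPF χ := by
  refine ⟨{ toFun := fun a => (φ a).prodCongr (ψ a)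
            map_one' := by rw [map_one, map_one]; rfl
            map_mul' := fun a b => by rw [map_mul, map_mul]; rfl }, fun a ha v hv => ?_⟩
  exact Prod.ext (h a ha v.1 (congrArg Prod.fst hv)) (h' a ha v.2 (congrArg Prod.snd hv))

end CfsgLib.Frob
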