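import Mathlib

/-!
# Counting solutions of `x² = 1` in a 2-group of class two by character sums
-/

set_option autoImplicit false

namespace CfsgLib.H1

open Subgroup
open scoped commutatorElement IsMulCommutative

theorem two_pow_dvd_sum_sq {ι : Type*} (T : Finset ι) (f : ι → ℤ) {e : ℕ}
    (h : ∀ i ∈ T, (2 ^ e : ℤ) ∣ f i ^ 2) : (2 ^ e : ℤ) ∣ (∑ i ∈ T, f i) ^ 2 := by
  have h1 : (2 ^ ((e + 1) / 2) : ℤ) ∣ ∑ i ∈ T, f i := by
    refine Finset.dvd_sum fun i hi => ?_
    by_cases h0 : f i = 0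
    · simp [h0]
    have h2 := h i hi
    rw [← Int.natAbs_dvd_natAbs, Int.natAbs_pow] at h2 ⊢
    have h3 : (f i).natAbs ≠ 0 := Int.natAbs_ne_zero.2 h0
    rw [Int.natAbs_pow] at h2
    change 2 ^ _ ∣ _ at h2 ⊢
    rw [Nat.prime_two.pow_dvd_iff_le_factorization (pow_ne_zero _ h3), Nat.factorization_pow] at h2
    rw [Nat.prime_two.pow_dvd_iff_le_factorization h3]
    simp only [Finsupp.smul_apply, smul_eq_mul] at h2
    omega
  refine Dvd.dvd.trans ?_ (pow_dvd_pow_of_dvd h1 2)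
  rw [← pow_mul]
  exact pow_dvd_pow 2 (by omega)

variable {G : Type*} [Group G]

theorem card_mul_card_dvd_charSum_sq [Fintype G] {F Z : Subgroup G} (hF : F ≤ center G)
    (hZ : Z ≤ center G) (hsq : ∀ x : G, x ^ 2 ∈ F) (hc : ∀ x y : G, ⁅x, y⁆ ∈ F) (s : F →* ℤˣ) :
    (Nat.card G * Nat.card Z : ℤ) ∣ (∑ x : G, (s ⟨x ^ 2, hsq x⟩ : ℤ)) ^ 2 := by
  classical
  have hone : ∀ w : F, (w : G) = 1 → (s w : ℤ) = 1 := fun w h => by
    rw [show w = 1 from Subtype.ext h, map_one, Units.val_one]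
  let χ : G → G →* ℤ := fun x =>
    { toFun := fun y => s ⟨⁅x, y⁆, hc x y⟩
      map_one' := hone _ (commutatorElement_one_right x)
      map_mul' := fun a b => by
        rw [← Units.val_mul, ← map_mul]
        congr 2
        apply Subtype.ext
        have h1 := mem_center_iff.1 (hF (hc x b)) a
        calc ⁅x, a * b⁆ = ⁅x, a⁆ * (a * ⁅x, b⁆) * a⁻¹ := by
              simp only [commutatorElement_def]; group
          _ = ⁅x, a⁆ * ⁅x, b⁆ := by rw [h1]; group }
  have hχmul : ∀ a b y, χ (a * b) y = χ a y * χ b y := by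
    intro a b y
    change ((s _ : ℤˣ) : ℤ) = s _ * s _
    rw [← Units.val_mul, ← map_mul]
    congr 2
    apply Subtype.ext
    have h1 := mem_center_iff.1 (hF (hc b y)) a
    have h2 := mem_center_iff.1 (hF (hc b y)) ⁅a, y⁆
    calc ⁅a * b, y⁆ = (a * ⁅b, y⁆) * a⁻¹ * ⁅a, y⁆ := by
          simp only [commutatorElement_def]; group
      _ = ⁅a, y⁆ * ⁅b, y⁆ := by rw [h1, h2]; group
  have hχc : ∀ z ∈ center G, χ z = 1 := fun z hz => MonoidHom.ext fun y =>
    hone _ (commutatorElement_eq_one_iff_mul_comm.2 (mem_center_iff.1 hz y).symm)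
  let R : Subgroup G :=
    { carrier := {x | χ x = 1}
      one_mem' := hχc 1 (one_mem _)
      mul_mem' := fun {a b} ha hb => MonoidHom.ext fun y => by
        rw [hχmul, show χ a = 1 from ha, show χ b = 1 from hb]
        rfl
      inv_mem' := fun {a} ha => MonoidHom.ext fun y => by
        have := hχmul a⁻¹ a y
        rw [inv_mul_cancel, hχc 1 (one_mem _), show χ a = 1 from ha] at this
        simpa using this.symm }
  have hmul : ∀ x y : G, (s ⟨(x⁻¹ * y) ^ 2, hsq _⟩ : ℤ) =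
      s ⟨x⁻¹ ^ 2, hsq _⟩ * (χ x y * s ⟨y ^ 2, hsq _⟩) := by
    intro x y
    change _ = _ * (((s _ : ℤˣ) : ℤ) * _)
    rw [← Units.val_mul, ← Units.val_mul, ← map_mul, ← map_mul]
    congr 2
    apply Subtype.ext
    change (x⁻¹ * y) ^ 2 = x⁻¹ ^ 2 * (⁅x, y⁆ * y ^ 2)
    simp only [commutatorElement_def, sq]
    group
  let ψ : R →* ℤ :=
    { toFun := fun y => s ⟨(y : G)⁻¹ ^ 2, hsq _⟩
      map_one' := hone _ (by simp)
      map_mul' := fun a b => by
        have := hmul b (a : G)⁻¹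
        rw [show χ b = 1 from b.2, MonoidHom.one_apply, one_mul, mul_comm] at this
        simpa using this }
  have hχ : ∀ x, ∑ y, χ x y = if x ∈ R then (Nat.card G : ℤ) else 0 := by
    intro x
    split_ifs with h
    · simp [show χ x = 1 from h]
    · exact sum_hom_units_eq_zero _ h
  have key : (∑ x : G, (s ⟨x ^ 2, hsq x⟩ : ℤ)) ^ 2 = Nat.card G * ∑ y, ψ y := by
    calc (∑ x : G, (s ⟨x ^ 2, hsq x⟩ : ℤ)) ^ 2 = ∑ y : G, ∑ x : G,
          (s ⟨y ^ 2, hsq y⟩ : ℤ) * s ⟨(x⁻¹ * y) ^ 2, hsq _⟩ := by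
          rw [sq, Finset.sum_mul_sum]
          refine Finset.sum_congr rfl fun y _ => (Fintype.sum_equiv
            ((Equiv.inv G).trans (Equiv.mulRight y)) _ _ fun x => rfl).symm
      _ = ∑ x : G, (s ⟨x⁻¹ ^ 2, hsq _⟩ : ℤ) * if x ∈ R then (Nat.card G : ℤ) else 0 := by
          rw [Finset.sum_comm]
          refine Finset.sum_congr rfl fun x _ => ?_
          rw [← hχ, Finset.mul_sum]
          refine Finset.sum_congr rfl fun y _ => ?_
          have h2 : (s ⟨y ^ 2, hsq y⟩ : ℤ) * s ⟨y ^ 2, hsq y⟩ = 1 := by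
            rw [← Units.val_mul, Int.units_mul_self, Units.val_one]
          rw [hmul]
          linear_combination (s ⟨x⁻¹ ^ 2, hsq _⟩ : ℤ) * χ x y * h2
      _ = _ := by
          simp only [mul_ite, mul_zero]
          rw [← Finset.sum_filter, ← Finset.sum_mul, mul_comm,
            Finset.sum_subtype (p := (· ∈ R)) _ (by simp)]
          rfl
  rw [key]
  refine mul_dvd_mul_left _ ?_
  by_cases h : ψ = 1
  · have : Nat.card Z ∣ Nat.card R := card_dvd_of_le fun z hz => hχc z (hZ hz)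
    simpa [h] using Int.natCast_dvd_natCast.2 this
  · rw [sum_hom_units_eq_zero _ h]
    exact dvd_zero _

/-- Let `G` be a finite 2-group, `F` a central elementary abelian subgroup containing all squares
and commutators and `Z` a central subgroup.  Then `|G| |Z|` divides `(|F| j)²`, where `j` is the
number of solutions of `x² = 1`. -/
theorem card_mul_card_dvd_sq [Finite G] (hG : IsPGroup 2 G) {F Z : Subgroup G}
    (hF : F ≤ center G) (hZ : Z ≤ center G) (hF2 : ∀ w ∈ F, w ^ 2 = 1) (hsq : ∀ x : G, x ^ 2 ∈ F)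
    (hc : ∀ x y : G, ⁅x, y⁆ ∈ F) :
    Nat.card G * Nat.card Z ∣ (Nat.card F * Nat.card {x : G // x ^ 2 = 1}) ^ 2 := by
  classical
  have := Fintype.ofFinite G
  have hFc : IsMulCommutative F :=
    ⟨⟨fun a b => Subtype.ext (mem_center_iff.1 (hF b.2) a)⟩⟩
  have h2 : HasEnoughRootsOfUnity ℤ 2 := ⟨⟨-1, IsPrimitiveRoot.neg_one 0 two_ne_zero.symm⟩,
    inferInstance⟩
  have h3 : HasEnoughRootsOfUnity ℤ (Monoid.exponent F) := HasEnoughRootsOfUnity.of_dvd ℤ
    (Monoid.exponent_dvd_of_forall_pow_eq_one fun w => Subtype.ext (hF2 w w.2))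
  have : Finite (F →* ℤˣ) := Finite.of_injective _ DFunLike.coe_injective
  have := Fintype.ofFinite (F →* ℤˣ)
  have horth : ∀ w : F, ∑ s : F →* ℤˣ, (s w : ℤ) = if w = 1 then (Nat.card F : ℤ) else 0 := by
    intro w
    split_ifs with h
    · rw [← CommGroup.card_monoidHom_of_hasEnoughRootsOfUnity F ℤ]
      simp [h]
    · obtain ⟨s, hs⟩ := CommGroup.exists_apply_ne_one_of_hasEnoughRootsOfUnity F ℤ h
      exact sum_hom_units_eq_zero ((Units.coeHom ℤ).comp (MonoidHom.eval w)) fun h1 =>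
        hs (Units.ext (DFunLike.congr_fun h1 s))
  have key : ∑ s : F →* ℤˣ, ∑ x : G, (s ⟨x ^ 2, hsq x⟩ : ℤ) =
      Nat.card F * Nat.card {x : G // x ^ 2 = 1} := by
    rw [Finset.sum_comm]
    simp only [horth, Subtype.ext_iff, OneMemClass.coe_one]
    rw [← Finset.sum_filter, Finset.sum_const, nsmul_eq_mul, mul_comm]
    simp [Fintype.card_subtype]
  obtain ⟨a, ha⟩ := hG.exists_card_eq
  obtain ⟨b, hb⟩ := (hG.to_subgroup Z).exists_card_eq
  have h4 := two_pow_dvd_sum_sq Finset.univ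
    (fun s : F →* ℤˣ => ∑ x : G, (s ⟨x ^ 2, hsq x⟩ : ℤ)) (e := a + b) fun s _ => by
      have := card_mul_card_dvd_charSum_sq hF hZ hsq hc s
      rw [ha, hb] at this
      rw [pow_add]
      exact_mod_cast this
  rw [key] at h4
  rw [ha, hb, ← pow_add]
  exact_mod_cast h4

end CfsgLib.H1
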