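import Mathlib
import Cfsg.Agent.Lib.H5Eppo
import Cfsg.Agent.Lib.H5Small
import Cfsg.Agent.Lib.FrobMain
import Cfsg.Agent.Lib.CorePiSep
import Cfsg.Agent.Lib.CharBurnside
import Cfsg.Agent.Lib.CommCalc

/-! Solvable groups all of whose elements have prime-power order. -/

set_option autoImplicit false

namespace CfsgLib.H5
open Subgroup Cfsg
open scoped commutatorElement

variable {G : Type*} [Group G] [Finite G] {p : ℕ} [hp : Fact p.Prime]

theorem Eppo.centralizer_pCore_le (h : Eppo G) (hs : Group.IsSolvable G) (hF : pCore p G ≠ ⊥) :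
    centralizer (pCore p G : Set G) ≤ pCore p G := by
  refine CfsgLib.centralizer_pCore_le (isPSolvable_of_isSolvable hs) (eq_bot_iff.mpr fun y hy => ?_)
  obtain ⟨⟨x, hx⟩, hx1⟩ := ne_bot_iff_exists_ne_one.mp hF
  obtain ⟨k, hk⟩ := orderOf_eq_pow_of_mem_isPGroup (pCore_isPGroup p) hx
  refine (h.eq_one_or_eq_one (commutatorElement_eq_one_iff_commute.mp (mem_bot.mp
    (commutator_pCore_pPrimeCore (G := G) p ▸ commutator_mem_commutator hx hy))) ?_).resolve_left
      fun h => hx1 (Subtype.ext h)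
  exact hk ▸ ((pPrimeCore_coprime p).coprime_dvd_left (orderOf_dvd_natCard _ hy)).symm.pow_left k

theorem Eppo.isFrobeniusKernel (h : Eppo G) {F : Subgroup G} [F.Normal] (hF : IsPGroup p F)
    (h0 : F ≠ ⊥) (h1 : F ≠ ⊤) (hi : ¬ p ∣ F.index) : Frob.IsFrobeniusKernel F :=
  Frob.isFrobeniusKernel_of_centralizer_le h0 h1 fun k hk hk1 => by
    obtain ⟨n, hn⟩ := orderOf_eq_pow_of_mem_isPGroup hF hk
    obtain ⟨m, hm⟩ := (h.isPGroup_centralizer hp.out (y := k) (hn ▸ dvd_pow_self p fun h0 =>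
      hk1 (orderOf_eq_one_iff.mp (by simpa [h0] using hn)))).exists_card_eq
    exact le_of_coprime_index (hm ▸ ((Nat.Prime.coprime_iff_not_dvd hp.out).mpr hi).pow_left m)

theorem Eppo.odd_core (h : Eppo G) (hs : Group.IsSolvable G) (hp2 : p ≠ 2) (hF : pCore p G ≠ ⊥)
    [(pCore p G).Normal] (h2 : 2 ∣ Nat.card G) :
    IsPGroup 2 (G ⧸ pCore p G) ∧ Frob.IsFrobeniusKernel (pCore p G) := by
  obtain ⟨t, ht⟩ := exists_prime_orderOf_dvd_card' 2 h2
  have hco : ∀ x ∈ pCore p G, (orderOf t).Coprime (orderOf x) := fun x hx => by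
    obtain ⟨k, hk⟩ := orderOf_eq_pow_of_mem_isPGroup (pCore_isPGroup p) hx
    exact ht ▸ hk ▸ ((Nat.coprime_primes Nat.prime_two hp.out).mpr hp2.symm).pow_right k
  have ht1 : t ≠ 1 := fun h => by simp [h] at ht
  have hinv : ∀ x ∈ pCore p G, t * x * t⁻¹ = x⁻¹ := fun x hx =>
    inverts_of_fixedPointFree (ht ▸ pow_orderOf_eq_one t) (le_normalizer_of_normal (mem_top t))
      (fun y hy he => (h.eq_one_or_eq_one he (hco y hy)).resolve_left ht1) hx
  have htF : t ∉ pCore p G := fun h => by simpa [ht] using hco t h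
  have hQ : IsPGroup 2 (G ⧸ pCore p G) := by
    have h3 := (h.of_surjective _ (QuotientGroup.mk'_surjective (pCore p G))).isPGroup_centralizer
      Nat.prime_two (y := (t : G ⧸ pCore p G)) (by
        rw [orderOf_eq_prime (p := 2) (by rw [← QuotientGroup.mk_pow, ← ht, pow_orderOf_eq_one]; rfl)
          (mt (QuotientGroup.eq_one_iff t).mp htF)])
    refine h3.of_surjective (Subgroup.subtype _) fun g => ⟨⟨g, ?_⟩, rfl⟩
    obtain ⟨g, rfl⟩ := QuotientGroup.mk_surjective g
    rw [mem_centralizer_singleton_iff, ← QuotientGroup.mk_mul, ← QuotientGroup.mk_mul,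
      QuotientGroup.eq]
    refine h.centralizer_pCore_le hs hF fun x hx => ?_
    have h4 := hinv x hx
    have h5 := hinv _ (Normal.conj_mem inferInstance _ (inv_mem hx) g)
    calc _ = t⁻¹ * (t * x * t⁻¹) * g⁻¹ * t * g := by group
      _ = t⁻¹ * g⁻¹ * (g * x⁻¹ * g⁻¹) * t * g := by rw [h4]; group
      _ = t⁻¹ * g⁻¹ * t * (t⁻¹ * (g * x⁻¹ * g⁻¹) * t) * g := by group
      _ = _ := by
        have : t⁻¹ * (g * x⁻¹ * g⁻¹) * t = g * x * g⁻¹ := by
          have := hinv _ (Normal.conj_mem inferInstance _ hx g)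
          calc _ = t⁻¹ * (g * x * g⁻¹)⁻¹ * t := by group
            _ = _ := by rw [← this]; group
        rw [this]; group
  obtain ⟨m, hm⟩ := hQ.exists_card_eq
  exact ⟨hQ, h.isFrobeniusKernel (pCore_isPGroup p) hF (fun h => htF (h ▸ mem_top t)) fun hd =>
    hp2 ((Nat.prime_dvd_prime_iff_eq hp.out Nat.prime_two).mp (hp.out.dvd_of_dvd_pow (hd.trans hm.dvd)))⟩

omit hp in
theorem eppo_of_orderOf_le {n : ℕ} (hn : n ≤ 4) (h : ∀ g : G, orderOf g ≤ n) :
    Eppo G ∧ (∀ r : ℕ, r.Prime → r ∣ Nat.card G → r = 2 ∨ r = 3) ∧ Group.IsSolvable G := by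
  have h1 : ∀ r : ℕ, r.Prime → r ∣ Nat.card G → r = 2 ∨ r = 3 := fun r hr hd => by
    have := Fact.mk hr
    obtain ⟨g, hg⟩ := exists_prime_orderOf_dvd_card' r hd
    have := (hg ▸ h g).trans hn
    have := hr.two_le
    interval_cases r
    · simp
    · simp
    · exact absurd hr (by norm_num)
  refine ⟨fun g hg => ?_, h1, isSolvable_of_two_primes Nat.prime_two Nat.prime_three h1⟩
  have h2 := (h g).trans hn
  have h3 := orderOf_pos g
  have h4 := mt orderOf_eq_one_iff.mp hg
  interval_cases orderOf g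
  · simp at h4
  · exact Nat.prime_two.isPrimePow
  · exact Nat.prime_three.isPrimePow
  · exact Nat.prime_two.isPrimePow.pow (k := 2) two_ne_zero

omit hp in
/-- If `O₂(G) ≠ 1`, a group with element orders at most `4` has Sylow `3`-subgroups of order
at most `3`. -/
theorem not_nine_dvd_of_orderOf_le (h : ∀ g : G, orderOf g ≤ 4) (hF : pCore 2 G ≠ ⊥) :
    ¬ 9 ∣ Nat.card G := fun h9 => by
  obtain ⟨hE, -, -⟩ := eppo_of_orderOf_le le_rfl h
  have := Fact.mk Nat.prime_three
  have := pCore_characteristic (G := G) 2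
  obtain ⟨T, hT⟩ := Sylow.exists_subgroup_card_pow_prime 3 (n := 2) h9
  have hT' := IsPGroup.of_card hT
  have h1 := (hE.hasFPF (K := T) le_normalizer_of_normal hF (IsPGroup.coprime_card_of_ne 3 2
    (by norm_num) _ _ hT' (pCore_isPGroup 2))).isCyclic_of_comm (IsPGroup.commGroupOfCardEqPrimeSq
      hT).mul_comm
  obtain ⟨g, hg⟩ := isCyclic_iff_exists_orderOf_eq_natCard.mp h1
  have := h g
  rw [orderOf_coe, hg, hT] at this
  omega

omit hp in
/-- A class-two group with a fixed-point-free `S₃`-like action and all `x τ(x)` involutions is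
elementary abelian. -/
theorem sq_eq_one_of_s3 {α τ : MulAut G} (hα : α ^ 3 = 1) (hf : ∀ x, α x = x → x = 1)
    (hτ : ∀ x, τ (α (α x)) = α (τ x)) (h2 : ∀ x y z : G, Commute ⁅x, y⁆ z)
    (h1 : ∀ x, (x * τ x) ^ 2 = 1) (h1' : ∀ x, (x * τ (α x)) ^ 2 = 1) (x : G) : x ^ 2 = 1 := by
  have hZ : ∀ z ∈ center G, z ^ 2 = 1 := fun z hz => by
    have h3 := h1 z
    have h4 := h1' z
    rw [(Commute.symm (mem_center_iff.mp hz _)).mul_pow, ← map_pow] at h3 h4
    rw [← map_pow, ← h3, mul_right_inj, EmbeddingLike.apply_eq_iff_eq] at h4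
    exact hf _ h4
  have hc : ∀ x y : G, ⁅x, y⁆ ∈ center G := fun x y => mem_center_iff.mpr fun z => (h2 x y z).eq.symm
  have hsq : ∀ x : G, x ^ 2 ∈ center G := fun x => mem_center_iff.mpr fun y => by
    rw [eq_comm, ← commutatorElement_eq_one_iff_mul_comm, CommCalc.comm_pow_left (h2 x y x).symm]
    exact hZ _ (hc x y)
  have h3 : ∀ x : G, x * α x * α (α x) = 1 := fun x => by
    have := MonoidHom.FixedPointFree.prod_pow_eq_one (φ := α) hf (n := 3)
      (funext fun y => congrArg (· y) hα) x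
    simpa [List.range_succ, mul_assoc] using this
  have h4 : ∀ x y : G, Commute (x * τ x) (y * τ y) := fun x y => by
    have h5 := h1 (x * y)
    have h6 : x * y * τ (x * y) = ⁅y, τ x⁆ * (x * τ x * (y * τ y)) := by
      rw [map_mul, ← mul_assoc, ← mul_assoc, ← mul_assoc, ← mul_assoc, (h2 y (τ x) x).eq]
      group
    rw [h6, (h2 _ _ _).mul_pow, hZ _ (hc _ _), one_mul] at h5
    have h7 := h1 x
    have h8 := h1 y
    generalize x * τ x = u at *
    generalize y * τ y = v at *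
    calc u * v = u * (u * v) ^ 2 * v := by rw [h5, mul_one]
      _ = u ^ 2 * (v * u) * v ^ 2 := by simp only [pow_two, mul_assoc]
      _ = _ := by rw [h7, h8, one_mul, mul_one]
  have h5 : ∀ u v : G, Commute u v → ⁅u, α v⁆ * ⁅α u, v⁆ = 1 → Commute u (α v) := by
    intro u v huv h
    refine commutatorElement_eq_one_iff_commute.mp (hf _ ?_)
    rw [map_commutatorElement, eq_inv_of_mul_eq_one_right (h3 v),
      CommCalc.comm_inv_right (h2 _ _ _).symm, CommCalc.comm_mul_right_of_commute (h2 _ _ _).symm,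
      (huv.map α).commutator_eq, mul_one, eq_inv_of_mul_eq_one_left h]
  have h6 : ∀ u v : G, Commute u v → ⁅u, α v⁆ * ⁅α u, v⁆ = 1 := by
    intro u v huv
    have h7 := (huv.map α).map α
    rw [eq_inv_of_mul_eq_one_right (h3 u), eq_inv_of_mul_eq_one_right (h3 v),
      Commute.inv_inv_iff, ← commutatorElement_eq_one_iff_commute,
      CommCalc.comm_mul_left_of_commute (h2 _ _ _).symm,
      CommCalc.comm_mul_right_of_commute (h2 _ _ _).symm,
      CommCalc.comm_mul_right_of_commute (h2 _ _ _).symm, huv.commutator_eq,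
      (huv.map α).commutator_eq, mul_one, one_mul] at h7
    rw [(h2 _ _ _).eq, h7]
  have h7 : ∀ D : Subgroup G, center G ≤ D → (∀ x, x * τ x ∈ D ∧ α (x * τ x) ∈ D) →
      ∀ x, x ∈ D := by
    intro D hD h x
    have h8 := mul_mem (h (α (α x))).1 (h x).2
    have h9 : α (α x) * α x * x = 1 := by
      have := congrArg (·⁻¹) (h3 x⁻¹)
      simpa [mul_assoc] using this
    rw [hτ, map_mul] at h8
    have : α (α x) * α (τ x) * (α x * α (τ x)) =
        α (α x) * α x * (⁅(α x)⁻¹, α (τ x)⁆ * α (τ x) ^ 2) := by group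
    rw [this, mul_mem_cancel_right (hD (mul_mem (hc _ _) (hsq _))),
      eq_inv_of_mul_eq_one_left h9] at h8
    exact inv_mem_iff.mp h8
  refine hZ x (h7 _ le_rfl (fun y => ⟨mem_center_iff.mpr fun g => ?_, mem_center_iff.mpr
    fun g => ?_⟩) x)
  · exact mem_centralizer_singleton_iff.mp (h7 _ (center_le_centralizer _) (fun x =>
      ⟨mem_centralizer_singleton_iff.mpr (h4 x y), mem_centralizer_singleton_iff.mpr
        (h5 _ _ (h4 y x) (h6 _ _ (h4 y x))).symm⟩) g)
  · exact mem_centralizer_singleton_iff.mp (h7 _ (center_le_centralizer _) (fun x =>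
      ⟨mem_centralizer_singleton_iff.mpr (h5 _ _ (h4 x y) (h6 _ _ (h4 x y))),
        mem_centralizer_singleton_iff.mpr ((h4 x y).map α)⟩) g)

end CfsgLib.H5
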