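import Mathlib
import Cfsg.Agent.Lib.FrobeniusCount
import Cfsg.Agent.Lib.SubgroupCount
import Cfsg.Agent.Lib.QBaer
import Cfsg.Agent.Lib.ClassSize

/-! Numbers of elements of a given order. -/

set_option autoImplicit false

namespace CfsgLib.H5
open Subgroup Cfsg

/-- The number of elements of order `d`. -/
noncomputable def ordCount (G : Type*) [Group G] (d : ℕ) : ℕ := {x : G | orderOf x = d}.ncard

variable {G : Type*} [Group G] [Finite G]

theorem totient_dvd_ordCount (d : ℕ) : d.totient ∣ ordCount G d :=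
  Dvd.intro_left _ (H4.ncard_orderOf_eq_mul_totient (G := G) d).symm

theorem ordCount_ne_zero_iff {d : ℕ} : ordCount G d ≠ 0 ↔ ∃ x : G, orderOf x = d :=
  Nat.pos_iff_ne_zero.symm.trans (Set.ncard_pos (Set.toFinite _))

theorem ordCount_orderOf_ne_zero (x : G) : ordCount G (orderOf x) ≠ 0 :=
  ordCount_ne_zero_iff.mpr ⟨x, rfl⟩

omit [Finite G] in
theorem ordCount_one : ordCount G 1 = 1 := by simp [ordCount]

theorem two_dvd_ordCount {d : ℕ} (h : 2 < d) : 2 ∣ ordCount G d :=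
  (Nat.totient_even h).two_dvd.trans (totient_dvd_ordCount d)

theorem prime_dvd_ordCount_of_sq_dvd {p d : ℕ} (hp : p.Prime) (h : p ^ 2 ∣ d) :
    p ∣ ordCount G d :=
  Dvd.dvd.trans (by rw [Nat.totient_prime_pow hp two_pos]; simp)
    ((Nat.totient_dvd_of_dvd h).trans (totient_dvd_ordCount d))

theorem prime_dvd_ordCount_add {p d : ℕ} (hp : p.Prime) (hG : p ∣ Nat.card G) (hd : ¬ p ∣ d) :
    p ∣ ordCount G d + ordCount G (p * d) := by
  have := H4.frobenius_gcd_dvd_ncard (G := G) p {x | orderOf x = d} fun c hc y ⟨g, hg⟩ =>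
    hg.orderOf_eq.symm.trans hc
  rw [Nat.gcd_eq_left hG] at this
  have hd0 : d ≠ 0 := fun h => hd (h ▸ dvd_zero p)
  rw [ordCount, ordCount, ← Set.ncard_union_eq (Set.disjoint_left.mpr fun x h1 h2 =>
    hd ⟨d, h1.symm.trans h2⟩)]
  convert this using 2
  ext x
  simp only [Set.mem_union, Set.mem_setOf_eq, orderOf_pow]
  constructor
  · rintro (h | h)
    · rw [h, ((Nat.Prime.coprime_iff_not_dvd hp).mpr hd).symm.gcd_eq_one, Nat.div_one]
    · rw [h, Nat.gcd_mul_right_left, Nat.mul_div_cancel_left _ hp.pos]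
  · intro h
    have h1 := Nat.div_mul_cancel (Nat.gcd_dvd_left (orderOf x) p)
    rcases (Nat.dvd_prime hp).mp (Nat.gcd_dvd_right (orderOf x) p) with h2 | h2
    · left; rw [← h1, h, h2, mul_one]
    · right; rw [← h1, h, h2, mul_comm]

theorem prime_dvd_one_add_ordCount {p : ℕ} (hp : p.Prime) (hG : p ∣ Nat.card G) :
    p ∣ 1 + ordCount G p := by
  simpa [ordCount_one] using prime_dvd_ordCount_add hp hG hp.not_dvd_one

theorem not_dvd_ordCount {p : ℕ} (hp : p.Prime) (hG : p ∣ Nat.card G) : ¬ p ∣ ordCount G p :=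
  fun h => hp.not_dvd_one ((Nat.dvd_add_left h).mp (prime_dvd_one_add_ordCount hp hG))

theorem ordCount_lt {p d : ℕ} (hp : p.Prime) (hG : p ∣ Nat.card G) (hd : ¬ p ∣ d) (h2 : 2 < d)
    (h : ¬ p ∣ ordCount G d) : ordCount G p < ordCount G (p * d) := by
  have := Fact.mk hp
  have hco := (Nat.Prime.coprime_iff_not_dvd hp).mpr hd
  obtain ⟨y, hy, hyi⟩ : ∃ y : G, orderOf y = d ∧ ¬ p ∣ (centralizer ({y} : Set G)).index := by
    by_contra! hc
    exact h (Frob.dvd_ncard_of_dvd_index_centralizer _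
      (fun g x hx => (orderOf_injective (MulAut.conj g).toMonoidHom (MulAut.conj g).injective
        x).trans hx) hc)
  have : ∀ x : G, ∃ y : G, orderOf x = p → orderOf y = d ∧ Commute x y := fun x => by
    by_cases hx : orderOf x = p
    · obtain ⟨g, hg⟩ := Chr.exists_conj_mem_of_not_dvd_index hyi (x := x) ⟨1, by simpa using hx⟩
      refine ⟨(MulAut.conj g).symm y, fun _ => ⟨by rw [MulEquiv.orderOf_eq, hy], ?_⟩⟩
      simpa [mul_assoc] using Commute.map (mem_centralizer_singleton_iff.mp hg) (MulAut.conj g).symm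
    · exact ⟨1, fun h => absurd h hx⟩
  choose f hf using this
  obtain ⟨e, -, he⟩ := Nat.exists_mul_mod_eq_one_of_coprime hco.symm hp.one_lt
  have key : ∀ x z : G, orderOf x = p → orderOf z = d → Commute x z → (x * z) ^ (d * e) = x :=
    fun x z hx hz hc => by
      rw [hc.mul_pow, pow_mul z, ← hz, pow_orderOf_eq_one, one_pow, mul_one, hz,
        ← pow_mod_orderOf, hx, he, pow_one]
  have hinj : Set.InjOn (fun x => x * f x) {x : G | orderOf x = p} := fun a ha b hb hab => by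
    rw [← key a _ ha (hf a ha).1 (hf a ha).2, ← key b _ hb (hf b hb).1 (hf b hb).2]
    exact congrArg (· ^ (d * e)) hab
  have hord : ∀ x z : G, orderOf x = p → orderOf z = d → Commute x z → orderOf (x * z) = p * d :=
    fun x z hx hz hc => hx ▸ hz ▸ hc.orderOf_mul_eq_mul_orderOf_of_coprime (hx ▸ hz ▸ hco)
  rw [ordCount, ← Set.ncard_image_of_injOn hinj]
  obtain ⟨x, hx⟩ := exists_prime_orderOf_dvd_card' p hG
  refine Set.ncard_lt_ncard ⟨?_, fun hs => ?_⟩
  · rintro _ ⟨x, hx, rfl⟩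
    exact hord x _ hx (hf x hx).1 (hf x hx).2
  · have h1 : orderOf (f x)⁻¹ = d := by rw [orderOf_inv, (hf x hx).1]
    obtain ⟨a, ha, hax⟩ := hs (hord x _ hx h1 (hf x hx).2.inv_right)
    obtain rfl : a = x := by
      rw [← key a _ ha (hf a ha).1 (hf a ha).2, ← key x _ hx h1 (hf x hx).2.inv_right]
      exact congrArg (· ^ (d * e)) hax
    have h3 : f a ^ 2 = 1 := by rw [pow_two, mul_eq_one_iff_eq_inv]; exact mul_left_cancel hax
    exact absurd (Nat.le_of_dvd two_pos ((hf a ha).1 ▸ orderOf_dvd_of_pow_eq_one h3)) h2.not_ge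

theorem pow_eq_one_of_ordCount_sq {p k : ℕ} (hp : p.Prime) (h : ordCount G (p ^ 2) = 0) {x : G}
    (hx : orderOf x ∣ p ^ k) : x ^ p = 1 := by
  obtain ⟨j, -, hj⟩ := (Nat.dvd_prime_pow hp).mp hx
  rw [← orderOf_dvd_iff_pow_eq_one, hj]
  by_contra hne
  have h2 : 2 ≤ j := by
    by_contra! hlt
    exact hne (by simpa using pow_dvd_pow p (Nat.lt_succ_iff.mp hlt))
  refine ordCount_ne_zero_iff.mpr ⟨x ^ (orderOf x / p ^ 2), ?_⟩ h
  exact orderOf_pow_orderOf_div (orderOf_pos x).ne' (hj ▸ pow_dvd_pow p h2)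

theorem pow_dvd_one_add_ordCount {p k : ℕ} (hp : p.Prime) (h : ordCount G (p ^ 2) = 0)
    (hk : p ^ k ∣ Nat.card G) : p ^ k ∣ 1 + ordCount G p := by
  rcases k with _ | k
  · simp
  have := Fact.mk hp
  convert H4.frobenius_dvd_ncard_pow_eq_one hk using 1
  rw [ordCount, add_comm, ← Set.ncard_insert_of_notMem (a := 1) (by simpa using hp.one_lt.ne)]
  congr 1
  ext x
  simp only [Set.mem_insert_iff, Set.mem_setOf_eq]
  refine ⟨?_, fun hx => or_iff_not_imp_left.mpr fun h1 => orderOf_eq_prime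
    (pow_eq_one_of_ordCount_sq hp h (orderOf_dvd_of_pow_eq_one hx)) h1⟩
  rintro (rfl | hx)
  · simp
  · rw [pow_succ', pow_mul, ← hx, pow_orderOf_eq_one, one_pow]

theorem four_dvd_ordCount (h : 4 ∣ Nat.card G) : 4 ∣ 1 + ordCount G 2 + ordCount G 4 := by
  convert H4.frobenius_dvd_ncard_pow_eq_one h using 1
  rw [← ordCount_one (G := G), ordCount, ordCount, ordCount, ← Set.ncard_union_eq
    (Set.disjoint_left.mpr fun x h1 h2 => by simpa using h1.symm.trans h2), ← Set.ncard_union_eq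
    (Set.disjoint_left.mpr fun x h1 h2 => by
      rcases h1 with h1 | h1 <;> simpa using h1.symm.trans h2)]
  congr 1
  ext x
  simp only [Set.mem_union, Set.mem_setOf_eq, ← orderOf_dvd_iff_pow_eq_one]
  refine ⟨fun h => by rcases h with (h | h) | h <;> simp [h], fun h => ?_⟩
  have := Nat.le_of_dvd four_pos h
  interval_cases orderOf x <;> simp_all

theorem add_ordCount_le {a b : ℕ} (ha : a ≠ 1) (hb : b ≠ 1) (hab : a ≠ b) :
    1 + ordCount G a + ordCount G b ≤ Nat.card G := by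
  rw [← ordCount_one (G := G), ordCount, ordCount, ordCount, ← Set.ncard_union_eq
    (Set.disjoint_left.mpr fun x h1 h2 => ha (h2.symm.trans h1)), ← Set.ncard_union_eq
    (Set.disjoint_left.mpr fun x h1 h2 => by
      rcases h1 with h1 | h1
      exacts [hb (h2.symm.trans h1), hab (h1.symm.trans h2)])]
  exact Set.ncard_le_card _

/-- All non-zero numbers `ordCount G d` with `d > 2` lie in `{m, n}`. -/
def TwoVal (G : Type*) [Group G] (m n : ℕ) : Prop :=
  ∀ d, 2 < d → ordCount G d = 0 ∨ ordCount G d = m ∨ ordCount G d = n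

omit [Finite G] in
theorem TwoVal.symm {m n : ℕ} (h : TwoVal G m n) : TwoVal G n m := fun d hd => by
  have := h d hd; tauto

theorem TwoVal.prime {m n p : ℕ} (h : TwoVal G m n) (hp : p.Prime) (h2 : p ≠ 2)
    (hG : p ∣ Nat.card G) : ordCount G p = m ∨ ordCount G p = n :=
  (h p (lt_of_le_of_ne hp.two_le h2.symm)).resolve_left fun h0 =>
    not_dvd_ordCount hp hG (h0 ▸ dvd_zero p)

/-- If `p ∣ m + 1` and `p ∣ m + s` then `s` is the other value. -/
theorem TwoVal.eq_other {m n p d : ℕ} (h : TwoVal G m n) (hp : p.Prime) (h2 : p ≠ 2) (hd : 2 < d)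
    (h1 : p ∣ 1 + m) (h3 : p ∣ m + ordCount G d) : ordCount G d = n ∧ p ∣ m + n := by
  have hm : ¬ p ∣ m := fun h => hp.not_dvd_one ((Nat.dvd_add_left h).mp h1)
  rcases h d hd with h | h | h <;> rw [h] at h3
  · exact absurd h3 hm
  · rw [← two_mul, hp.dvd_mul] at h3
    exact absurd h3 (not_or.mpr ⟨fun h => h2 ((Nat.prime_dvd_prime_iff_eq hp Nat.prime_two).mp h),
      hm⟩)
  · exact ⟨h, h3⟩

theorem not_dvd_of_dvd_add {m n p : ℕ} (hp : p.Prime) (h1 : p ∣ 1 + m) (h3 : p ∣ m + n) :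
    ¬ p ∣ n := fun h =>
  hp.not_dvd_one ((Nat.dvd_add_left ((Nat.dvd_add_left h).mp h3)).mp h1)

theorem TwoVal.mixed {m n p q : ℕ} (h : TwoVal G m n) (hp : p.Prime) (hq : q.Prime) (hp2 : p ≠ 2)
    (hq2 : q ≠ 2) (hpq : p ≠ q) (hpG : p ∣ Nat.card G) (h1 : ordCount G p = m)
    (h2 : ordCount G q = n) (hn : p ∣ m + n) : False := by
  have hpq' := mt (Nat.prime_dvd_prime_iff_eq hp hq).mp hpq
  have h3 := h1 ▸ prime_dvd_one_add_ordCount hp hpG
  have h4 := not_dvd_of_dvd_add hp h3 hn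
  have hq3 := lt_of_le_of_ne hq.two_le hq2.symm
  have h5 := ordCount_lt hp hpG hpq' hq3 (h2 ▸ h4)
  have h6 := h2 ▸ prime_dvd_ordCount_add hp hpG hpq'
  exact h5.ne' ((h.symm (p * q) (by nlinarith [hp.two_le])).elim (fun h => by omega) fun h =>
    h.elim (fun h => by
      rw [h, ← two_mul, hp.dvd_mul] at h6
      exact absurd h6 (not_or.mpr ⟨fun h =>
        hp2 ((Nat.prime_dvd_prime_iff_eq hp Nat.prime_two).mp h), h4⟩)) fun h => h.trans h1.symm)

theorem TwoVal.same {m n p q : ℕ} (h : TwoVal G m n) (hp : p.Prime) (hq : q.Prime) (hp2 : p ≠ 2)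
    (hpq : p ≠ q) (hpG : p ∣ Nat.card G) (h1 : ordCount G p = m)
    (h2 : ordCount G q = m) : ordCount G (p * q) = n ∧ p ∣ m + n :=
  h.eq_other hp hp2 (by nlinarith [hp.two_le, hq.two_le]) (h1 ▸ prime_dvd_one_add_ordCount hp hpG)
    (h2 ▸ prime_dvd_ordCount_add hp hpG (mt (Nat.prime_dvd_prime_iff_eq hp hq).mp hpq))

theorem TwoVal.ne_of_odd {m n p q : ℕ} (h : TwoVal G m n) (hodd : ¬ 2 ∣ Nat.card G) (hp : p.Prime)
    (hq : q.Prime) (hpq : p ≠ q) (hpG : p ∣ Nat.card G) (hqG : q ∣ Nat.card G) :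
    ordCount G p ≠ ordCount G q := by
  have h2 : ∀ r, r ∣ Nat.card G → r ≠ 2 := fun r hr h => hodd (h ▸ hr)
  intro he
  wlog h1 : ordCount G p = m generalizing m n
  · exact this h.symm ((h.prime hp (h2 p hpG) hpG).resolve_left h1)
  have h3 : ∀ r : ℕ, r.Prime → r ∣ Nat.card G → ordCount G r = m ∧ r ∣ m + n := by
    intro r hr hrG
    have h4 := (h.same hp hq (h2 p hpG) hpq hpG h1 (he ▸ h1)).2
    by_cases hrp : r = p
    · exact hrp ▸ ⟨h1, h4⟩
    have h5 := (h.prime hr (h2 r hrG) hrG).resolve_right fun h5 =>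
      h.mixed hp hr (h2 p hpG) (h2 r hrG) (Ne.symm hrp) hpG h1 h5 h4
    exact ⟨h5, (h.same hr hp (h2 r hrG) hrp hrG h5 h1).2⟩
  have h4 : Nat.card G ∣ 1 + m := (Nat.dvd_iff_prime_pow_dvd_dvd _ _).mpr fun r k hr hk => by
    rcases k with _ | k
    · simp
    have hrG := (dvd_pow_self r k.succ_ne_zero).trans hk
    have h5 := (h3 r hr hrG).1 ▸ prime_dvd_one_add_ordCount hr hrG
    have h6 := prime_dvd_ordCount_of_sq_dvd (G := G) hr dvd_rfl
    refine (h3 r hr hrG).1 ▸ pow_dvd_one_add_ordCount hr ?_ hk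
    rcases h (r ^ 2) (by nlinarith [hr.two_le]) with h | h | h
    · exact h
    · exact absurd ((Nat.dvd_add_left (h ▸ h6)).mp h5) hr.not_dvd_one
    · exact absurd (h ▸ h6) (not_dvd_of_dvd_add hr h5 (h3 r hr hrG).2)
  have h5 := add_ordCount_le (G := G) hp.one_lt.ne' hq.one_lt.ne' hpq
  have h6 := Nat.le_of_dvd (by omega) h4
  exact not_dvd_ordCount hp hpG (by rw [show ordCount G p = 0 by omega]; simp)

theorem TwoVal.card_primeFactors_le {m n : ℕ} (h : TwoVal G m n) (hodd : ¬ 2 ∣ Nat.card G) :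
    (Nat.card G).primeFactors.card ≤ 2 := by
  by_contra! h3
  obtain ⟨p, hp, q, hq, r, hr, h4, h5, h6⟩ := Finset.two_lt_card.mp h3
  simp only [Nat.mem_primeFactors] at hp hq hr
  have := h.ne_of_odd hodd hp.1 hq.1 h4 hp.2.1 hq.2.1
  have := h.ne_of_odd hodd hp.1 hr.1 h5 hp.2.1 hr.2.1
  have := h.ne_of_odd hodd hq.1 hr.1 h6 hq.2.1 hr.2.1
  have := h.prime hp.1 (fun h => hodd (h ▸ hp.2.1)) hp.2.1
  have := h.prime hq.1 (fun h => hodd (h ▸ hq.2.1)) hq.2.1
  have := h.prime hr.1 (fun h => hodd (h ▸ hr.2.1)) hr.2.1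
  omega

theorem exists_twoVal_of_ncard_eq_three (h : (((fun m : ℕ => Nat.card {g : G // orderOf g = m}) ''
    Set.range (orderOf : G → ℕ))).ncard = 3) : ∃ m n, TwoVal G m n ∧
      ∀ d, ordCount G d = 0 ∨ ordCount G d = 1 ∨ ordCount G d = m ∨ ordCount G d = n := by
  have h1 : 1 ∈ ((fun m : ℕ => Nat.card {g : G // orderOf g = m}) ''
      Set.range (orderOf : G → ℕ)) := ⟨1, ⟨1, orderOf_one⟩, ordCount_one⟩
  rw [← Set.ncard_diff_singleton_add_one h1] at h
  obtain ⟨m, n, -, hmn⟩ := Set.ncard_eq_two.mp (Nat.succ_injective h)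
  have h2 : ∀ d, ordCount G d = 0 ∨ ordCount G d = 1 ∨ ordCount G d = m ∨ ordCount G d = n :=
    fun d => or_iff_not_imp_left.mpr fun h0 => or_iff_not_imp_left.mpr fun h1 =>
      hmn.le ⟨⟨d, ordCount_ne_zero_iff.mp h0, rfl⟩, h1⟩
  refine ⟨m, n, fun d hd => ?_, h2⟩
  have := two_dvd_ordCount (G := G) hd
  have := h2 d
  omega

end CfsgLib.H5
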