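import Cfsg.Agent.Lib.H6QuadD
import Cfsg.Agent.Lib.PermTwoPrimesB

/-! Miller's bound on the degree of transitivity: orbits of prime length. -/

set_option autoImplicit false
set_option linter.unusedSectionVars false
set_option linter.style.haveILetI false

namespace CfsgLib.H6Q

open Equiv Equiv.Perm Subgroup MulAction CfsgLib.H4
open scoped commutatorElement

variable {α : Type*}

theorem orb_norm {P : Subgroup (Perm α)} {g : Perm α} (hg : g ∈ normalizer (P : Set (Perm α)))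
    {x z : α} (hz : z ∈ orb P x) : g z ∈ orb P (g x) := by
  obtain ⟨y, hy, rfl⟩ := hz
  exact ⟨g * y * g⁻¹, (mem_normalizer_iff.1 hg y).1 hy, by simp⟩

theorem isCyclic_mulAut_of_prime {C : Type*} [Group C] {p : ℕ} (hp : p.Prime)
    (h : Nat.card C = p) : IsCyclic (MulAut C) := by
  haveI : Fact p.Prime := ⟨hp⟩
  haveI : IsCyclic C := isCyclic_of_prime_card h
  haveI : IsCyclic (ZMod (Nat.card C))ˣ := h ▸ ZMod.isCyclic_units_prime hp
  exact isCyclic_of_surjective (IsCyclic.mulAutMulEquiv C).symm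
    (IsCyclic.mulAutMulEquiv C).symm.surjective

section Orbit

variable [Fintype α] [DecidableEq α] {p : ℕ} [hp : Fact p.Prime] {P K : Subgroup (Perm α)}
  {x : α}

theorem exists_rho (hP : IsPGroup p P) (hx : (orb P x).ncard = p)
    (hK : K ≤ normalizer (P : Set (Perm α))) (hKx : ∀ g ∈ K, g x ∈ orb P x) (hPK : P ≤ K) :
    ∃ (ρ : K →* Perm (orb P x)) (c : Perm (orb P x)),
      (∀ g : K, ∀ z : orb P x, (ρ g z : α) = (g : Perm α) z) ∧ orderOf c = p ∧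
      (∀ w, w ∈ zpowers c ↔ ∃ y : K, (y : Perm α) ∈ P ∧ ρ y = w) ∧
      (∀ g, ρ g ∈ normalizer (zpowers c : Set (Perm (orb P x)))) ∧
      (∀ w, Commute w c → w ∈ zpowers c) ∧
      (∀ w ∈ zpowers c, ∀ z, w z = z → w = 1) := by
  classical
  have hin : ∀ g ∈ K, ∀ z ∈ orb P x, g z ∈ orb P x := fun g hg z hz =>
    orb_trans (hKx g hg) (orb_norm (hK hg) hz)
  have hpres : ∀ g : K, ∀ z, (g : Perm α) z ∈ orb P x ↔ z ∈ orb P x := fun g z =>
    ⟨fun h => by simpa using hin _ (inv_mem g.2) _ h, hin _ g.2 z⟩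
  let ρ : K →* Perm (orb P x) := MonoidHom.mk'
    (fun g => (g : Perm α).subtypePerm (p := fun z => z ∈ orb P x) (hpres g)) (fun _ _ => rfl)
  have hρ : ∀ g : K, ∀ z : orb P x, (ρ g z : α) = (g : Perm α) z := fun _ _ => rfl
  have hcard : Nat.card (orb P x) = p := by rw [Nat.card_coe_set_eq, hx]
  let Q := (P.subgroupOf K).map ρ
  have hQ : IsPGroup p Q := (hP.comap_subtype).map ρ
  obtain ⟨z, hz, hzx⟩ : ∃ z ∈ orb P x, z ∉ ({x} : Set α) :=
    Set.exists_mem_notMem_of_ncard_lt_ncard (by rw [hx, Set.ncard_singleton]; exact hp.out.one_lt)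
      (Set.toFinite _)
  obtain ⟨y, hy, rfl⟩ := hz
  have hc : ρ ⟨y, hPK hy⟩ ∈ Q := mem_map_of_mem _ hy
  have hc1 : ρ ⟨y, hPK hy⟩ ≠ 1 := fun h => hzx (by
    have := hρ ⟨y, hPK hy⟩ ⟨x, self_mem_orb _ _⟩
    rw [h] at this
    exact this.symm)
  have hQc : Nat.card Q = p := by
    obtain ⟨j, hj⟩ := hQ.exists_card_eq
    have h1 : Nat.card Q ∣ p.factorial := by
      rw [← hcard, ← Nat.card_perm]
      exact card_subgroup_dvd_card Q
    have h2 : j ≠ 0 := by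
      rintro rfl
      rw [pow_zero, card_eq_one] at hj
      rw [hj, mem_bot] at hc
      exact hc1 hc
    have h3 : j ≤ 1 := by
      by_contra h
      have : p * p ∣ p * (p - 1).factorial := by
        rw [Nat.mul_factorial_pred hp.out.ne_zero, ← pow_two]
        exact (pow_dvd_pow p (by omega)).trans (hj ▸ h1)
      have := (hp.out.dvd_factorial).1 (Nat.dvd_of_mul_dvd_mul_left hp.out.pos this)
      have := hp.out.pos
      omega
    rw [hj, show j = 1 by omega, pow_one]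
  have ho : orderOf (ρ ⟨y, hPK hy⟩) = p := by
    have := orderOf_dvd_natCard Q hc
    rw [hQc, Nat.dvd_prime hp.out, orderOf_eq_one_iff] at this
    exact this.resolve_left hc1
  have hz : zpowers (ρ ⟨y, hPK hy⟩) = Q :=
    eq_of_le_of_card_ge (zpowers_le.2 hc) (by rw [Nat.card_zpowers, ho, hQc])
  obtain ⟨n, hn1, hn2⟩ := card_support_of_orderOf_prime hp.out ho
  have hle := Finset.card_le_univ (ρ ⟨y, hPK hy⟩).support
  rw [← Nat.card_eq_fintype_card, hcard, hn1] at hle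
  have hn0 : n = 0 := by
    have := hp.out.pos
    nlinarith
  have hsup : (ρ ⟨y, hPK hy⟩).support = Finset.univ := by
    apply Finset.eq_univ_of_card
    rw [← Nat.card_eq_fintype_card, hcard, hn1, hn0]; simp
  refine ⟨ρ, ρ ⟨y, hPK hy⟩, hρ, ho, fun w => ?_, fun g => ?_, fun w hw => ?_, fun w hw z e => ?_⟩
  · rw [hz]
    exact ⟨fun ⟨y, h1, h2⟩ => ⟨y, h1, h2⟩, fun ⟨y, h1, h2⟩ => ⟨y, h1, h2⟩⟩
  · rw [hz]
    haveI : (P.subgroupOf K).Normal := (normal_subgroupOf_iff_le_normalizer hPK).2 hK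
    exact le_normalizer_map ρ (mem_map_of_mem _ (by rw [normalizer_eq_top]; exact mem_top g))
  · obtain ⟨i, hi⟩ := exists_zpow_eq_on_support (hn2 hn0) hw
    exact ⟨i, Equiv.ext fun z => (hi z (hsup ▸ Finset.mem_univ z)).symm⟩
  · exact eq_one_of_mem_zpowers_cycle (hn2 hn0) hw (hsup ▸ Finset.mem_univ z) e

theorem fix_orb (hP : IsPGroup p P) (hx : (orb P x).ncard = p) {y : Perm α} (hy : y ∈ P)
    {z : α} (hz : z ∈ orb P x) (h : y z = z) : ∀ w ∈ orb P x, y w = w := by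
  obtain ⟨ρ, c, h1, -, h3, -, -, h6⟩ := exists_rho hP hx le_normalizer
    (fun g hg => ⟨g, hg, rfl⟩) le_rfl
  have := h6 _ ((h3 _).2 ⟨⟨y, hy⟩, hy, rfl⟩) ⟨z, hz⟩ (Subtype.ext ((h1 _ _).trans h))
  intro w hw
  have e := h1 ⟨y, hy⟩ ⟨w, hw⟩
  rw [this] at e
  exact e.symm

theorem pow_orb (hP : IsPGroup p P) (hx : (orb P x).ncard = p) {y : Perm α} (hy : y ∈ P) :
    ∀ w ∈ orb P x, (y ^ p) w = w := by
  obtain ⟨ρ, c, h1, h2, h3, -, -, -⟩ := exists_rho hP hx le_normalizer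
    (fun g hg => ⟨g, hg, rfl⟩) le_rfl
  obtain ⟨i, hi⟩ := (h3 _).2 ⟨⟨y, hy⟩, hy, rfl⟩
  intro w hw
  have e := h1 (⟨y, hy⟩ ^ p) ⟨w, hw⟩
  rw [map_pow, ← hi, ← zpow_natCast, ← zpow_mul, mul_comm, zpow_mul, zpow_natCast, ← h2,
    pow_orderOf_eq_one, one_zpow, h2] at e
  exact e.symm

theorem gen_orb (hP : IsPGroup p P) (hx : (orb P x).ncard = p) {y : Perm α} (hy : y ∈ P)
    (h : y x ≠ x) {y' : Perm α} (hy' : y' ∈ P) : ∃ i : ℤ, ∀ w ∈ orb P x, y' w = (y ^ i) w := by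
  obtain ⟨ρ, c, h1, h2, h3, -, -, -⟩ := exists_rho hP hx le_normalizer
    (fun g hg => ⟨g, hg, rfl⟩) le_rfl
  have a1 := (h3 _).2 ⟨⟨y, hy⟩, hy, rfl⟩
  have a2 := (h3 _).2 ⟨⟨y', hy'⟩, hy', rfl⟩
  have hne : ρ ⟨y, hy⟩ ≠ 1 := fun e => h (by
    have := h1 ⟨y, hy⟩ ⟨x, self_mem_orb _ _⟩
    rw [e] at this
    exact this.symm)
  have : zpowers (ρ ⟨y, hy⟩) = zpowers c := by
    refine eq_of_le_of_card_ge (zpowers_le.2 a1) ?_
    have := orderOf_dvd_of_mem_zpowers a1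
    rw [h2, Nat.dvd_prime hp.out, orderOf_eq_one_iff] at this
    rw [Nat.card_zpowers, Nat.card_zpowers, h2, this.resolve_left hne]
  rw [← this] at a2
  obtain ⟨i, hi⟩ := a2
  refine ⟨i, fun w hw => ?_⟩
  have e1 := h1 ⟨y', hy'⟩ ⟨w, hw⟩
  have e2 := h1 (⟨y, hy⟩ ^ i) ⟨w, hw⟩
  rw [map_zpow] at e2
  exact e1.symm.trans ((congrArg (fun f : Perm (orb P x) => (f ⟨w, hw⟩ : α)) hi).symm.trans e2)

theorem pow_of_commute (hP : IsPGroup p P) (hx : (orb P x).ncard = p) {y g : Perm α} (hy : y ∈ P)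
    (h : y x ≠ x) (hg : g x ∈ orb P x) (hc : Commute g y) : (g ^ p) x = x := by
  obtain ⟨y', hy', e⟩ := hg
  obtain ⟨i, hi⟩ := gen_orb hP hx hy h hy'
  rw [hi x (self_mem_orb _ _)] at e
  have : ∀ m : ℕ, (g ^ m) x = ((y ^ i) ^ m) x := by
    intro m
    induction m with
    | zero => rfl
    | succ m ih =>
      rw [pow_succ', Perm.mul_apply, ih, comm_apply ((hc.zpow_right i).pow_right m).eq, ← e,
        pow_succ, Perm.mul_apply]
  rw [this]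
  exact pow_orb hP hx (zpow_mem hy i) x (self_mem_orb _ _)

theorem comm_pow_orb (hP : IsPGroup p P) (hx : (orb P x).ncard = p)
    (hK : K ≤ normalizer (P : Set (Perm α))) (hKx : ∀ g ∈ K, g x ∈ orb P x) (hPK : P ≤ K)
    {a b : Perm α} (ha : a ∈ K) (hb : b ∈ K) : (⁅a, b⁆ ^ p) x = x := by
  obtain ⟨ρ, c, h1, h2, -, h4, h5, -⟩ := exists_rho hP hx hK hKx hPK
  obtain ⟨i, hi⟩ := h5 _ (commute_commutator_of_mem_normalizer (h4 ⟨a, ha⟩) (h4 ⟨b, hb⟩))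
  have e := h1 (⁅(⟨a, ha⟩ : K), ⟨b, hb⟩⁆ ^ p) ⟨x, self_mem_orb _ _⟩
  rw [map_pow, map_commutatorElement, ← hi, ← zpow_natCast, ← zpow_mul, mul_comm, zpow_mul,
    zpow_natCast, ← h2, pow_orderOf_eq_one, one_zpow, h2] at e
  exact e.symm

theorem cyc_orb (hP : IsPGroup p P) (hx : (orb P x).ncard = p)
    (hK : K ≤ normalizer (P : Set (Perm α))) (hKx : ∀ g ∈ K, g x ∈ orb P x) (hPK : P ≤ K) :
    ∃ k ∈ K, ∀ g ∈ K, ∃ j : ℤ, ∃ y ∈ P, ∀ z ∈ orb P x, (y⁻¹ * (k ^ j)⁻¹ * g) z = z := by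
  obtain ⟨ρ, c, h1, h2, h3, h4, h5, -⟩ := exists_rho hP hx hK hKx hPK
  let L : K →* MulAut (zpowers c) := (zpowers c).normalizerMonoidHom.comp (ρ.codRestrict _ h4)
  haveI := isCyclic_mulAut_of_prime hp.out (show Nat.card (zpowers c) = p by
    rw [Nat.card_zpowers, h2])
  obtain ⟨⟨_, k, rfl⟩, hk⟩ := IsCyclic.exists_generator (α := L.range)
  refine ⟨k, k.2, fun g hg => ?_⟩
  obtain ⟨j, hj⟩ := hk ⟨_, ⟨g, hg⟩, rfl⟩
  have hj' : L k ^ j = L ⟨g, hg⟩ := congrArg Subtype.val hj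
  have hker : ρ.codRestrict _ h4 ((k ^ j)⁻¹ * ⟨g, hg⟩) ∈ (zpowers c).normalizerMonoidHom.ker := by
    change L ((k ^ j)⁻¹ * ⟨g, hg⟩) = 1
    rw [map_mul, map_inv, map_zpow, hj', inv_mul_cancel]
  rw [normalizerMonoidHom_ker, mem_subgroupOf] at hker
  obtain ⟨y, hy, e⟩ := (h3 _).1 (h5 _ (hker c (mem_zpowers c)).symm)
  refine ⟨j, y, hy, fun z hz => ?_⟩
  have e1 := h1 ((k ^ j)⁻¹ * ⟨g, hg⟩) ⟨z, hz⟩
  have e2 := h1 y ⟨z, hz⟩
  rw [e] at e2
  rw [mul_assoc, Perm.mul_apply]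
  exact inv_of (e2.symm.trans e1)

end Orbit

end CfsgLib.H6Q
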