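import Cfsg.Agent.Lib.H6Miller

/-! Miller's bound on the degree of transitivity. -/

set_option autoImplicit false
set_option linter.unusedSectionVars false
set_option linter.style.haveILetI false
set_option maxRecDepth 100000

namespace CfsgLib.H6Q

open Equiv Equiv.Perm Subgroup MulAction CfsgLib.H4
open scoped commutatorElement

variable {α : Type*}

theorem eq_of_invol_zpowers {C : Type*} [Group C] [Finite C] {w u v : C} (hu : u ∈ zpowers w)
    (hv : v ∈ zpowers w) (hu1 : u ≠ 1) (hv1 : v ≠ 1) (hu2 : u ^ 2 = 1) (hv2 : v ^ 2 = 1) :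
    u = v := by
  classical
  by_contra h
  haveI := Fintype.ofFinite (zpowers w)
  have h1 := IsCyclic.card_pow_eq_one_le (α := zpowers w) (n := 2) (by norm_num)
  have : 2 < (Finset.univ.filter fun a : zpowers w => a ^ 2 = 1).card := by
    rw [Finset.two_lt_card_iff]
    refine ⟨1, ⟨u, hu⟩, ⟨v, hv⟩, by simp, by simp [Subtype.ext_iff, hu2],
      by simp [Subtype.ext_iff, hv2], ?_, ?_, ?_⟩
    · exact fun e => hu1 (congrArg Subtype.val e).symm
    · exact fun e => hv1 (congrArg Subtype.val e).symm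
    · exact fun e => h (congrArg Subtype.val e)
  omega

theorem exists_perm_hom {β γ : Type*} [Finite β] [Finite γ] (h : Nat.card β ≤ Nat.card γ) :
    ∃ ι : Perm β →* Perm γ, Function.Injective ι := by
  haveI := Fintype.ofFinite β
  haveI := Fintype.ofFinite γ
  rw [Nat.card_eq_fintype_card, Nat.card_eq_fintype_card] at h
  obtain ⟨e⟩ := Function.Embedding.nonempty_of_card_le h
  exact ⟨viaEmbeddingHom e, viaEmbeddingHom_injective e⟩

theorem eq_one_of_pow_coprime {C : Type*} [Group C] {g : C} {m n : ℕ} (h : m.Coprime n)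
    (hm : g ^ m = 1) (hn : g ^ n = 1) : g = 1 := by
  rw [← pow_one g, ← h.gcd_eq_one]
  exact pow_gcd_eq_one.2 ⟨hm, hn⟩

/-- the setting of Miller's theorem -/
structure MS [Fintype α] [DecidableEq α] (G P : Subgroup (Perm α)) (F : Finset α) (p k : ℕ) :
    Prop where
  syl : IsSylowIn p P (fixSub G (F : Set α))
  card : Nat.card α = k * p + F.card
  k1 : 1 ≤ k
  kp : k < p
  tr : IsMultiplyPretransitive G α (F.card + 1)
  hmin : ∀ g ∈ G, g.support.card ≤ F.card + 1 → g = 1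
  hcyc : ∀ y ∈ P, y.support.card ≤ p → y = 1

namespace MS

variable [Fintype α] [DecidableEq α] {G P : Subgroup (Perm α)} {F : Finset α} {p k : ℕ}
  [hp : Fact p.Prime] (M : MS G P F p k)
include M

theorem le_card : F.card + 1 ≤ Nat.card α := by
  have := M.card
  have := Nat.mul_le_mul M.k1 hp.out.two_le
  omega

theorem ncard_compl : (F : Set α)ᶜ.ncard = k * p := by
  have := Set.ncard_add_ncard_compl (F : Set α)
  rw [Set.ncard_coe_finset, M.card] at this
  omega

theorem notMem_of_orb {x z : α} (hx : x ∉ F) (hz : z ∈ orb P x) : z ∉ F :=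
  orb_fixSub_notMem (S := (F : Set α)) hx (orb_mono M.syl.le _ hz)

theorem orb_card {x : α} (hx : x ∉ F) : (orb P x).ncard = p := by
  have e1 : orb (fixSub G (F : Set α)) x = (F : Set α)ᶜ := by
    ext z
    refine ⟨orb_fixSub_notMem hx, fun hz => ?_⟩
    obtain ⟨u, hu, hue⟩ := exists_eq_on_of_multiply M.tr M.le_card (insert x F)
      (by rw [Finset.card_insert_of_notMem hx]) (swap x z) (swap x z).injective.injOn
    refine ⟨u, ⟨hu, fun w hw => ?_⟩, by rw [hue x (by simp), swap_apply_left]⟩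
    rw [hue w (Finset.mem_insert_of_mem hw), swap_apply_of_ne_of_ne]
    · rintro rfl; exact hx hw
    · rintro rfl; exact hz hw
  have e2 := card_eq_orb (fixSub G (F : Set α)) (fixSub (fixSub G (F : Set α)) {x}) x
    fun g => by simp [mem_fixSub (F := {x})]
  rw [e1, M.ncard_compl] at e2
  obtain ⟨j, hj⟩ := M.syl.isPGroup.exists_card_eq
  obtain ⟨i, -, hi⟩ := (Nat.dvd_prime_pow hp.out).1 (hj ▸ ncard_orb_dvd P x)
  have hle : (orb P x).ncard ≤ k * p := by
    rw [← M.ncard_compl]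
    exact Set.ncard_le_ncard (fun z hz => M.notMem_of_orb hx hz) (Set.toFinite _)
  have h1 : i ≤ 1 := by
    by_contra h
    have h2 : p ^ 2 ≤ p ^ i := Nat.pow_le_pow_right hp.out.pos (by omega)
    have h3 := Nat.mul_lt_mul_of_pos_right M.kp hp.out.pos
    nlinarith
  have h0 : i ≠ 0 := by
    rintro rfl
    obtain ⟨y, hy⟩ := Set.ncard_eq_one.1 hi
    have hPle : P ≤ fixSub (fixSub G (F : Set α)) {x} := by
      intro g hg
      refine ⟨M.syl.le hg, ?_⟩
      intro z hz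
      rw [Set.mem_singleton_iff.1 hz]
      have e1 : x ∈ ({y} : Set α) := hy ▸ self_mem_orb _ _
      have e2 : g x ∈ ({y} : Set α) := hy ▸ ⟨g, hg, rfl⟩
      rw [Set.mem_singleton_iff] at e1 e2
      rw [e2, e1]
    apply M.syl.not_dvd
    rw [← relIndex_mul_relIndex _ _ _ hPle (fixSub_le _ _)]
    refine Dvd.dvd.mul_left ?_ _
    have := card_mul_relIndex (fixSub_le (fixSub G (F : Set α)) {x})
    rw [e2, mul_comm] at this
    rw [Nat.eq_of_mul_eq_mul_right Nat.card_pos this]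
    exact dvd_mul_left _ _
  rw [hi, show i = 1 by omega, pow_one]

theorem exists_move {x : α} (hx : x ∉ F) : ∃ y ∈ P, y x ≠ x := by
  obtain ⟨z, ⟨y, hy, rfl⟩, hzx⟩ : ∃ z ∈ orb P x, z ∉ ({x} : Set α) :=
    Set.exists_mem_notMem_of_ncard_lt_ncard
      (by rw [M.orb_card hx, Set.ncard_singleton]; exact hp.out.one_lt) (Set.toFinite _)
  exact ⟨y, hy, hzx⟩

theorem pres {g : Perm α} (hg : g ∈ normalizer (P : Set (Perm α))) (x : α) :
    g x ∈ F ↔ x ∈ F := by
  have : ∀ {g : Perm α}, g ∈ normalizer (P : Set (Perm α)) → ∀ x, g x ∈ F → x ∈ F := by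
    intro g hg x h
    by_contra hx
    obtain ⟨y, hy, e⟩ := M.exists_move hx
    have := (M.syl.le ((mem_normalizer_iff.1 hg y).1 hy)).2 _ h
    simp only [Perm.mul_apply, iav] at this
    exact e (g.injective this)
  exact ⟨this hg x, fun h => this (inv_mem hg) _ (by rwa [iav])⟩

theorem eq_one_of_fix {g : Perm α} (hg : g ∈ G) (h : ∀ x ∉ F, g x = x) : g = 1 := by
  refine M.hmin g hg ((Finset.card_le_card (t := F) fun x hx => ?_).trans (Nat.le_succ _))
  by_contra hF
  exact mem_support.1 hx (h x hF)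

theorem exists_phi : ∃ φ : ↥(G ⊓ normalizer (P : Set (Perm α))) →* Perm F,
    Function.Surjective φ ∧ ∀ g, ∀ x : F, (φ g x : α) = (g : Perm α) x := by
  refine ⟨MonoidHom.mk' (fun g => (g : Perm α).subtypePerm (p := fun z => z ∈ F)
    (M.pres (mem_inf.1 g.2).2)) (fun _ _ => rfl), fun τ => ?_, fun _ _ => rfl⟩
  obtain ⟨u, hu, hue⟩ := exists_eq_on_of_multiply M.tr M.le_card F (Nat.le_succ _)
    (ofSubtype τ) (ofSubtype τ).injective.injOn
  obtain ⟨v, hv, hv', hve⟩ := witt M.syl hu (maps_of_eq_on (F := (F : Set α)) hue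
    fun x hx => (ofSubtype_apply_mem_iff_mem τ x).2 hx)
  refine ⟨⟨v, mem_inf.2 ⟨hv, hv'⟩⟩, ?_⟩
  ext x
  change v x = _
  rw [hve x x.2, hue x x.2, ofSubtype_apply_coe]

theorem exists_pi : ∃ π : ↥(G ⊓ normalizer (P : Set (Perm α))) →* Perm (Fin k),
    ∀ g, π g = 1 → ∀ x ∉ F, (g : Perm α) x ∈ orb P x := by
  classical
  let S : Finset (Set α) := Fᶜ.image (orb P)
  have hS : ∀ O, O ∈ S ↔ ∃ x ∉ F, orb P x = O := by
    intro O; simp [S]
  have himg : ∀ g ∈ normalizer (P : Set (Perm α)), ∀ x, g '' orb P x = orb P (g x) := by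
    intro g hg x
    ext z
    constructor
    · rintro ⟨w, hw, rfl⟩
      exact orb_norm hg hw
    · intro h
      exact ⟨g⁻¹ z, by simpa using orb_norm (inv_mem hg) h, aiv g z⟩
  letI : MulAction ↥(G ⊓ normalizer (P : Set (Perm α))) S :=
    { smul := fun g O => ⟨(g : Perm α) '' O, by
        obtain ⟨x, hx, e⟩ := (hS _).1 O.2
        rw [← e, himg _ (mem_inf.1 g.2).2]
        exact (hS _).2 ⟨_, fun h => hx ((M.pres (mem_inf.1 g.2).2 x).1 h), rfl⟩⟩
      one_smul := fun O => Subtype.ext (Set.image_id _)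
      mul_smul := fun a b O => Subtype.ext (Set.image_comp (a : Perm α) (b : Perm α) _) }
  obtain ⟨ι, hι⟩ := exists_perm_hom (β := S) (γ := Fin k) (by
    rw [Nat.card_eq_fintype_card, Fintype.card_coe, Nat.card_fin]
    have := Finset.mul_card_image_le_card (f := orb P) Fᶜ p (fun O hO => by
      obtain ⟨x, hx, rfl⟩ := (hS O).1 hO
      rw [← M.orb_card hx, ← Set.ncard_coe_finset]
      refine Set.ncard_le_ncard (fun z hz => ?_) (Set.toFinite _)
      simp only [Finset.coe_filter, Finset.mem_compl, Set.mem_setOf_eq]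
      exact ⟨M.notMem_of_orb hx hz, orb_eq hz⟩)
    rw [← Set.ncard_coe_finset Fᶜ, Finset.coe_compl, M.ncard_compl, mul_comm] at this
    exact Nat.le_of_mul_le_mul_right this hp.out.pos)
  refine ⟨ι.comp (MulAction.toPermHom _ S), fun g hg x hx => ?_⟩
  · rw [MonoidHom.comp_apply, map_eq_one_iff _ hι] at hg
    have e : (g : Perm α) '' orb P x = orb P x :=
      congrArg (fun f : Perm S => (f ⟨orb P x, (hS _).2 ⟨x, hx, rfl⟩⟩).1) hg
    rw [← e]
    exact ⟨x, self_mem_orb _ _, rfl⟩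

theorem exists_K : ∃ K : Subgroup (Perm α), ∀ g, g ∈ K ↔
    g ∈ G ⊓ normalizer (P : Set (Perm α)) ∧ ∀ x ∉ F, g x ∈ orb P x :=
  ⟨{ carrier := {g | g ∈ G ⊓ normalizer (P : Set (Perm α)) ∧ ∀ x ∉ F, g x ∈ orb P x}
     one_mem' := ⟨one_mem _, fun x _ => self_mem_orb _ x⟩
     mul_mem' := fun ha hb => ⟨mul_mem ha.1 hb.1, fun x hx =>
       orb_trans (hb.2 x hx) (ha.2 _ (M.notMem_of_orb hx (hb.2 x hx)))⟩
     inv_mem' := fun {a} ha => ⟨inv_mem ha.1, fun x hx => orb_symm (by
       have := ha.2 (a⁻¹ x) fun h => hx ((M.pres (inv_mem (mem_inf.1 ha.1).2) x).1 h)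
       rwa [aiv] at this)⟩ }, fun _ => Iff.rfl⟩

theorem P_le : P ≤ G ⊓ normalizer (P : Set (Perm α)) :=
  le_inf (M.syl.le.trans (fixSub_le _ _)) le_normalizer

theorem eq_one_of_support {y : Perm α} (hy : y ∈ P) {S : Set α} (hS : Disjoint (F : Set α) S)
    (hc : k * p ≤ S.ncard + p) (h : ∀ x ∈ S, y x = x) : y = 1 := by
  apply M.hcyc y hy
  have h1 : (y.support : Set α) ⊆ ((F : Set α) ∪ S)ᶜ := by
    rintro x hx (h' | h')
    · exact mem_support.1 hx ((M.syl.le hy).2 x h')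
    · exact mem_support.1 hx (h x h')
  have h2 := Set.ncard_le_ncard h1 (Set.toFinite _)
  have h3 := Set.ncard_add_ncard_compl ((F : Set α) ∪ S)
  rw [Set.ncard_union_eq hS (Set.toFinite _) (Set.toFinite _), Set.ncard_coe_finset, M.card] at h3
  rw [Set.ncard_coe_finset] at h2
  omega

theorem exists_notMem : ∃ x, x ∉ F := by
  obtain ⟨x, hx⟩ : (F : Set α)ᶜ.Nonempty := by
    rw [← Set.ncard_pos, M.ncard_compl]
    exact Nat.mul_pos M.k1 hp.out.pos
  exact ⟨x, hx⟩

theorem disj_orb {x : α} (hx : x ∉ F) : Disjoint (F : Set α) (orb P x) :=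
  Set.disjoint_right.2 fun _ hz => M.notMem_of_orb hx hz

theorem k_ne_one : k ≠ 1 := by
  rintro rfl
  obtain ⟨x, hx⟩ := M.exists_notMem
  obtain ⟨y, hy, e⟩ := M.exists_move hx
  rw [M.eq_one_of_support hy (S := ∅) (by simp) (by simp) (by simp)] at e
  exact e rfl

theorem k_two (hk : k = 2) (s t : Perm F) : ⁅s, t⁆ ^ p = 1 := by
  subst hk
  obtain ⟨φ, hφ, hφe⟩ := M.exists_phi
  obtain ⟨π, hπ⟩ := M.exists_pi
  have h1 : ∀ x ∉ F, ∀ y ∈ P, y x = x → y = 1 := fun x hx y hy e =>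
    M.eq_one_of_support hy (M.disj_orb hx) (by rw [M.orb_card hx]; omega)
      (fix_orb M.syl.isPGroup (M.orb_card hx) hy (self_mem_orb _ _) e)
  obtain ⟨x, hx⟩ := M.exists_notMem
  obtain ⟨y, hy, e⟩ := M.exists_move hx
  have hz : zpowers y = P := by
    refine le_antisymm (zpowers_le.2 hy) fun y' hy' => ?_
    obtain ⟨i, hi⟩ := gen_orb M.syl.isPGroup (M.orb_card hx) hy e hy'
    have := h1 x hx ((y ^ i)⁻¹ * y') (mul_mem (inv_mem (zpow_mem hy i)) hy')
      (by rw [Perm.mul_apply, hi x (self_mem_orb _ _), iav])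
    exact ⟨i, inv_mul_eq_one.1 this⟩
  obtain ⟨a, rfl⟩ := hφ s
  obtain ⟨b, rfl⟩ := hφ t
  have h2 : π ⁅a, b⁆ = 1 := by
    rw [map_commutatorElement]
    generalize π a = u
    generalize π b = v
    revert u v
    decide
  have h3 : Commute ⁅(a : Perm α), (b : Perm α)⁆ y :=
    commute_commutator_of_mem_normalizer (hz ▸ (mem_inf.1 a.2).2) (hz ▸ (mem_inf.1 b.2).2)
  have h4 : ⁅a, b⁆ ^ p = 1 := by
    refine Subtype.ext (M.eq_one_of_fix (mem_inf.1 (⁅a, b⁆ ^ p).2).1 fun z hz => ?_)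
    refine pow_of_commute M.syl.isPGroup (M.orb_card hz) hy (fun h => e ?_) (hπ _ h2 z hz) h3
    rw [h1 z hz y hy h]; rfl
  rw [← map_commutatorElement, ← map_pow, h4, map_one]

theorem big (h5 : 5 ≤ F.card) (hk : k < F.card) (s t : Perm F) (hs : s ∈ alternatingGroup F)
    (ht : t ∈ alternatingGroup F) : ⁅s, t⁆ ^ p = 1 := by
  obtain ⟨φ, hφ, hφe⟩ := M.exists_phi
  obtain ⟨π, hπ⟩ := M.exists_pi
  obtain ⟨K, hK⟩ := M.exists_K
  haveI : (π.ker.map φ).Normal := Normal.map inferInstance φ hφ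
  have hF : Nat.card F = F.card := by rw [Nat.card_eq_fintype_card, Fintype.card_coe]
  have hnt : Nontrivial (π.ker.map φ) := by
    rw [nontrivial_iff_ne_bot]
    intro h
    have h1 := index_dvd_of_le ((Subgroup.map_eq_bot_iff _).1 h)
    rw [index_ker, index_ker, MonoidHom.range_eq_top.2 hφ, card_top, Nat.card_perm, hF] at h1
    have h2 := h1.trans (card_subgroup_dvd_card π.range)
    rw [Nat.card_perm, Nat.card_fin] at h2
    have h3 := Nat.le_of_dvd (Nat.factorial_pos _) h2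
    have h6 := (Nat.factorial_lt M.k1).2 hk
    omega
  have hA := alternatingGroup_le_of_normal (hF ▸ h5) hnt
  obtain ⟨a, ha, rfl⟩ := hA hs
  obtain ⟨b, hb, rfl⟩ := hA ht
  have h4 : ⁅a, b⁆ ^ p = 1 := by
    refine Subtype.ext (M.eq_one_of_fix (mem_inf.1 (⁅a, b⁆ ^ p).2).1 fun z hz => ?_)
    exact comm_pow_orb M.syl.isPGroup (M.orb_card hz) (K := K)
      (fun g hg => (mem_inf.1 ((hK g).1 hg).1).2) (fun g hg => ((hK g).1 hg).2 z hz)
      (fun g hg => (hK g).2 ⟨M.P_le hg, fun x _ => ⟨g, hg, rfl⟩⟩)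
      ((hK _).2 ⟨a.2, hπ a ha⟩) ((hK _).2 ⟨b.2, hπ b hb⟩)
  rw [← map_commutatorElement, ← map_pow, h4, map_one]

theorem three_aux (hk : k = 3) {x1 : α} (h1 : x1 ∉ F) {g : Perm α}
    (hg : g ∈ G ⊓ normalizer (P : Set (Perm α))) (hg' : ∀ x ∉ F, g x ∈ orb P x)
    (hf : ∀ z ∈ orb P x1, g z = z) : g ^ p = 1 := by
  subst hk
  have hP := M.syl.isPGroup
  have two : ∀ x ∉ F, ∀ x' ∉ F, x' ∉ orb P x → ∀ y ∈ P, y x = x → y x' = x' → y = 1 := by
    intro x hx x' hx' hn y hy e e'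
    have hd : Disjoint (orb P x) (orb P x') := Set.disjoint_left.2 fun z h h' =>
      hn (orb_trans h (orb_symm h'))
    refine M.eq_one_of_support hy (S := orb P x ∪ orb P x')
      (Set.disjoint_union_right.2 ⟨M.disj_orb hx, M.disj_orb hx'⟩) ?_ ?_
    · rw [Set.ncard_union_eq hd (Set.toFinite _) (Set.toFinite _), M.orb_card hx, M.orb_card hx']
      omega
    · rintro z (h | h)
      · exact fix_orb hP (M.orb_card hx) hy (self_mem_orb _ _) e z h
      · exact fix_orb hP (M.orb_card hx') hy (self_mem_orb _ _) e' z h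
  have hcm : ∀ y ∈ P, g * y * g⁻¹ * y⁻¹ ∈ P := fun y hy =>
    mul_mem ((mem_normalizer_iff.1 (mem_inf.1 hg).2 y).1 hy) (inv_mem hy)
  have hc1 : ∀ y ∈ P, (g * y * g⁻¹ * y⁻¹) x1 = x1 := by
    intro y hy
    simp only [Perm.mul_apply]
    rw [inv_of (hf _ ⟨y⁻¹, inv_mem hy, rfl⟩), aiv, hf _ (self_mem_orb _ _)]
  refine M.eq_one_of_fix (pow_mem (mem_inf.1 hg).1 p) fun x hx => ?_
  by_cases hx1 : x ∈ orb P x1
  · exact pow_apply_eq_self_of_apply_eq_self (hf x hx1) p
  obtain ⟨y, hy, e, hc⟩ : ∃ y ∈ P, y x ≠ x ∧ g * y * g⁻¹ * y⁻¹ = 1 := by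
    by_cases hs : ∀ y ∈ P, y x1 = x1 → y = 1
    · obtain ⟨y, hy, e⟩ := M.exists_move hx
      exact ⟨y, hy, e, hs _ (hcm y hy) (hc1 y hy)⟩
    push Not at hs
    obtain ⟨y1, hy1, e1, n1⟩ := hs
    obtain ⟨x', hx', hx''⟩ : ∃ x' ∈ (F : Set α)ᶜ, x' ∉ orb P x1 ∪ orb P x := by
      refine Set.exists_mem_notMem_of_ncard_lt_ncard ?_ (Set.toFinite _)
      have := Set.ncard_union_le (orb P x1) (orb P x)
      rw [M.orb_card h1, M.orb_card hx] at this
      rw [M.ncard_compl]
      have := hp.out.pos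
      omega
    rw [Set.mem_union, not_or] at hx''
    have e2 : y1 x' ≠ x' := fun h => n1 (two x1 h1 x' hx' hx''.1 y1 hy1 e1 h)
    obtain ⟨y0, hy0, e0⟩ := M.exists_move h1
    obtain ⟨i, hi⟩ := gen_orb hP (M.orb_card hx') hy1 e2 hy0
    have hy : (y1 ^ i)⁻¹ * y0 ∈ P := mul_mem (inv_mem (zpow_mem hy1 i)) hy0
    have f1 : ((y1 ^ i)⁻¹ * y0) x' = x' := by
      rw [Perm.mul_apply, hi x' (self_mem_orb _ _), iav]
    have f2 : ((y1 ^ i)⁻¹ * y0) x1 ≠ x1 := by
      rw [Perm.mul_apply, Ne, Perm.inv_eq_iff_eq, zpow_apply_eq_self_of_apply_eq_self e1]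
      exact e0
    generalize (y1 ^ i)⁻¹ * y0 = y at hy f1 f2
    refine ⟨y, hy, fun h => f2 ?_, two x1 h1 x' hx' hx''.1 _ (hcm y hy) (hc1 y hy) ?_⟩
    · rw [two x hx x' hx' hx''.2 y hy h f1]; rfl
    · simp only [Perm.mul_apply]
      have : g⁻¹ x' ∈ orb P x' := orb_symm (by
        have := hg' (g⁻¹ x') fun h => hx' ((M.pres (inv_mem (mem_inf.1 hg).2) x').1 h)
        rwa [aiv] at this)
      rw [inv_of f1, fix_orb hP (M.orb_card hx') hy (self_mem_orb _ _) f1 _ this, aiv]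
  refine pow_of_commute hP (M.orb_card hx) hy e (hg' x hx) ?_
  exact commutatorElement_eq_one_iff_commute.1 hc

theorem not_three_four (hk : k = 3) (h4 : F.card = 4) : False := by
  obtain ⟨φ, hφ, hφe⟩ := M.exists_phi
  obtain ⟨π, hπ⟩ := M.exists_pi
  obtain ⟨K, hK⟩ := M.exists_K
  have hF : Nat.card F = 4 := by rw [Nat.card_eq_fintype_card, Fintype.card_coe, h4]
  obtain ⟨κ, hκ⟩ := exists_perm_hom (β := Fin 4) (γ := F) (by simp [h4])
  obtain ⟨x1, h1⟩ := M.exists_notMem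
  obtain ⟨k0, hk0, hgen⟩ := cyc_orb M.syl.isPGroup (M.orb_card h1) (K := K)
      (fun g hg => (mem_inf.1 ((hK g).1 hg).1).2) (fun g hg => ((hK g).1 hg).2 x1 h1)
      (fun g hg => (hK g).2 ⟨M.P_le hg, fun x _ => ⟨g, hg, rfl⟩⟩)
  have hcop : p.Coprime 24 := by
    have := M.kp
    rw [hp.out.coprime_iff_not_dvd, show 24 = Nat.factorial 4 from rfl, hp.out.dvd_factorial]
    intro h
    have : p = 4 := by omega
    exact absurd (this ▸ hp.out) (by decide)
  have key : ∀ s t : Perm F, ⁅s, t⁆ ^ 3 ∈ zpowers (φ ⟨k0, ((hK _).1 hk0).1⟩) := by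
    intro s t
    obtain ⟨a, rfl⟩ := hφ s
    obtain ⟨b, rfl⟩ := hφ t
    have h2 : π (⁅a, b⁆ ^ 3) = 1 := by
      rw [map_pow, map_commutatorElement]
      generalize π a = u
      generalize π b = v
      subst hk
      revert u v
      decide
    rw [← map_commutatorElement, ← map_pow]
    generalize ⁅a, b⁆ ^ 3 = g at h2
    have hg : (g : Perm α) ∈ K := (hK _).2 ⟨g.2, hπ g h2⟩
    obtain ⟨j, y, hy, e⟩ := hgen g hg
    have hm : y⁻¹ * (k0 ^ j)⁻¹ * g ∈ K := mul_mem (mul_mem (inv_mem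
      ((hK y).2 ⟨M.P_le hy, fun x _ => ⟨y, hy, rfl⟩⟩)) (inv_mem (zpow_mem hk0 j))) hg
    have h3 := M.three_aux hk h1 ((hK _).1 hm).1 ((hK _).1 hm).2 e
    have h5 : ((⟨y, M.P_le hy⟩ : ↥(G ⊓ normalizer (P : Set (Perm α))))⁻¹ *
        (⟨k0, ((hK _).1 hk0).1⟩ ^ j)⁻¹ * g) ^ p = 1 := Subtype.ext h3
    have h6 := congrArg φ h5
    have h7 : φ ⟨y, M.P_le hy⟩ = 1 := by
      ext x
      rw [hφe]
      exact (M.syl.le hy).2 x x.2
    rw [map_pow, map_one, map_mul, map_mul, map_inv, map_inv, map_zpow, h7, inv_one, one_mul] at h6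
    have h8 := eq_one_of_pow_coprime hcop h6 (by
      rw [show 24 = Nat.card (Perm F) by rw [Nat.card_perm, hF]; rfl]
      exact pow_card_eq_one')
    exact ⟨j, inv_mul_eq_one.1 h8⟩
  have a1 := key (κ (swap 0 1)) (κ (swap 0 2 * swap 1 3))
  have a2 := key (κ (swap 0 2)) (κ (swap 0 1 * swap 2 3))
  rw [← map_commutatorElement, ← map_pow] at a1 a2
  refine absurd (hκ (eq_of_invol_zpowers a1 a2 ?_ ?_ ?_ ?_)) (by decide)
  · rw [Ne, map_eq_one_iff _ hκ]; decide
  · rw [Ne, map_eq_one_iff _ hκ]; decide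
  · rw [← map_pow, map_eq_one_iff _ hκ]; decide
  · rw [← map_pow, map_eq_one_iff _ hκ]; decide

end MS

theorem miller [Fintype α] [DecidableEq α] (G : Subgroup (Perm α)) {k p r : ℕ} (hp : p.Prime)
    (hn : Fintype.card α = k * p + r) (hk : 1 ≤ k) (hpk : k < p) (hrk : k < r)
    (hex : ¬ (k = 1 ∧ r = 2)) (hG : IsMultiplyPretransitive G α (r + 1)) :
    alternatingGroup α ≤ G := by
  haveI : Fact p.Prime := ⟨hp⟩
  by_contra hA
  have h3 : 3 ≤ r := by omega
  have hkp := Nat.mul_le_mul hk hp.two_le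
  have hkp' := Nat.mul_le_mul_right p hk
  obtain ⟨F, -, rfl⟩ := Finset.exists_subset_card_eq (s := (Finset.univ : Finset α)) (n := r)
    (by rw [Finset.card_univ]; omega)
  rw [← Nat.card_eq_fintype_card] at hn
  obtain ⟨P, hP⟩ := IsSylowIn.exists_in (p := p) (fixSub G (F : Set α))
  have hmin : ∀ g ∈ G, g.support.card ≤ F.card + 1 → g = 1 := fun g hg h => by
    by_contra h1
    exact hA (alt_le_of_support hG (by omega) (by omega) hg h1 h)
  have M : MS G P F p k := ⟨hP, hn, hk, hpk, hG, hmin, fun y hy h => by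
    by_contra h1
    obtain ⟨j, hj⟩ := hP.isPGroup ⟨y, hy⟩
    have hj' : y ^ p ^ j = 1 := congrArg Subtype.val hj
    have hd : p ∣ orderOf y := by
      obtain ⟨i, -, hi⟩ := (Nat.dvd_prime_pow hp).1 (orderOf_dvd_of_pow_eq_one hj')
      rw [hi]
      refine dvd_pow_self p fun h0 => h1 ?_
      rw [h0, pow_zero, orderOf_eq_one_iff] at hi
      exact hi
    have ho := orderOf_pow_orderOf_div (orderOf_pos y).ne' hd
    obtain ⟨n, hn1, hn2⟩ := card_support_of_orderOf_prime hp ho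
    have hle := (Finset.card_le_card (support_pow_le y (orderOf y / p))).trans h
    have hn0 : n = 0 := by
      have := hp.pos
      nlinarith
    have h2t : IsMultiplyPretransitive G α 2 :=
      isMultiplyPretransitive_of_le (n := F.card + 1) (by omega) (by omega)
    exact hA (alternatingGroup_le_of_isCycle (isPreprimitive_of_is_two_pretransitive h2t) hp
      (by omega) (hn2 hn0) (by rw [hn1, hn0]; simp) (pow_mem (hP.le hy).1 _))⟩
  have hk1 := M.k_ne_one
  have hF : Nat.card F = F.card := by rw [Nat.card_eq_fintype_card, Fintype.card_coe]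
  have hcop : p.Coprime 2 := (Nat.coprime_primes hp Nat.prime_two).2 (by omega)
  by_cases hr : F.card = 3
  · have hk2 : k = 2 := by omega
    obtain ⟨κ, hκ⟩ := exists_perm_hom (β := Fin 3) (γ := F) (by simp [hr])
    have h1 := M.k_two hk2 (κ (swap 0 1)) (κ (swap 0 2))
    rw [← map_commutatorElement, ← map_pow, map_eq_one_iff _ hκ] at h1
    have hp3 : p = 3 := by
      by_contra h
      exact absurd (eq_one_of_pow_coprime ((Nat.coprime_primes hp Nat.prime_three).2 h) h1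
        (by decide)) (by decide)
    rw [hr] at hG hmin
    rw [hr, hp3, hk2] at hn
    obtain ⟨x⟩ : Nonempty (Fin 4 ↪ α) := Function.Embedding.nonempty_of_card_le
      (by rw [Fintype.card_fin, ← Nat.card_eq_fintype_card]; omega)
    have := four_transitive_odd G hG x (by
      by_contra he
      obtain ⟨u, hu, h1, h2⟩ := Suz.exists_invol_of_even (Nat.not_odd_iff_even.1 he)
      refine h1 (Subtype.ext (hmin u u.2 ?_))
      have h4 : (u : Perm α).support ⊆ (Finset.univ.map x)ᶜ := by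
        intro z hz
        rw [Finset.mem_compl, Finset.mem_map]
        rintro ⟨i, -, rfl⟩
        exact mem_support.1 hz (congrArg (fun f : Fin 4 ↪ α => f i) hu)
      have h5 := Finset.card_le_card h4
      rw [Finset.card_compl, Finset.card_map, Finset.card_univ, Fintype.card_fin,
        ← Nat.card_eq_fintype_card, hn] at h5
      have h6 := two_dvd_card_support (σ := (u : Perm α))
        (by rw [pow_two]; exact congrArg Subtype.val h2)
      omega)
    rw [← Nat.card_eq_fintype_card] at this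
    omega
  obtain ⟨κ, hκ⟩ := exists_perm_hom (β := Fin 4) (γ := F) (by simp; omega)
  by_cases hk2 : k = 2
  · have h1 := M.k_two hk2 (κ (swap 0 1)) (κ (swap 0 2 * swap 1 3))
    rw [← map_commutatorElement, ← map_pow, map_eq_one_iff _ hκ] at h1
    exact absurd (eq_one_of_pow_coprime hcop h1 (by decide)) (by decide)
  by_cases hr4 : F.card = 4
  · exact M.not_three_four (by omega) hr4
  have hc : ∀ s t : Perm F, ⁅s, t⁆ ∈ alternatingGroup F := fun s t => by
    rw [mem_alternatingGroup, map_commutatorElement, commutatorElement_eq_one_iff_commute]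
    exact Commute.all _ _
  have h1 := M.big (by omega) hrk _ _ (hc (κ (swap 0 1)) (κ (swap 0 2)))
    (hc (κ (swap 0 1)) (κ (swap 0 2 * swap 1 3)))
  rw [← map_commutatorElement, ← map_commutatorElement, ← map_commutatorElement, ← map_pow,
    map_eq_one_iff _ hκ] at h1
  exact absurd (eq_one_of_pow_coprime hcop h1 (by decide)) (by decide)

end CfsgLib.H6Q
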