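import Cfsg.Agent.Lib.H6Brauer
import Cfsg.Agent.Lib.PermJordan
import Cfsg.Agent.Lib.PermTwoPrimesA

/-! Quadruply transitive groups whose four point stabilizer has odd order: basic lemmas. -/

set_option autoImplicit false
set_option linter.unusedSectionVars false
set_option linter.style.haveILetI false

namespace CfsgLib.H6Q

open Equiv Equiv.Perm Subgroup MulAction CfsgLib.H4

variable {α : Type*}

theorem aiv (g : Perm α) (x : α) : g (g⁻¹ x) = x := by simp

theorem iav (g : Perm α) (x : α) : g⁻¹ (g x) = x := by simp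

theorem inv_of {g : Perm α} {x y : α} (h : g x = y) : g⁻¹ y = x := by
  rw [Perm.inv_eq_iff_eq, h]

theorem alt_le_of_support [Fintype α] [DecidableEq α] {G : Subgroup (Perm α)} {s : ℕ}
    (hG : IsMultiplyPretransitive G α s) (hs : s < Nat.card α) (h2 : 2 ≤ s) {g : Perm α}
    (hg : g ∈ G) (h1 : g ≠ 1) (hsup : g.support.card ≤ s) : alternatingGroup α ≤ G := by
  have h2t : IsMultiplyPretransitive G α 2 := isMultiplyPretransitive_of_le h2 hs.le
  have hprim : IsPreprimitive G α := isPreprimitive_of_is_two_pretransitive h2t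
  obtain ⟨c, hc⟩ : ∃ c, c ∉ g.support := by
    by_contra h
    push Not at h
    have : g.support = Finset.univ := Finset.eq_univ_of_forall h
    rw [this, Finset.card_univ, ← Nat.card_eq_fintype_card] at hsup
    omega
  obtain ⟨a, ha⟩ : g.support.Nonempty := by
    rw [Finset.nonempty_iff_ne_empty, Ne, support_eq_empty_iff]
    exact h1
  obtain ⟨u, hu, hue⟩ := exists_eq_on_of_multiply hG hs.le g.support hsup (swap a c)
    (swap a c).injective.injOn
  have hac : a ≠ c := fun h => hc (h ▸ ha)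
  have hfix : ∀ x ∈ g.support, x ≠ a → u x = x := fun x hx hxa => by
    rw [hue x hx, swap_apply_of_ne_of_ne hxa (fun h : x = c => hc (h ▸ hx))]
  have hua : u a = c := by rw [hue a ha, swap_apply_left]
  have hgc : g c = c := notMem_support.1 hc
  have hz : g⁻¹ a ∈ g.support := by rw [← support_inv, apply_mem_support, support_inv]; exact ha
  have hza : g⁻¹ a ≠ a := by
    rw [Ne, Perm.inv_eq_iff_eq]
    exact fun h => mem_support.1 ha h.symm
  have hzc : g⁻¹ a ≠ c := fun h => hc (h ▸ hz)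
  have hinv : ∀ {v : Perm α} {x y : α}, v x = y → v⁻¹ y = x := fun h => by
    rw [Perm.inv_eq_iff_eq, h]
  refine alternatingGroup_le_of_isPreprimitive_of_isThreeCycle_mem hprim
    (g := g⁻¹ * (u * g * u⁻¹)) (isThreeCycle_of_eq_on hzc hza hac.symm ?_ ?_ ?_)
    (mul_mem (inv_mem hg) (mul_mem (mul_mem hu hg) (inv_mem hu)))
  · intro x h1 h2 h3
    simp only [Perm.mul_apply]
    by_cases hx : x ∈ g.support
    · rw [hinv (hfix x hx h3), hfix _ (apply_mem_support.2 hx) (fun h => h1 (hinv h).symm)]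
      simp
    · have : u⁻¹ x ∉ g.support := by
        intro h
        by_cases h' : u⁻¹ x = a
        · apply h2
          rw [← hua, ← h']; simp
        · have := hfix _ h h'
          rw [aiv] at this
          exact hx (this ▸ h)
      rw [notMem_support.1 this, aiv]
      exact hinv (notMem_support.1 hx)
  · simp only [Perm.mul_apply]
    rw [hinv (hfix _ hz hza), aiv, hua, hinv hgc]
  · simp only [Perm.mul_apply]
    rw [hinv hua, hfix _ (apply_mem_support.2 ha) (mem_support.1 ha)]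
    simp

/-- four distinct points -/
def D4 (a b c d : α) : Prop := a ≠ b ∧ a ≠ c ∧ a ≠ d ∧ b ≠ c ∧ b ≠ d ∧ c ≠ d

/-- four-fold transitive with odd four point stabilizers -/
structure Q4 (G : Subgroup (Perm α)) : Prop where
  tr : ∀ {a b c d a' b' c' d' : α}, D4 a b c d → D4 a' b' c' d' →
    ∃ g ∈ G, g a = a' ∧ g b = b' ∧ g c = c' ∧ g d = d'
  odd : ∀ {g : Perm α}, g ∈ G → ∀ {a b c d : α}, D4 a b c d → g a = a → g b = b → g c = c →
    g d = d → Odd (orderOf g)

/-- orbit as a set -/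
def orb (M : Subgroup (Perm α)) (y : α) : Set α := {z | ∃ g ∈ M, g y = z}

theorem mem_orb {M : Subgroup (Perm α)} {y z : α} : z ∈ orb M y ↔ ∃ g ∈ M, g y = z := Iff.rfl

theorem self_mem_orb (M : Subgroup (Perm α)) (y : α) : y ∈ orb M y := ⟨1, one_mem _, rfl⟩

theorem card_eq_orb [Finite α] (M M' : Subgroup (Perm α)) (y : α)
    (h : ∀ g, g ∈ M' ↔ g ∈ M ∧ g y = y) : Nat.card M = (orb M y).ncard * Nat.card M' := by
  have hle : M' ≤ M := fun g hg => ((h g).1 hg).1
  have e1 : orb M y = orbit M y := by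
    ext z
    constructor
    · rintro ⟨g, hg, rfl⟩
      exact ⟨⟨g, hg⟩, rfl⟩
    · rintro ⟨g, rfl⟩
      exact ⟨g, g.2, rfl⟩
  have e2 : stabilizer M y = M'.subgroupOf M := by
    ext g
    rw [mem_subgroupOf, h, mem_stabilizer_iff]
    exact (and_iff_right g.2).symm
  rw [e1, ← index_stabilizer, e2, mul_comm, ← card_mul_relIndex hle]
  rfl

/-- fixed points -/
def Fx (t : Perm α) : Set α := {x | t x = x}

theorem mem_Fx {t : Perm α} {x : α} : x ∈ Fx t ↔ t x = x := Iff.rfl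

theorem pow_apply_of_sq {g : Perm α} {x : α} (h : g (g x) = x) (k : ℕ) :
    (g ^ (2 * k + 1)) x = g x := by
  induction k with
  | zero => simp
  | succ k ih =>
    have : g ^ (2 * (k + 1) + 1) = g ^ (2 * k + 1) * g * g := by
      rw [← pow_succ, ← pow_succ]; rfl
    rw [this, Perm.mul_apply, Perm.mul_apply, h, ih]

theorem fix_of_odd {g : Perm α} (hg : Odd (orderOf g)) {x : α} (h : g (g x) = x) : g x = x := by
  obtain ⟨k, hk⟩ := hg
  rw [← pow_apply_of_sq h k, ← hk, pow_orderOf_eq_one]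
  rfl

theorem apply_apply {t : Perm α} (ht : t * t = 1) (x : α) : t (t x) = x := by
  rw [← Perm.mul_apply, ht]; rfl

theorem comm_apply {g t : Perm α} (h : g * t = t * g) (x : α) : g (t x) = t (g x) := by
  rw [← Perm.mul_apply, h]; rfl

theorem exists_fix_of_odd [Finite α] {t : Perm α} (ht : t * t = 1) {S : Set α}
    (hS : ∀ x ∈ S, t x ∈ S) (ho : Odd S.ncard) : ∃ x ∈ S, t x = x := by
  classical
  haveI := Fintype.ofFinite S
  haveI : Fact (Nat.Prime 2) := ⟨Nat.prime_two⟩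
  let σ : Perm S := t.subtypePerm (p := fun x => x ∈ S) fun x =>
    ⟨fun h => by rw [← apply_apply ht x]; exact hS _ h, hS x⟩
  have h1 : σ ^ 2 ^ 1 = 1 := by
    ext x
    simp [σ, pow_two, apply_apply ht]
  obtain ⟨x, hx⟩ := exists_fixed_point_of_prime (p := 2) (by
    rw [← Nat.card_eq_fintype_card, Nat.card_coe_set_eq]
    exact ho.not_two_dvd_nat) h1
  exact ⟨x, x.2, congrArg Subtype.val hx⟩

theorem ncard_moved_even [Finite α] {t : Perm α} (ht : t * t = 1) : Even (Fx t)ᶜ.ncard := by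
  by_contra h
  obtain ⟨x, hx, e⟩ := exists_fix_of_odd ht (S := (Fx t)ᶜ)
    (fun x hx h => hx (t.injective h)) (Nat.not_even_iff_odd.1 h)
  exact hx e

/-- centralizer of `t` in the pointwise stabilizer of `S` -/
def CS (G : Subgroup (Perm α)) (t : Perm α) (S : Set α) : Subgroup (Perm α) :=
  fixSub G S ⊓ centralizer {t}

theorem mem_CS {G : Subgroup (Perm α)} {t g : Perm α} {S : Set α} :
    g ∈ CS G t S ↔ g ∈ G ∧ g * t = t * g ∧ ∀ x ∈ S, g x = x := by
  rw [CS, mem_inf, mem_fixSub, H6Br.mem_cent]; tauto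

theorem card_CS_conj {G : Subgroup (Perm α)} {t g : Perm α} (hg : g ∈ G) (S : Set α) :
    Nat.card (CS G (g * t * g⁻¹) (g '' S)) = Nat.card (CS G t S) := by
  have : CS G (g * t * g⁻¹) (g '' S) = (CS G t S).map (MulAut.conj g).toMonoidHom := by
    ext k
    rw [mem_map_equiv, mem_CS, mem_CS, MulAut.conj_symm_apply]
    constructor
    · rintro ⟨h1, h2, h3⟩
      refine ⟨mul_mem (mul_mem (inv_mem hg) h1) hg, ?_, fun x hx => ?_⟩
      · calc g⁻¹ * k * g * t = g⁻¹ * (k * (g * t * g⁻¹)) * g := by group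
          _ = _ := by rw [h2]; group
      · simp [h3 _ (Set.mem_image_of_mem g hx)]
    · rintro ⟨h1, h2, h3⟩
      refine ⟨?_, ?_, ?_⟩
      · have := mul_mem (mul_mem hg h1) (inv_mem hg)
        simpa [mul_assoc] using this
      · calc k * (g * t * g⁻¹) = g * (g⁻¹ * k * g * t) * g⁻¹ := by group
          _ = _ := by rw [h2]; group
      · rintro _ ⟨x, hx, rfl⟩
        have := h3 x hx
        simp only [Perm.mul_apply] at this
        exact Perm.inv_eq_iff_eq.1 this
  rw [this, card_map_of_injective (MulAut.conj g).injective]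

theorem Fx_conj (t g : Perm α) : Fx (g * t * g⁻¹) = g '' Fx t := by
  ext x
  constructor
  · intro h
    refine ⟨g⁻¹ x, ?_, by simp⟩
    rw [mem_Fx, eq_comm, Perm.inv_eq_iff_eq]
    exact h.symm
  · rintro ⟨y, hy, rfl⟩
    simp [mem_Fx, mem_Fx.1 hy]

namespace Q4

variable [Finite α] {G : Subgroup (Perm α)} (R : Q4 G)
include R

theorem eq_one {g : Perm α} (hg : g ∈ G) (h2 : g * g = 1) {a b c d : α} (hD : D4 a b c d)
    (ha : g a = a) (hb : g b = b) (hc : g c = c) (hd : g d = d) : g = 1 := by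
  ext x
  exact fix_of_odd (R.odd hg hD ha hb hc hd) (apply_apply h2 x)

theorem odd_card {M : Subgroup (Perm α)} (hM : M ≤ G) {a b c d : α} (hD : D4 a b c d)
    (h : ∀ g ∈ M, g a = a ∧ g b = b ∧ g c = c ∧ g d = d) : Odd (Nat.card M) := by
  by_contra he
  obtain ⟨u, hu, h1, h2⟩ := Suz.exists_invol_of_even (Nat.not_odd_iff_even.1 he)
  obtain ⟨ha, hb, hc, hd⟩ := h u hu
  exact h1 (R.eq_one (hM hu) h2 hD ha hb hc hd)

theorem exists_invol {g : Perm α} (hg : g ∈ G) {a b c d : α} (hD : D4 a b c d)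
    (ha : g (g a) = a) (hb : g (g b) = b) (hc : g (g c) = c) (hd : g (g d) = d) :
    ∃ t ∈ G, t * t = 1 ∧ ∀ x, g (g x) = x → t x = g x := by
  obtain ⟨k, hk⟩ := R.odd (mul_mem hg hg) hD ha hb hc hd
  refine ⟨g ^ (2 * k + 1), pow_mem hg _, ?_, fun x hx => pow_apply_of_sq hx k⟩
  rw [← (Commute.refl g).mul_pow, ← hk, pow_orderOf_eq_one]

theorem conj_cfg {s t : Perm α} (hs : s ∈ G) (ht : t ∈ G) (ss : s * s = 1) (tt : t * t = 1)
    {a b c d a' b' c' d' : α} (hD : D4 a b c d) (hD' : D4 a' b' c' d')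
    (h : ∀ g : Perm α, g a = a' → g b = b' → g c = c' → g d = d' →
      g (s a) = t a' ∧ g (s b) = t b' ∧ g (s c) = t c' ∧ g (s d) = t d') :
    ∃ g ∈ G, g * s * g⁻¹ = t ∧ g a = a' ∧ g b = b' ∧ g c = c' ∧ g d = d' := by
  obtain ⟨g, hg, ha, hb, hc, hd⟩ := R.tr hD hD'
  obtain ⟨h1, h2, h3, h4⟩ := h g ha hb hc hd
  have hinv : ∀ {x y : α}, g x = y → g⁻¹ y = x := fun h => by
    rw [Perm.inv_eq_iff_eq, h]
  have ss' : g * s * g⁻¹ * (g * s * g⁻¹) = 1 := by
    calc _ = g * (s * s) * g⁻¹ := by group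
      _ = 1 := by rw [ss]; group
  have hf : ∀ {x y : α}, g x = y → g (s x) = t y → (t * (g * s * g⁻¹)) y = y := by
    intro x y e1 e2
    simp only [Perm.mul_apply]
    rw [hinv e1, e2, apply_apply tt]
  have hm : t * (g * s * g⁻¹) ∈ G := mul_mem ht (mul_mem (mul_mem hg hs) (inv_mem hg))
  have ho := R.odd hm hD' (hf ha h1) (hf hb h2) (hf hc h3) (hf hd h4)
  obtain ⟨j, hj⟩ := Suz.exists_conj_of_odd tt ss' ho (pow_orderOf_eq_one _)
  have hw : ∀ {x y : α}, g x = y → g (s x) = t y → ((t * (g * s * g⁻¹)) ^ j * g) x = y := by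
    intro x y e1 e2
    rw [Perm.mul_apply, e1]
    exact pow_apply_eq_self_of_apply_eq_self (hf e1 e2) j
  refine ⟨(t * (g * s * g⁻¹)) ^ j * g, mul_mem (pow_mem hm j) hg, ?_, hw ha h1, hw hb h2,
    hw hc h3, hw hd h4⟩
  generalize (t * (g * s * g⁻¹)) ^ j = w at hj
  calc w * g * s * (w * g)⁻¹ = w * (g * s * g⁻¹) * w⁻¹ := by group
    _ = t := by rw [← hj]; group

theorem conj_two {s t : Perm α} (hs : s ∈ G) (ht : t ∈ G) (ss : s * s = 1) (tt : t * t = 1)
    {x y x' y' : α} (hD : D4 x (s x) y (s y)) (hD' : D4 x' (t x') y' (t y')) :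
    ∃ g ∈ G, g * s * g⁻¹ = t ∧ g x = x' ∧ g y = y' := by
  obtain ⟨g, hg, h1, h2, -, h3, -⟩ := R.conj_cfg hs ht ss tt hD hD' (fun g a b c d => by
    simp only [apply_apply ss, apply_apply tt]
    exact ⟨b, a, d, c⟩)
  exact ⟨g, hg, h1, h2, h3⟩

theorem conj_fix {s t : Perm α} (hs : s ∈ G) (ht : t ∈ G) (ss : s * s = 1) (tt : t * t = 1)
    {u v x u' v' x' : α} (hD : D4 u v x (s x)) (hD' : D4 u' v' x' (t x'))
    (hu : s u = u) (hv : s v = v) (hu' : t u' = u') (hv' : t v' = v') :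
    ∃ g ∈ G, g * s * g⁻¹ = t ∧ g u = u' ∧ g v = v' ∧ g x = x' := by
  obtain ⟨g, hg, h1, h2, h3, h4, -⟩ := R.conj_cfg hs ht ss tt hD hD' (fun g a b c d => by
    simp only [apply_apply ss, apply_apply tt, hu, hv, hu', hv']
    exact ⟨a, b, d, c⟩)
  exact ⟨g, hg, h1, h2, h3, h4⟩

theorem fix_third {t : Perm α} (ht : t ∈ G) (tt : t * t = 1) (h1 : t ≠ 1) {u v w z : α}
    (hu : t u = u) (hv : t v = v) (hw : t w = w) (hz : t z = z) (huv : u ≠ v) (hwu : w ≠ u)
    (hwv : w ≠ v) (hzu : z ≠ u) (hzv : z ≠ v) : w = z := by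
  by_contra h
  exact h1 (R.eq_one ht tt ⟨huv, hwu.symm, hzu.symm, hwv.symm, hzv.symm, h⟩ hu hv hw hz)

theorem ncard_Fx_le {t : Perm α} (ht : t ∈ G) (tt : t * t = 1) (h1 : t ≠ 1) :
    (Fx t).ncard ≤ 3 := by
  by_contra h
  obtain ⟨a, b, c, d, ha, hb, hc, hd, h⟩ :=
    (Set.three_lt_ncard_iff (Set.toFinite _)).1 (not_le.1 h)
  exact h1 (R.eq_one ht tt h ha hb hc hd)

theorem fix_all_of_two {t g : Perm α} (ht : t ∈ G) (tt : t * t = 1) (h1 : t ≠ 1)
    (hg : g * t = t * g) {u v : α} (hu : t u = u) (hv : t v = v) (huv : u ≠ v) (gu : g u = u)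
    (gv : g v = v) {w : α} (hw : t w = w) : g w = w := by
  by_cases hwu : w = u
  · rw [hwu, gu]
  by_cases hwv : w = v
  · rw [hwv, gv]
  refine R.fix_third ht tt h1 hu hv (by rw [← comm_apply hg, hw]) hw huv ?_ ?_ hwu hwv
  · rw [← gu]; exact g.injective.ne hwu
  · rw [← gv]; exact g.injective.ne hwv

theorem fix_all_of_one {t g : Perm α} (ht : t ∈ G) (tt : t * t = 1) (h1 : t ≠ 1)
    (hg : g * t = t * g) (ho : Odd (orderOf g)) {u : α} (hu : t u = u) (gu : g u = u)
    {w : α} (hw : t w = w) : g w = w := by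
  by_contra hn
  have hwu : w ≠ u := fun h => hn (by rw [h, gu])
  have hgw : t (g w) = g w := by rw [← comm_apply hg, hw]
  have hggw : t (g (g w)) = g (g w) := by rw [← comm_apply hg, hgw]
  have h2 : g w ≠ u := by rw [← gu]; exact g.injective.ne hwu
  have h3 : g (g w) ≠ u := by rw [← gu]; exact g.injective.ne h2
  by_cases h4 : g (g w) = w
  · exact hn (fix_of_odd ho h4)
  · exact hn (g.injective (R.fix_third ht tt h1 hu hw hggw hgw hwu.symm h3 h4 h2 hn))

theorem cfg_inv {s t : Perm α} (hs : s ∈ G) (ht : t ∈ G) (ss : s * s = 1) (tt : t * t = 1)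
    {x y x' y' : α} (hD : D4 x (s x) y (s y)) (hD' : D4 x' (t x') y' (t y')) :
    Nat.card (CS G s {x, y}) = Nat.card (CS G t {x', y'}) ∧
    Nat.card (CS G s (insert x (Fx s))) = Nat.card (CS G t (insert x' (Fx t))) ∧
    Nat.card (CS G s (insert x (insert y (Fx s)))) =
      Nat.card (CS G t (insert x' (insert y' (Fx t)))) ∧
    (Fx s).ncard = (Fx t).ncard := by
  obtain ⟨g, hg, rfl, rfl, rfl⟩ := R.conj_two hs ht ss tt hD hD'
  rw [Fx_conj, ← Set.image_insert_eq, ← Set.image_insert_eq, ← Set.image_insert_eq,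
    ← Set.image_pair, card_CS_conj hg, card_CS_conj hg, card_CS_conj hg,
    Set.ncard_image_of_injective _ g.injective]
  exact ⟨rfl, rfl, rfl, rfl⟩

theorem orb_moved {t : Perm α} (ht : t ∈ G) (tt : t * t = 1) {x y : α}
    (hD : D4 x (t x) y (t y)) : orb (CS G t {x}) y = (insert x (insert (t x) (Fx t)))ᶜ := by
  ext z
  simp only [Set.mem_compl_iff, Set.mem_insert_iff, not_or, mem_Fx]
  constructor
  · rintro ⟨g, hg, rfl⟩
    obtain ⟨-, h2, h3⟩ := mem_CS.1 hg
    have h4 : g x = x := h3 x rfl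
    refine ⟨?_, ?_, ?_⟩
    · rw [← h4]; exact g.injective.ne hD.2.1.symm
    · rw [← h4, ← comm_apply h2]; exact g.injective.ne hD.2.2.2.1.symm
    · rw [← comm_apply h2]; exact g.injective.ne hD.2.2.2.2.2.symm
  · rintro ⟨h1, h2, h3⟩
    have hD' : D4 x (t x) z (t z) := ⟨hD.1, Ne.symm h1,
      fun h => h2 (by rw [h, apply_apply tt]), Ne.symm h2, t.injective.ne (Ne.symm h1),
      Ne.symm h3⟩
    obtain ⟨g, hg, e, e1, e2⟩ := R.conj_two ht ht tt tt hD hD'
    refine ⟨g, mem_CS.2 ⟨hg, ?_, ?_⟩, e2⟩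
    · rw [← mul_inv_eq_iff_eq_mul]; exact e
    · rintro _ rfl; exact e1

omit R in
theorem ncard_moved {t : Perm α} {x : α} (hx : t x ≠ x) :
    (insert x (insert (t x) (Fx t)))ᶜ.ncard + (Fx t).ncard + 2 = Nat.card α := by
  rw [← Set.ncard_add_ncard_compl (insert x (insert (t x) (Fx t))),
    Set.ncard_insert_of_notMem, Set.ncard_insert_of_notMem]
  · ring
  · exact fun h => hx (t.injective h)
  · rintro (h | h)
    · exact hx h.symm
    · exact hx h

theorem count {t : Perm α} (ht : t ∈ G) (tt : t * t = 1) {x y u v : α}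
    (hD : D4 x (t x) y (t y)) (hu : t u = u) (hv : t v = v) (huv : u ≠ v) :
    (insert x (insert (t x) (Fx t)))ᶜ.ncard * Nat.card (CS G t {x, y}) =
      (Fx t).ncard * ((Fx t).ncard - 1) * Nat.card (CS G t (insert x (Fx t))) := by
  have h1 : t ≠ 1 := by
    rintro rfl
    exact hD.1 rfl
  have hD4 : ∀ {u v : α}, t u = u → t v = v → u ≠ v → D4 u v x (t x) := by
    intro u v hu hv huv
    refine ⟨huv, ?_, ?_, ?_, ?_, hD.1⟩
    · rintro rfl; exact hD.1 hu.symm
    · rintro rfl; exact hD.1 (t.injective hu).symm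
    · rintro rfl; exact hD.1 hv.symm
    · rintro rfl; exact hD.1 (t.injective hv).symm
  have e1 := card_eq_orb (CS G t {x}) (CS G t {x, y}) y (fun g => by
    simp only [mem_CS, Set.mem_insert_iff, Set.mem_singleton_iff, forall_eq_or_imp, forall_eq]
    tauto)
  have e2 := card_eq_orb (CS G t {x}) (CS G t {x, u}) u (fun g => by
    simp only [mem_CS, Set.mem_insert_iff, Set.mem_singleton_iff, forall_eq_or_imp, forall_eq]
    tauto)
  have e3 := card_eq_orb (CS G t {x, u}) (CS G t (insert x (Fx t))) v (fun g => by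
    simp only [mem_CS, Set.mem_insert_iff, Set.mem_singleton_iff, forall_eq_or_imp, forall_eq]
    constructor
    · rintro ⟨a, b, c, d⟩
      exact ⟨⟨a, b, c, d u hu⟩, d v hv⟩
    · rintro ⟨⟨a, b, c, d⟩, e⟩
      exact ⟨a, b, c, fun w hw => R.fix_all_of_two ht tt h1 b hu hv huv d e hw⟩)
  have o2 : orb (CS G t {x}) u = Fx t := by
    ext z
    constructor
    · rintro ⟨g, hg, rfl⟩
      rw [mem_Fx, ← comm_apply (mem_CS.1 hg).2.1, hu]
    · intro hz
      obtain ⟨w, hw, hzw⟩ : ∃ w, t w = w ∧ z ≠ w := by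
        by_cases h : z = u
        · exact ⟨v, hv, h ▸ huv⟩
        · exact ⟨u, hu, h⟩
      obtain ⟨g, hg, e, e1, -, e2⟩ :=
        R.conj_fix ht ht tt tt (hD4 hu hv huv) (hD4 hz hw hzw) hu hv hz hw
      refine ⟨g, mem_CS.2 ⟨hg, ?_, ?_⟩, e1⟩
      · rw [← mul_inv_eq_iff_eq_mul]; exact e
      · rintro _ rfl; exact e2
  have o3 : orb (CS G t {x, u}) v = Fx t \ {u} := by
    ext z
    constructor
    · rintro ⟨g, hg, rfl⟩
      refine ⟨?_, ?_⟩
      · rw [mem_Fx, ← comm_apply (mem_CS.1 hg).2.1, hv]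
      · rw [Set.mem_singleton_iff, ← (mem_CS.1 hg).2.2 u (by simp)]
        exact g.injective.ne huv.symm
    · rintro ⟨hz, hzu⟩
      obtain ⟨g, hg, e, e1, e2, e3⟩ :=
        R.conj_fix ht ht tt tt (hD4 hu hv huv) (hD4 hu hz (Ne.symm hzu)) hu hv hu hz
      refine ⟨g, mem_CS.2 ⟨hg, ?_, ?_⟩, e2⟩
      · rw [← mul_inv_eq_iff_eq_mul]; exact e
      · rintro _ (rfl | rfl)
        · exact e3
        · exact e1
  rw [R.orb_moved ht tt hD] at e1
  rw [o2, e3, o3, Set.ncard_sdiff_singleton_of_mem (s := Fx t) (mem_Fx.2 hu)] at e2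
  rw [← e1, e2, mul_assoc]

end Q4

end CfsgLib.H6Q
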