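import Cfsg.Agent.Lib.H6Quad

/-! Quadruply transitive groups whose four point stabilizer has odd order: the four-group. -/

set_option autoImplicit false
set_option linter.unusedSectionVars false
set_option linter.style.haveILetI false

namespace CfsgLib.H6Q

open Equiv Equiv.Perm Subgroup MulAction CfsgLib.H4

variable {α : Type*}

/-- the four-group configuration -/
structure Cfg (G : Subgroup (Perm α)) (a b : Perm α) (p1 p2 p3 p4 p5 p6 : α) : Prop where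
  ha : a ∈ G
  hb : b ∈ G
  aa : a * a = 1
  bb : b * b = 1
  ab : a * b = b * a
  D : D4 p1 p2 p3 p4
  n56 : p5 ≠ p6
  a1 : a p1 = p1
  a2 : a p2 = p2
  a3 : a p3 = p4
  a5 : a p5 = p6
  b1 : b p1 = p2
  b3 : b p3 = p4
  b5 : b p5 = p5
  b6 : b p6 = p6

theorem Q4.exists_cfg [Finite α] {G : Subgroup (Perm α)} (R : Q4 G) (h6 : 6 ≤ Nat.card α)
    {p1 p2 p3 p4 : α} (D : D4 p1 p2 p3 p4) : ∃ a b p5 p6, Cfg G a b p1 p2 p3 p4 p5 p6 := by
  obtain ⟨h12, h13, h14, h23, h24, h34⟩ := id D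
  obtain ⟨g, hg, g1, g2, g3, g4⟩ := R.tr D (⟨h12, h14, h13, h24, h23, h34.symm⟩ : D4 p1 p2 p4 p3)
  obtain ⟨u, hu, uu, hue⟩ := R.exists_invol hg D (by rw [g1, g1]) (by rw [g2, g2])
    (by rw [g3, g4]) (by rw [g4, g3])
  have u1 : u p1 = p1 := by rw [hue _ (by rw [g1, g1]), g1]
  have u2 : u p2 = p2 := by rw [hue _ (by rw [g2, g2]), g2]
  have u3 : u p3 = p4 := by rw [hue _ (by rw [g3, g4]), g3]
  have u4 : u p4 = p3 := by rw [hue _ (by rw [g4, g3]), g4]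
  obtain ⟨k, hk, k1, k2, k3, k4⟩ :=
    R.tr D (⟨h12.symm, h24, h23, h14, h13, h34.symm⟩ : D4 p2 p1 p4 p3)
  obtain ⟨b, hb, bb, hbe⟩ := R.exists_invol hk D (by rw [k1, k2]) (by rw [k2, k1])
    (by rw [k3, k4]) (by rw [k4, k3])
  have b1 : b p1 = p2 := by rw [hbe _ (by rw [k1, k2]), k1]
  have b2 : b p2 = p1 := by rw [hbe _ (by rw [k2, k1]), k2]
  have b3 : b p3 = p4 := by rw [hbe _ (by rw [k3, k4]), k3]
  have b4 : b p4 = p3 := by rw [hbe _ (by rw [k4, k3]), k4]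
  have ss : b * u * b * (b * u * b) = 1 := by
    calc _ = b * u * (b * b) * u * b := by group
      _ = b * (u * u) * b := by rw [bb]; group
      _ = 1 := by rw [uu, mul_one, bb]
  have hw : b * u * b * u ∈ G := mul_mem (mul_mem (mul_mem hb hu) hb) hu
  have w1 : (b * u * b * u) p1 = p1 := by simp [u1, u2, b1, b2]
  have w2 : (b * u * b * u) p2 = p2 := by simp [u1, u2, b1, b2]
  have w3 : (b * u * b * u) p3 = p3 := by simp [u3, b4]
  have w4 : (b * u * b * u) p4 = p4 := by simp [u4, b3]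
  have hbi := Suz.inv_eq_of_mul_self bb
  obtain ⟨j, aa, -, h3⟩ := H6Br.exists_mid ss uu (R.odd hw D w1 w2 w3 w4) (pow_orderOf_eq_one _)
  have h4 := h3 b (by
    rw [hbi]
    calc b * (b * u * b) * b = (b * b) * u * (b * b) := by group
      _ = u := by rw [bb]; group) (by rw [hbi])
  have ha : (b * u * b * u) ^ j * u ∈ G := mul_mem (pow_mem hw j) hu
  have a1 : ((b * u * b * u) ^ j * u) p1 = p1 := by
    rw [Perm.mul_apply, u1, pow_apply_eq_self_of_apply_eq_self w1]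
  have a2 : ((b * u * b * u) ^ j * u) p2 = p2 := by
    rw [Perm.mul_apply, u2, pow_apply_eq_self_of_apply_eq_self w2]
  have a3 : ((b * u * b * u) ^ j * u) p3 = p4 := by
    rw [Perm.mul_apply, u3, pow_apply_eq_self_of_apply_eq_self w4]
  generalize (b * u * b * u) ^ j * u = a at aa h4 ha a1 a2 a3
  have ab : a * b = b * a := by
    calc a * b = b * a * b⁻¹ * b := by rw [h4]
      _ = _ := by group
  have a_ne : a ≠ 1 := by
    rintro rfl
    exact h34 a3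
  have hm := Q4.ncard_moved (t := a) (x := p3) (by rw [a3]; exact h34.symm)
  have hf := R.ncard_Fx_le ha aa a_ne
  obtain ⟨x, hx⟩ : (insert p3 (insert (a p3) (Fx a)))ᶜ.Nonempty := by
    rw [← Set.ncard_pos]; omega
  simp only [Set.mem_compl_iff, Set.mem_insert_iff, not_or, mem_Fx] at hx
  have hD : D4 p3 (a p3) x (a x) := ⟨by rw [a3]; exact h34, Ne.symm hx.1,
    fun h => hx.2.1 (by rw [h, apply_apply aa]), Ne.symm hx.2.1, a.injective.ne (Ne.symm hx.1),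
    Ne.symm hx.2.2⟩
  obtain ⟨c, -, hc, -, -⟩ := R.conj_two ha hb aa bb hD (x' := p1) (y' := p3)
    (by rw [b1, b3]; exact D)
  have q1 : b (c p1) = c p1 := by rw [← hc]; simp [a1]
  have q2 : b (c p2) = c p2 := by rw [← hc]; simp [a2]
  have key : ∀ q, b q = q → a q ≠ q → ∃ a b p5 p6, Cfg G a b p1 p2 p3 p4 p5 p6 := by
    intro q h1 h2
    exact ⟨a, b, q, a q, ha, hb, aa, bb, ab, D, h2.symm, a1, a2, a3, rfl, b1, b3, h1,
      by rw [← comm_apply ab, h1]⟩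
  by_cases e1 : a (c p1) = c p1
  swap
  · exact key _ q1 e1
  by_cases e2 : a (c p2) = c p2
  swap
  · exact key _ q2 e2
  have n1 : ∀ q, b q = q → p1 ≠ q := by
    rintro q h rfl
    exact h12 (h.symm.trans b1)
  have n2 : ∀ q, b q = q → p2 ≠ q := by
    rintro q h rfl
    exact h12 (b2.symm.trans h)
  exact (a_ne (R.eq_one ha aa ⟨h12, n1 _ q1, n1 _ q2, n2 _ q1, n2 _ q2, c.injective.ne h12⟩
    a1 a2 e1 e2)).elim

namespace Cfg

variable [Finite α] {G : Subgroup (Perm α)} {a b : Perm α} {p1 p2 p3 p4 p5 p6 : α}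
  (C : Cfg G a b p1 p2 p3 p4 p5 p6)
include C

theorem n12 : p1 ≠ p2 := C.D.1
theorem n13 : p1 ≠ p3 := C.D.2.1
theorem n14 : p1 ≠ p4 := C.D.2.2.1
theorem n23 : p2 ≠ p3 := C.D.2.2.2.1
theorem n24 : p2 ≠ p4 := C.D.2.2.2.2.1
theorem n34 : p3 ≠ p4 := C.D.2.2.2.2.2
theorem a4 : a p4 = p3 := by rw [← C.a3, apply_apply C.aa]
theorem a6 : a p6 = p5 := by rw [← C.a5, apply_apply C.aa]
theorem b2 : b p2 = p1 := by rw [← C.b1, apply_apply C.bb]
theorem b4 : b p4 = p3 := by rw [← C.b3, apply_apply C.bb]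
theorem nb1 {q : α} (h : b q = q) : p1 ≠ q := by
  rintro rfl; exact C.n12 (h.symm.trans C.b1)
theorem nb2 {q : α} (h : b q = q) : p2 ≠ q := by
  rintro rfl; exact C.n12 (C.b2.symm.trans h)
theorem nb3 {q : α} (h : b q = q) : p3 ≠ q := by
  rintro rfl; exact C.n34 (h.symm.trans C.b3)
theorem nb4 {q : α} (h : b q = q) : p4 ≠ q := by
  rintro rfl; exact C.n34 (C.b4.symm.trans h)
theorem na3 {q : α} (h : a q = q) : p3 ≠ q := by
  rintro rfl; exact C.n34 (h.symm.trans C.a3)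
theorem na4 {q : α} (h : a q = q) : p4 ≠ q := by
  rintro rfl; exact C.n34 (C.a4.symm.trans h)
theorem na5 {q : α} (h : a q = q) : p5 ≠ q := by
  rintro rfl; exact C.n56 (h.symm.trans C.a5)
theorem na6 {q : α} (h : a q = q) : p6 ≠ q := by
  rintro rfl; exact C.n56 (C.a6.symm.trans h)
theorem hc : a * b ∈ G := mul_mem C.ha C.hb
theorem cc : a * b * (a * b) = 1 := by
  calc a * b * (a * b) = a * (b * a) * b := by group
    _ = (a * a) * (b * b) := by rw [← C.ab]; group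
    _ = 1 := by rw [C.aa, C.bb, one_mul]
theorem c1 : (a * b) p1 = p2 := by rw [Perm.mul_apply, C.b1, C.a2]
theorem c2 : (a * b) p2 = p1 := by rw [Perm.mul_apply, C.b2, C.a1]
theorem c3 : (a * b) p3 = p3 := by rw [Perm.mul_apply, C.b3, C.a4]
theorem c4 : (a * b) p4 = p4 := by rw [Perm.mul_apply, C.b4, C.a3]
theorem c5 : (a * b) p5 = p6 := by rw [Perm.mul_apply, C.b5, C.a5]
theorem a_ne : a ≠ 1 := by
  rintro rfl; exact C.n34 C.a3
theorem b_ne : b ≠ 1 := by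
  rintro rfl; exact C.n34 C.b3
theorem c_ne : a * b ≠ 1 := fun h => C.n12 (by rw [← C.c1, h]; rfl)
theorem Da : D4 p3 (a p3) p5 (a p5) := by
  rw [C.a3, C.a5]
  exact ⟨C.n34, C.nb3 C.b5, C.nb3 C.b6, C.nb4 C.b5, C.nb4 C.b6, C.n56⟩
theorem Db : D4 p1 (b p1) p3 (b p3) := by
  rw [C.b1, C.b3]; exact C.D
theorem Dc : D4 p1 ((a * b) p1) p5 ((a * b) p5) := by
  rw [C.c1, C.c5]
  exact ⟨C.n12, C.nb1 C.b5, C.nb1 C.b6, C.nb2 C.b5, C.nb2 C.b6, C.n56⟩

omit C in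
theorem conj_mem_fixSub {t : Perm α} (ht : t ∈ G) (tt : t * t = 1) {S : Set α}
    (hS : ∀ x ∈ S, t x ∈ S) : ∀ h ∈ fixSub G S, t * h * t ∈ fixSub G S := by
  intro h hh
  refine ⟨mul_mem (mul_mem ht hh.1) ht, fun x hx => ?_⟩
  simp only [Perm.mul_apply]
  rw [hh.2 _ (hS x hx), apply_apply tt]

theorem brauer (R : Q4 G) {S : Set α} (h1 : p1 ∈ S) (h2 : p2 ∈ S) (h3 : p3 ∈ S) (h4 : p4 ∈ S)
    (hSa : ∀ x ∈ S, a x ∈ S) (hSb : ∀ x ∈ S, b x ∈ S) :
    Nat.card (fixSub G S) * Nat.card ↥(CS G a S ⊓ centralizer {b}) ^ 2 =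
      Nat.card (CS G a S) * Nat.card (CS G b S) * Nat.card (CS G (a * b) S) :=
  H6Br.brauer_four (R.odd_card (fixSub_le G S) C.D
    fun _ hg => ⟨hg.2 _ h1, hg.2 _ h2, hg.2 _ h3, hg.2 _ h4⟩) C.aa C.bb C.ab
    (conj_mem_fixSub C.ha C.aa hSa) (conj_mem_fixSub C.hb C.bb hSb)

theorem inv4a : ∀ x ∈ ({p1, p2, p3, p4} : Set α), a x ∈ ({p1, p2, p3, p4} : Set α) := by
  rintro x (rfl | rfl | rfl | rfl) <;> simp [C.a1, C.a2, C.a3, C.a4]

theorem inv4b : ∀ x ∈ ({p1, p2, p3, p4} : Set α), b x ∈ ({p1, p2, p3, p4} : Set α) := by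
  rintro x (rfl | rfl | rfl | rfl) <;> simp [C.b1, C.b2, C.b3, C.b4]

theorem eq_a (R : Q4 G) {S : Set α} (h1 : p1 ∈ S) (h2 : p2 ∈ S) (h3 : p3 ∈ S)
    (hS : ∀ x ∈ S, x = p3 ∨ x = p4 ∨ a x = x) : CS G a S = CS G a (insert p3 (Fx a)) := by
  ext g
  simp only [mem_CS, Set.mem_insert_iff, forall_eq_or_imp]
  refine and_congr_right fun _ => and_congr_right fun hg => ⟨fun h => ⟨h _ h3, fun w hw =>
    R.fix_all_of_two C.ha C.aa C.a_ne hg C.a1 C.a2 C.n12 (h _ h1) (h _ h2) hw⟩, fun h x hx => ?_⟩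
  rcases hS x hx with rfl | rfl | e
  · exact h.1
  · rw [← C.a3, comm_apply hg, h.1]
  · exact h.2 x e

theorem eq_c (R : Q4 G) {S : Set α} (h1 : p1 ∈ S) (h3 : p3 ∈ S) (h4 : p4 ∈ S)
    (hS : ∀ x ∈ S, x = p1 ∨ x = p2 ∨ (a * b) x = x) :
    CS G (a * b) S = CS G (a * b) (insert p1 (Fx (a * b))) := by
  ext g
  simp only [mem_CS, Set.mem_insert_iff, forall_eq_or_imp]
  refine and_congr_right fun _ => and_congr_right fun hg => ⟨fun h => ⟨h _ h1, fun w hw =>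
    R.fix_all_of_two C.hc C.cc C.c_ne hg C.c3 C.c4 C.n34 (h _ h3) (h _ h4) hw⟩, fun h x hx => ?_⟩
  rcases hS x hx with rfl | rfl | e
  · exact h.1
  · rw [← C.c1, comm_apply hg, h.1]
  · exact h.2 x e

theorem eq_b4 : CS G b {p1, p2, p3, p4} = CS G b {p1, p3} := by
  ext g
  simp only [mem_CS, Set.mem_insert_iff, Set.mem_singleton_iff, forall_eq_or_imp, forall_eq]
  refine and_congr_right fun _ => and_congr_right fun hg => ⟨fun h => ⟨h.1, h.2.2.1⟩,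
    fun h => ⟨h.1, ?_, h.2, ?_⟩⟩
  · rw [← C.b1, comm_apply hg, h.1]
  · rw [← C.b3, comm_apply hg, h.2]

theorem eq_a6 (R : Q4 G) :
    CS G a {p1, p2, p3, p4, p5, p6} = CS G a (insert p3 (insert p5 (Fx a))) := by
  ext g
  simp only [mem_CS, Set.mem_insert_iff, Set.mem_singleton_iff, forall_eq_or_imp, forall_eq]
  refine and_congr_right fun _ => and_congr_right fun hg => ⟨fun h => ⟨h.2.2.1, h.2.2.2.2.1,
    fun w hw => R.fix_all_of_two C.ha C.aa C.a_ne hg C.a1 C.a2 C.n12 h.1 h.2.1 hw⟩,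
    fun h => ⟨h.2.2 _ C.a1, h.2.2 _ C.a2, h.1, ?_, h.2.1, ?_⟩⟩
  · rw [← C.a3, comm_apply hg, h.1]
  · rw [← C.a5, comm_apply hg, h.2.1]

theorem eq_b6 (R : Q4 G) :
    CS G b {p1, p2, p3, p4, p5, p6} = CS G b (insert p1 (insert p3 (Fx b))) := by
  ext g
  simp only [mem_CS, Set.mem_insert_iff, Set.mem_singleton_iff, forall_eq_or_imp, forall_eq]
  refine and_congr_right fun _ => and_congr_right fun hg => ⟨fun h => ⟨h.1, h.2.2.1,
    fun w hw => R.fix_all_of_two C.hb C.bb C.b_ne hg C.b5 C.b6 C.n56 h.2.2.2.2.1 h.2.2.2.2.2 hw⟩,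
    fun h => ⟨h.1, ?_, h.2.1, ?_, h.2.2 _ C.b5, h.2.2 _ C.b6⟩⟩
  · rw [← C.b1, comm_apply hg, h.1]
  · rw [← C.b3, comm_apply hg, h.2.1]

theorem eq_c6 (R : Q4 G) :
    CS G (a * b) {p1, p2, p3, p4, p5, p6} =
      CS G (a * b) (insert p1 (insert p5 (Fx (a * b)))) := by
  ext g
  simp only [mem_CS, Set.mem_insert_iff, Set.mem_singleton_iff, forall_eq_or_imp, forall_eq]
  refine and_congr_right fun _ => and_congr_right fun hg => ⟨fun h => ⟨h.1, h.2.2.2.2.1,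
    fun w hw => R.fix_all_of_two C.hc C.cc C.c_ne hg C.c3 C.c4 C.n34 h.2.2.1 h.2.2.2.1 hw⟩,
    fun h => ⟨h.1, ?_, h.2.2 _ C.c3, h.2.2 _ C.c4, h.2.1, ?_⟩⟩
  · rw [← C.c1, comm_apply hg, h.1]
  · rw [← C.c5, comm_apply hg, h.2.1]

theorem eq_z (R : Q4 G) : CS G a {p1, p2, p3, p4, p5, p6} ⊓ centralizer {b} =
    CS G a {p1, p2, p3, p4} ⊓ centralizer {b} := by
  ext g
  simp only [mem_inf, mem_CS, Set.mem_insert_iff, Set.mem_singleton_iff, forall_eq_or_imp,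
    forall_eq, H6Br.mem_cent]
  refine and_congr_left fun gb => and_congr_right fun hg => and_congr_right fun ga =>
    ⟨fun h => ⟨h.1, h.2.1, h.2.2.1, h.2.2.2.1⟩, fun h => ?_⟩
  have ho := R.odd hg C.D h.1 h.2.1 h.2.2.1 h.2.2.2
  have h6 : g p6 = a (g p5) := by rw [← C.a5, comm_apply ga]
  have h5 : g p5 = p5 := by
    by_contra h5
    by_cases h56 : g p5 = p6
    · exact h5 (fix_of_odd ho (by rw [h56, h6, h56, C.a6]))
    · refine g.injective.ne C.n56 (R.fix_third C.hb C.bb C.b_ne C.b5 C.b6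
        (by rw [← comm_apply gb, C.b5]) (by rw [← comm_apply gb, C.b6]) C.n56 h5 h56 ?_ ?_)
      · rw [h6]; exact fun h => h56 (a.injective (h.trans C.a6.symm))
      · rw [h6]; exact fun h => h5 (a.injective (h.trans C.a5.symm))
  exact ⟨h.1, h.2.1, h.2.2.1, h.2.2.2, h5, by rw [h6, h5, C.a5]⟩

theorem main (R : Q4 G) :
    Nat.card (fixSub G {p1, p2, p3, p4}) =
      (orb (CS G a (insert p3 (Fx a))) p5).ncard ^ 2 * (orb (CS G b {p1, p3}) p5).ncard *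
        Nat.card (fixSub G {p1, p2, p3, p4, p5, p6}) ∧
    (insert p3 (insert (a p3) (Fx a)))ᶜ.ncard * (orb (CS G b {p1, p3}) p5).ncard =
      (Fx a).ncard * ((Fx a).ncard - 1) * (orb (CS G a (insert p3 (Fx a))) p5).ncard ∧
    (Fx a).ncard = (Fx b).ncard := by
  have B4 := C.brauer R (S := {p1, p2, p3, p4}) (by simp) (by simp) (by simp) (by simp)
    C.inv4a C.inv4b
  have B6 := C.brauer R (S := {p1, p2, p3, p4, p5, p6}) (by simp) (by simp) (by simp) (by simp)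
    (by rintro x (rfl | rfl | rfl | rfl | rfl | rfl) <;>
          simp [C.a1, C.a2, C.a3, C.a4, C.a5, C.a6])
    (by rintro x (rfl | rfl | rfl | rfl | rfl | rfl) <;>
          simp [C.b1, C.b2, C.b3, C.b4, C.b5, C.b6])
  rw [C.eq_z R, C.eq_a6 R, C.eq_b6 R, C.eq_c6 R] at B6
  have ea := C.eq_a R (S := {p1, p2, p3, p4}) (by simp) (by simp) (by simp)
    (by rintro x (rfl | rfl | rfl | rfl) <;> simp [C.a1, C.a2])
  have ec := C.eq_c R (S := {p1, p2, p3, p4}) (by simp) (by simp) (by simp)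
    (by rintro x (rfl | rfl | rfl | rfl) <;> simp only [C.c3, C.c4, or_true, true_or])
  rw [C.eq_b4, ec] at B4
  nth_rewrite 2 [ea] at B4
  obtain ⟨i1, -, i3, i4⟩ := R.cfg_inv C.ha C.hb C.aa C.bb C.Da C.Db
  obtain ⟨-, j2, j3, -⟩ := R.cfg_inv C.ha C.hc C.aa C.cc C.Da C.Dc
  have cnt := R.count C.ha C.aa C.Da C.a1 C.a2 C.n12
  have e1 := card_eq_orb (CS G a (insert p3 (Fx a))) (CS G a (insert p3 (insert p5 (Fx a)))) p5
    (fun g => by
      simp only [mem_CS, Set.mem_insert_iff, forall_eq_or_imp]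
      tauto)
  have e2 := card_eq_orb (CS G b {p1, p3}) (CS G b (insert p1 (insert p3 (Fx b)))) p5
    (fun g => by
      simp only [mem_CS, Set.mem_insert_iff, Set.mem_singleton_iff, forall_eq_or_imp, forall_eq]
      constructor
      · rintro ⟨h1, h2, h3, h4, h5⟩
        exact ⟨⟨h1, h2, h3, h4⟩, h5 _ C.b5⟩
      · rintro ⟨⟨h1, h2, h3, h4⟩, h5⟩
        refine ⟨h1, h2, h3, h4, fun w hw => R.fix_all_of_one C.hb C.bb C.b_ne h2 ?_ C.b5 h5 hw⟩
        exact R.odd h1 C.Db h3 (by rw [comm_apply h2, h3]) h4 (by rw [comm_apply h2, h4]))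
  rw [← j2] at B4
  rw [← i3, ← j3] at B6
  rw [← i3] at e2
  rw [i1, e1, e2] at cnt
  rw [e1, e2] at B4
  have hz : 0 < Nat.card ↥(CS G a {p1, p2, p3, p4} ⊓ centralizer {b}) := Nat.card_pos
  have hl : 0 < Nat.card ↥(CS G a (insert p3 (insert p5 (Fx a)))) := Nat.card_pos
  refine ⟨?_, ?_, i4⟩
  · apply Nat.eq_of_mul_eq_mul_right (pow_pos hz 2)
    rw [B4, mul_assoc _ (Nat.card (fixSub G {p1, p2, p3, p4, p5, p6})), B6]
    ring
  · apply Nat.eq_of_mul_eq_mul_right hl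
    rw [mul_assoc, cnt]
    ring

end Cfg

end CfsgLib.H6Q
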