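import Cfsg.Agent.Lib.H6QuadB

/-! Quadruply transitive groups whose four point stabilizer has odd order: even degree. -/

set_option autoImplicit false
set_option linter.unusedSectionVars false
set_option linter.style.haveILetI false

namespace CfsgLib.H6Q

open Equiv Equiv.Perm Subgroup MulAction CfsgLib.H4

variable {α : Type*}

theorem orb_mono {M N : Subgroup (Perm α)} (h : M ≤ N) (y : α) : orb M y ⊆ orb N y :=
  fun _ ⟨g, hg, e⟩ => ⟨g, h hg, e⟩

theorem orb_trans {M : Subgroup (Perm α)} {x y z : α} (h1 : y ∈ orb M x) (h2 : z ∈ orb M y) :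
    z ∈ orb M x := by
  obtain ⟨g, hg, rfl⟩ := h1
  obtain ⟨k, hk, rfl⟩ := h2
  exact ⟨k * g, mul_mem hk hg, rfl⟩

theorem orb_symm {M : Subgroup (Perm α)} {x y : α} (h1 : y ∈ orb M x) : x ∈ orb M y := by
  obtain ⟨g, hg, rfl⟩ := h1
  exact ⟨g⁻¹, inv_mem hg, iav g x⟩

theorem orb_eq {M : Subgroup (Perm α)} {x y : α} (h1 : y ∈ orb M x) : orb M y = orb M x :=
  Set.ext fun _ => ⟨orb_trans h1, orb_trans (orb_symm h1)⟩

theorem orb_conj {M : Subgroup (Perm α)} {t : Perm α} (tt : t * t = 1)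
    (hn : ∀ h ∈ M, t * h * t ∈ M) {x y : α} (h : y ∈ orb M x) : t y ∈ orb M (t x) := by
  obtain ⟨g, hg, rfl⟩ := h
  exact ⟨t * g * t, hn g hg, by simp [apply_apply tt]⟩

theorem orb_conj_eq {M : Subgroup (Perm α)} {t : Perm α} (tt : t * t = 1)
    (hn : ∀ h ∈ M, t * h * t ∈ M) (x : α) : orb M (t x) = t '' orb M x := by
  ext y
  constructor
  · intro h
    refine ⟨t y, ?_, apply_apply tt y⟩
    simpa [apply_apply tt] using orb_conj tt hn h
  · rintro ⟨z, hz, rfl⟩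
    exact orb_conj tt hn hz

theorem ncard_orb_dvd [Finite α] (M : Subgroup (Perm α)) (y : α) :
    (orb M y).ncard ∣ Nat.card M :=
  ⟨_, card_eq_orb M (fixSub M {y}) y fun g => by simp [mem_fixSub]⟩

theorem ncard_orb_pos [Finite α] (M : Subgroup (Perm α)) (y : α) : 0 < (orb M y).ncard :=
  (Set.ncard_pos (Set.toFinite _)).2 ⟨y, self_mem_orb M y⟩

theorem orb_disj [Finite α] {M : Subgroup (Perm α)} (hM : Odd (Nat.card M)) {t : Perm α}
    (tt : t * t = 1) (hn : ∀ h ∈ M, t * h * t ∈ M) (hf : ∀ g ∈ M, ∀ x, t x = x → g x = x)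
    {y : α} (hy : t y ≠ y) : Disjoint (orb M y) (orb M (t y)) := by
  rw [Set.disjoint_left]
  intro z h1 h2
  have e : orb M (t y) = orb M y := (orb_eq h2).symm.trans (orb_eq h1)
  obtain ⟨x, hx, ex⟩ := exists_fix_of_odd tt (S := orb M y)
    (fun x hx => e ▸ orb_conj tt hn hx) (hM.of_dvd_nat (ncard_orb_dvd M y))
  obtain ⟨g, hg, rfl⟩ := orb_symm hx
  rw [hf g hg x ex] at hy
  exact hy ex

theorem orb_fixSub_notMem {G : Subgroup (Perm α)} {S : Set α} {x y : α} (hx : x ∉ S)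
    (h : y ∈ orb (fixSub G S) x) : y ∉ S := by
  intro hy
  obtain ⟨g, hg, rfl⟩ := orb_symm h
  exact hx (by rwa [hg.2 y hy])

theorem Q4.tour [Finite α] {G : Subgroup (Perm α)} (R : Q4 G) {p1 p2 p3 p4 p5 p6 : α}
    (D : D4 p1 p2 p3 p4)
    (hM : ∀ g ∈ G, g p1 = p1 → g p2 = p2 → g p3 = p3 → Odd (orderOf g))
    (h5 : p5 ∉ ({p1, p2, p3, p4} : Set α)) (h6 : p6 ∉ ({p1, p2, p3, p4} : Set α))
    (cover : ∀ z ∉ ({p1, p2, p3, p4} : Set α),
      z ∈ orb (fixSub G {p1, p2, p3, p4}) p5 ∨ z ∈ orb (fixSub G {p1, p2, p3, p4}) p6)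
    (disj : Disjoint (orb (fixSub G {p1, p2, p3, p4}) p5) (orb (fixSub G {p1, p2, p3, p4}) p6))
    (hc : (orb (fixSub G {p1, p2, p3, p4}) p5).ncard = (orb (fixSub G {p1, p2, p3, p4}) p6).ncard)
    (htr : ∀ y ∈ orb (fixSub G {p1, p2, p3, p4}) p6,
      ∃ h ∈ fixSub G {p1, p2, p3, p4}, h p5 = p5 ∧ h p6 = y) :
    ∀ w ∈ orb (fixSub G {p1, p2, p3, p4}) p5, w = p5 := by
  set H := fixSub G {p1, p2, p3, p4} with hH
  have memH : ∀ {g : Perm α}, g ∈ H ↔ g ∈ G ∧ g p1 = p1 ∧ g p2 = p2 ∧ g p3 = p3 ∧ g p4 = p4 := by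
    intro g
    simp [hH, mem_fixSub]
  let Rl : α → α → α → Prop := fun z x y =>
    ∃ g ∈ G, g p1 = p1 ∧ g p2 = p2 ∧ g p3 = p3 ∧ g p4 = x ∧ g z = y
  have r1 : ∀ {z x y : α}, z ≠ p4 → Rl z x y → Rl z y x → False := by
    rintro z x y hz ⟨g, hg, g1, g2, g3, g4, g5⟩ ⟨k, hk, k1, k2, k3, k4, k5⟩
    have ho := hM (g⁻¹ * k) (mul_mem (inv_mem hg) hk) (by rw [Perm.mul_apply, k1, inv_of g1])
      (by rw [Perm.mul_apply, k2, inv_of g2]) (by rw [Perm.mul_apply, k3, inv_of g3])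
    have e1 : (g⁻¹ * k) p4 = z := by rw [Perm.mul_apply, k4, inv_of g5]
    have e2 : (g⁻¹ * k) z = p4 := by rw [Perm.mul_apply, k5, inv_of g4]
    exact hz (e1.symm.trans (fix_of_odd ho (by rw [e1, e2])))
  have hx4 : ∀ {x : α}, x ≠ p1 → x ≠ p2 → x ≠ p3 →
      ∃ g ∈ G, g p1 = p1 ∧ g p2 = p2 ∧ g p3 = p3 ∧ g p4 = x := fun a b c =>
    R.tr D ⟨D.1, D.2.1, a.symm, D.2.2.2.1, b.symm, c.symm⟩
  have r2 : ∀ {x y : α}, x ≠ p1 → x ≠ p2 → x ≠ p3 → y ≠ p1 → y ≠ p2 → y ≠ p3 → y ≠ x →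
      Rl p5 x y ∨ Rl p6 x y := by
    intro x y x1 x2 x3 y1 y2 y3 yx
    obtain ⟨g, hg, g1, g2, g3, g4⟩ := hx4 x1 x2 x3
    have : g⁻¹ y ∉ ({p1, p2, p3, p4} : Set α) := by
      simp only [Set.mem_insert_iff, Set.mem_singleton_iff, not_or, Perm.inv_eq_iff_eq, g1, g2,
        g3, g4]
      exact ⟨y1, y2, y3, yx⟩
    have key : ∀ z, g⁻¹ y ∈ orb H z → Rl z x y := by
      rintro z ⟨h, hh, e⟩
      obtain ⟨a, b, c, d, f⟩ := memH.1 hh
      exact ⟨g * h, mul_mem hg a, by simp [b, g1], by simp [c, g2], by simp [d, g3],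
        by simp [f, g4], by simp [e]⟩
    exact (cover _ this).imp (key _) (key _)
  have r3 : ∀ {z x : α}, x ≠ p1 → x ≠ p2 → x ≠ p3 →
      {y | Rl z x y}.ncard ≤ (orb H z).ncard := by
    intro z x x1 x2 x3
    obtain ⟨g, hg, g1, g2, g3, g4⟩ := hx4 x1 x2 x3
    rw [← Set.ncard_image_of_injective (orb H z) g.injective]
    refine Set.ncard_le_ncard ?_ (Set.toFinite _)
    rintro y ⟨k, hk, k1, k2, k3, k4, k5⟩
    refine ⟨g⁻¹ y, ⟨g⁻¹ * k, memH.2 ⟨mul_mem (inv_mem hg) hk, by rw [Perm.mul_apply, k1, inv_of g1],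
      by rw [Perm.mul_apply, k2, inv_of g2], by rw [Perm.mul_apply, k3, inv_of g3], by rw [Perm.mul_apply, k4, inv_of g4]⟩, by simp [k5]⟩,
      aiv g y⟩
  have r4 : ∀ {z x y : α} {h : Perm α}, h ∈ H → Rl z x y → Rl z (h x) (h y) := by
    rintro z x y h hh ⟨k, hk, k1, k2, k3, k4, k5⟩
    obtain ⟨a, b, c, d, f⟩ := memH.1 hh
    exact ⟨h * k, mul_mem a hk, by simp [b, k1], by simp [c, k2], by simp [d, k3],
      by simp [k4], by simp [k5]⟩
  have nm : ∀ {z : α}, z ∉ ({p1, p2, p3, p4} : Set α) → z ≠ p1 ∧ z ≠ p2 ∧ z ≠ p3 ∧ z ≠ p4 := by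
    intro z hz
    simpa only [Set.mem_insert_iff, Set.mem_singleton_iff, not_or] using hz
  obtain ⟨a1, a2, a3, a4⟩ := nm h5
  obtain ⟨b1, b2, b3, b4⟩ := nm h6
  intro w hw
  by_contra hw5
  obtain ⟨w', hw', hr⟩ : ∃ w' ∈ orb H p5, Rl p5 p5 w' := by
    obtain ⟨c1, c2, c3, c4⟩ := nm (orb_fixSub_notMem h5 hw)
    rcases r2 a1 a2 a3 c1 c2 c3 hw5 with h | h
    · exact ⟨w, hw, h⟩
    · rcases r2 c1 c2 c3 a1 a2 a3 (Ne.symm hw5) with h' | h'
      · obtain ⟨g, hg, rfl⟩ := hw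
        have := r4 (inv_mem hg) h'
        rw [iav] at this
        exact ⟨_, ⟨g⁻¹, inv_mem hg, rfl⟩, this⟩
      · exact (r1 b4 h h').elim
  have hins : ∀ {z q : α}, q ∉ orb H p6 → Rl z p5 q → (∀ y ∈ orb H p6, Rl z p5 y) →
      (orb H p6).ncard + 1 ≤ (orb H z).ncard := by
    intro z q h1 h2 h3
    rw [← Set.ncard_insert_of_notMem h1]
    refine le_trans (Set.ncard_le_ncard ?_ (Set.toFinite _)) (r3 a1 a2 a3)
    rintro y (rfl | hy)
    · exact h2
    · exact h3 y hy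
  obtain ⟨y, hy, hy'⟩ : ∃ y ∈ orb H p6, ¬ Rl p5 p5 y := by
    by_contra h
    push Not at h
    have := hins (Set.disjoint_left.1 disj hw') hr h
    omega
  obtain ⟨c1, c2, c3, c4⟩ := nm (orb_fixSub_notMem h6 hy)
  have hy5 : y ≠ p5 := by
    rintro rfl
    exact Set.disjoint_left.1 disj (self_mem_orb H _) hy
  have hy6 := (r2 a1 a2 a3 c1 c2 c3 hy5).resolve_left hy'
  have h4 : Rl p6 p5 p4 := by
    refine (r2 a1 a2 a3 D.2.2.1.symm D.2.2.2.2.1.symm D.2.2.2.2.2.symm a4.symm).resolve_left ?_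
    exact r1 a4 ⟨1, one_mem _, rfl, rfl, rfl, rfl, rfl⟩
  have := hins (fun h => orb_fixSub_notMem h6 h (by simp)) h4 (fun y' hy' => by
    obtain ⟨h1, hh1, e1, e2⟩ := htr y hy
    obtain ⟨h2, hh2, e3, e4⟩ := htr y' hy'
    have := r4 (mul_mem hh2 (inv_mem hh1)) hy6
    rwa [Perm.mul_apply, Perm.mul_apply, inv_of e1, inv_of e2, e3, e4] at this)
  omega

namespace Cfg

variable [Finite α] {G : Subgroup (Perm α)} {a b : Perm α} {p1 p2 p3 p4 p5 p6 : α}
  (C : Cfg G a b p1 p2 p3 p4 p5 p6)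
include C

theorem n5 : p5 ∉ ({p1, p2, p3, p4} : Set α) := by
  rintro (h | h | h | h)
  exacts [C.nb1 C.b5 h.symm, C.nb2 C.b5 h.symm, C.nb3 C.b5 h.symm, C.nb4 C.b5 h.symm]

theorem n6 : p6 ∉ ({p1, p2, p3, p4} : Set α) := by
  rintro (h | h | h | h)
  exacts [C.nb1 C.b6 h.symm, C.nb2 C.b6 h.symm, C.nb3 C.b6 h.symm, C.nb4 C.b6 h.symm]

theorem oddH (R : Q4 G) : Odd (Nat.card (fixSub G {p1, p2, p3, p4})) :=
  R.odd_card (fixSub_le _ _) C.D fun _ hg =>
    ⟨hg.2 _ (by simp), hg.2 _ (by simp), hg.2 _ (by simp), hg.2 _ (by simp)⟩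

theorem B_le : CS G a (insert p3 (Fx a)) ≤ fixSub G {p1, p2, p3, p4} := by
  intro g hg
  obtain ⟨h1, h2, h3⟩ := mem_CS.1 hg
  refine ⟨h1, ?_⟩
  rintro x (rfl | rfl | rfl | rfl)
  · exact h3 _ (Or.inr C.a1)
  · exact h3 _ (Or.inr C.a2)
  · exact h3 _ (Or.inl rfl)
  · rw [← C.a3, comm_apply h2, h3 _ (Or.inl rfl)]

theorem A_le : CS G b {p1, p3} ≤ fixSub G {p1, p2, p3, p4} := by
  rw [← C.eq_b4]; exact inf_le_left

theorem orbA_sub : orb (CS G b {p1, p3}) p5 ⊆ Fx b := by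
  rintro _ ⟨g, hg, rfl⟩
  rw [mem_Fx, ← comm_apply (mem_CS.1 hg).2.1, C.b5]

theorem odd_eps (R : Q4 G) : Odd (orb (CS G b {p1, p3}) p5).ncard :=
  (C.oddH R).of_dvd_nat ((ncard_orb_dvd _ _).trans (card_dvd_of_le C.A_le))

theorem odd_m (R : Q4 G) : Odd (orb (CS G a (insert p3 (Fx a))) p5).ncard :=
  (C.oddH R).of_dvd_nat ((ncard_orb_dvd _ _).trans (card_dvd_of_le C.B_le))

theorem normH : ∀ h ∈ fixSub G {p1, p2, p3, p4}, a * h * a ∈ fixSub G {p1, p2, p3, p4} :=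
  conj_mem_fixSub C.ha C.aa C.inv4a

theorem ncard_O6 : (orb (fixSub G {p1, p2, p3, p4}) p5).ncard =
    (orb (fixSub G {p1, p2, p3, p4}) p6).ncard := by
  rw [← C.a5, orb_conj_eq C.aa C.normH, Set.ncard_image_of_injective _ a.injective]

theorem ncard_four : ({p1, p2, p3, p4} : Set α)ᶜ.ncard + 4 = Nat.card α := by
  rw [← Set.ncard_add_ncard_compl ({p1, p2, p3, p4} : Set α), Set.ncard_insert_of_notMem,
    Set.ncard_insert_of_notMem, Set.ncard_pair C.n34]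
  · ring
  · simp [C.n23, C.n24]
  · simp [C.n12, C.n13, C.n14]

theorem case_even (R : Q4 G) (hf : (Fx a).ncard = 2) : Nat.card α = 6 := by
  obtain ⟨m1, m2, m3⟩ := C.main R
  have hm := Q4.ncard_moved (t := a) (x := p3) (by rw [C.a3]; exact C.n34.symm)
  have he : (orb (CS G b {p1, p3}) p5).ncard = 1 := by
    have h1 := Set.ncard_le_ncard C.orbA_sub (Set.toFinite _)
    obtain ⟨k, hk⟩ := C.odd_eps R
    omega
  have hFa : Fx a = {p1, p2} := by
    refine (Set.eq_of_subset_of_ncard_le ?_ ?_ (Set.toFinite _)).symm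
    · rintro x (rfl | rfl)
      exacts [C.a1, C.a2]
    · rw [hf, Set.ncard_pair C.n12]
  have hev := ncard_moved_even C.aa
  have hn := Set.ncard_add_ncard_compl (Fx a)
  rw [he, hf] at m2
  rw [he] at m1
  have hB := Set.ncard_le_ncard (orb_mono C.B_le p5) (Set.toFinite _)
  set m := (orb (CS G a (insert p3 (Fx a))) p5).ncard with hmd
  set H := fixSub G {p1, p2, p3, p4} with hH
  have disj : Disjoint (orb H p5) (orb H p6) := by
    rw [← C.a5]
    refine orb_disj (C.oddH R) C.aa C.normH (fun g hg x hx => hg.2 x ?_)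
      (by rw [C.a5]; exact C.n56.symm)
    have : x ∈ Fx a := hx
    rw [hFa] at this
    rcases this with rfl | rfl <;> simp
  have h4 := C.ncard_four
  have h56 := C.ncard_O6
  rw [← hH] at h56
  have hsub : orb H p5 ∪ orb H p6 ⊆ ({p1, p2, p3, p4} : Set α)ᶜ := by
    rintro x (h | h)
    exacts [orb_fixSub_notMem C.n5 h, orb_fixSub_notMem C.n6 h]
  have hu := Set.ncard_union_eq disj (Set.toFinite _) (Set.toFinite _)
  have hle := Set.ncard_le_ncard hsub (Set.toFinite _)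
  have hO : (orb H p5).ncard = m := by omega
  have hcov := Set.eq_of_subset_of_ncard_le hsub (by omega) (Set.toFinite _)
  have e1 := card_eq_orb H (fixSub H {p5}) p5 fun g => by simp [mem_fixSub]
  have e2 := card_eq_orb (fixSub H {p5}) (fixSub G {p1, p2, p3, p4, p5, p6}) p6 fun g => by
    simp only [hH, mem_fixSub, Set.mem_insert_iff, Set.mem_singleton_iff, forall_eq_or_imp,
      forall_eq]
    tauto
  have hmp : 0 < m := ncard_orb_pos _ _
  have hl : 0 < Nat.card (fixSub G {p1, p2, p3, p4, p5, p6}) := Nat.card_pos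
  have e3 : (orb (fixSub H {p5}) p6).ncard = m := by
    rw [e2, hO, m1] at e1
    apply Nat.eq_of_mul_eq_mul_left hmp
    apply Nat.eq_of_mul_eq_mul_right hl
    rw [mul_assoc, ← e1]
    ring
  have e4 : orb (fixSub H {p5}) p6 = orb H p6 :=
    Set.eq_of_subset_of_ncard_le (orb_mono (fixSub_le _ _) _) (by omega) (Set.toFinite _)
  have T := R.tour C.D (p5 := p5) (p6 := p6) (fun g hg g1 g2 g3 => by
      by_contra ho
      obtain ⟨j, h1, h2⟩ := Suz.exists_invol_pow (Nat.not_odd_iff_even.1 ho)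
      have a1 := R.ncard_Fx_le (pow_mem hg j) h2 h1
      have a2 := ncard_moved_even h2
      have a3 := Set.ncard_add_ncard_compl (Fx (g ^ j))
      have a4 : ({p1, p2, p3} : Set α).ncard ≤ (Fx (g ^ j)).ncard := by
        refine Set.ncard_le_ncard ?_ (Set.toFinite _)
        rintro x (rfl | rfl | rfl) <;> apply pow_apply_eq_self_of_apply_eq_self <;> assumption
      rw [Set.ncard_insert_of_notMem (by simp [C.n12, C.n13]), Set.ncard_pair C.n23] at a4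
      obtain ⟨k1, hk1⟩ := a2
      obtain ⟨k2, hk2⟩ := hev
      omega)
    C.n5 C.n6 (fun z hz => by
      have : z ∈ orb H p5 ∪ orb H p6 := hcov ▸ hz
      exact this) disj h56 (fun y hy => by
      rw [← hH, ← e4] at hy
      obtain ⟨g, hg, e⟩ := hy
      exact ⟨g, hg.1, hg.2 _ rfl, e⟩)
  have : (orb H p5).ncard ≤ ({p5} : Set α).ncard :=
    Set.ncard_le_ncard (fun w hw => T w hw) (Set.toFinite _)
  rw [Set.ncard_singleton] at this
  omega

end Cfg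

end CfsgLib.H6Q
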