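import Cfsg.Agent.Lib.H6QuadC

/-! Quadruply transitive groups whose four point stabilizer has odd order: odd degree. -/

set_option autoImplicit false
set_option linter.unusedSectionVars false
set_option linter.style.haveILetI false

namespace CfsgLib.H6Q

open Equiv Equiv.Perm Subgroup MulAction CfsgLib.H4

variable {α : Type*}

namespace Cfg

variable [Finite α] {G : Subgroup (Perm α)} {a b : Perm α} {p1 p2 p3 p4 p5 p6 : α}
  (C : Cfg G a b p1 p2 p3 p4 p5 p6)
include C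

theorem exists_p7 (R : Q4 G) (hf : (Fx a).ncard = 3) :
    ∃ p7, a p7 = p7 ∧ b p7 = p7 ∧ p7 ≠ p1 ∧ p7 ≠ p2 := by
  obtain ⟨x, hx, hx'⟩ : ∃ x ∈ Fx a, x ∉ ({p1, p2} : Set α) :=
    Set.exists_mem_notMem_of_ncard_lt_ncard (by rw [hf, Set.ncard_pair C.n12]; omega)
      (Set.toFinite _)
  simp only [Set.mem_insert_iff, Set.mem_singleton_iff, not_or] at hx'
  refine ⟨x, hx, R.fix_third C.ha C.aa C.a_ne C.a1 C.a2 (by rw [comm_apply C.ab, hx]) hx C.n12
    ?_ ?_ hx'.1 hx'.2, hx'.1, hx'.2⟩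
  · rw [← C.b2]; exact b.injective.ne hx'.2
  · rw [← C.b1]; exact b.injective.ne hx'.1

theorem normB : ∀ h ∈ CS G a (insert p3 (Fx a)), a * h * a ∈ CS G a (insert p3 (Fx a)) := by
  intro h hh
  have : a * h * a = h := by rw [← (mem_CS.1 hh).2.1, mul_assoc, C.aa, mul_one]
  rwa [this]

theorem case_seven (R : Q4 G) (hf : (Fx a).ncard = 3)
    (he : (orb (CS G b {p1, p3}) p5).ncard = 3) : Nat.card α = 7 := by
  obtain ⟨m1, m2, m3⟩ := C.main R
  obtain ⟨p7, a7, b7, n71, n72⟩ := C.exists_p7 R hf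
  have hm := Q4.ncard_moved (t := a) (x := p3) (by rw [C.a3]; exact C.n34.symm)
  have e0 : orb (CS G b {p1, p3}) p5 = Fx b :=
    Set.eq_of_subset_of_ncard_le C.orbA_sub (by omega) (Set.toFinite _)
  rw [he, hf] at m2
  rw [he] at m1
  have disj : Disjoint (orb (CS G a (insert p3 (Fx a))) p5) (orb (CS G a (insert p3 (Fx a))) p6) := by
    rw [← C.a5]
    exact orb_disj ((C.oddH R).of_dvd_nat (card_dvd_of_le C.B_le)) C.aa C.normB
      (fun g hg x hx => (mem_CS.1 hg).2.2 x (Or.inr hx)) (by rw [C.a5]; exact C.n56.symm)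
  have h56 : (orb (CS G a (insert p3 (Fx a))) p6).ncard =
      (orb (CS G a (insert p3 (Fx a))) p5).ncard := by
    rw [← C.a5, orb_conj_eq C.aa C.normB, Set.ncard_image_of_injective _ a.injective]
  have h7 : ∀ {y : α}, a y ≠ y → p7 ∉ orb (CS G a (insert p3 (Fx a))) y := by
    intro y hy h
    obtain ⟨g, hg, rfl⟩ := orb_symm h
    rw [(mem_CS.1 hg).2.2 p7 (Or.inr a7)] at hy
    exact hy a7
  have hb : ∀ {y : α}, b y = y → y ∈ orb (fixSub G {p1, p2, p3, p4}) p5 := fun h =>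
    orb_mono C.A_le _ (by rw [e0]; exact h)
  have hsub : insert p7 (orb (CS G a (insert p3 (Fx a))) p5 ∪ orb (CS G a (insert p3 (Fx a))) p6)
      ⊆ orb (fixSub G {p1, p2, p3, p4}) p5 := by
    rintro x (rfl | h | h)
    · exact hb b7
    · exact orb_mono C.B_le _ h
    · exact orb_trans (hb C.b6) (orb_mono C.B_le _ h)
  have h1 := Set.ncard_le_ncard hsub (Set.toFinite _)
  rw [Set.ncard_insert_of_notMem (by
    rintro (h | h)
    · exact h7 (by rw [C.a5]; exact C.n56.symm) h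
    · exact h7 (by rw [C.a6]; exact C.n56) h),
    Set.ncard_union_eq disj (Set.toFinite _) (Set.toFinite _), h56] at h1
  have h2 : (orb (fixSub G {p1, p2, p3, p4}) p5).ncard ≤ ({p1, p2, p3, p4} : Set α)ᶜ.ncard :=
    Set.ncard_le_ncard (fun x hx => orb_fixSub_notMem C.n5 hx) (Set.toFinite _)
  have h4 := C.ncard_four
  have hmp := ncard_orb_pos (CS G a (insert p3 (Fx a))) p5
  generalize (orb (CS G a (insert p3 (Fx a))) p5).ncard = m at *
  have hO : (orb (fixSub G {p1, p2, p3, p4}) p5).ncard = 2 * m + 1 := by omega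
  have e1 := card_eq_orb (fixSub G {p1, p2, p3, p4}) (fixSub (fixSub G {p1, p2, p3, p4}) {p5}) p5
    fun g => by simp [mem_fixSub]
  obtain ⟨k, hk⟩ : Nat.card (fixSub G {p1, p2, p3, p4, p5, p6}) ∣
      Nat.card (fixSub (fixSub G {p1, p2, p3, p4}) {p5}) := by
    refine card_dvd_of_le fun g hg => ?_
    simp only [mem_fixSub, Set.mem_insert_iff, Set.mem_singleton_iff, forall_eq_or_imp,
      forall_eq] at hg ⊢
    tauto
  have hl : 0 < Nat.card (fixSub G {p1, p2, p3, p4, p5, p6}) := Nat.card_pos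
  rw [hk, hO, m1] at e1
  have e2 : m ^ 2 * 3 = (2 * m + 1) * k := by
    apply Nat.eq_of_mul_eq_mul_right hl
    rw [e1]; ring
  have e3 : 2 * m + 1 ∣ 3 := by
    obtain ⟨m, rfl⟩ : ∃ m', m = m' + 1 := ⟨m - 1, by omega⟩
    have : (2 * (m + 1) + 1) * (4 * k) = (2 * (m + 1) + 1) * (3 * (2 * m + 1)) + 3 := by
      rw [mul_left_comm, ← e2]; ring
    exact (Nat.dvd_add_right (dvd_mul_right _ _)).1 (this ▸ dvd_mul_right _ _)
  have := Nat.le_of_dvd (by norm_num) e3
  omega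

theorem fix_p7 (R : Q4 G) (he : (orb (CS G b {p1, p3}) p5).ncard = 1) {p7 : α} (a7 : a p7 = p7)
    (b7 : b p7 = p7) : ∀ g ∈ fixSub G {p1, p2, p3, p4}, g p7 = p7 := by
  have B4 := C.brauer R (S := {p1, p2, p3, p4}) (by simp) (by simp) (by simp) (by simp)
    C.inv4a C.inv4b
  have B7 := C.brauer R (S := {p7, p1, p2, p3, p4}) (by simp) (by simp) (by simp) (by simp)
    (by rintro x (rfl | rfl | rfl | rfl | rfl) <;> simp [C.a1, C.a2, C.a3, C.a4, a7])
    (by rintro x (rfl | rfl | rfl | rfl | rfl) <;> simp [C.b1, C.b2, C.b3, C.b4, b7])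
  have c7 : (a * b) p7 = p7 := by rw [Perm.mul_apply, b7, a7]
  rw [C.eq_a R (S := {p1, p2, p3, p4}) (by simp) (by simp) (by simp)
    (by rintro x (rfl | rfl | rfl | rfl) <;> simp [C.a1, C.a2]),
    C.eq_c R (S := {p1, p2, p3, p4}) (by simp) (by simp) (by simp)
    (by rintro x (rfl | rfl | rfl | rfl) <;> simp only [C.c3, C.c4, or_true, true_or])] at B4
  rw [C.eq_a R (S := {p7, p1, p2, p3, p4}) (by simp) (by simp) (by simp)
    (by rintro x (rfl | rfl | rfl | rfl | rfl) <;> simp [C.a1, C.a2, a7]),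
    C.eq_c R (S := {p7, p1, p2, p3, p4}) (by simp) (by simp) (by simp)
    (by rintro x (rfl | rfl | rfl | rfl | rfl) <;>
      simp only [C.c3, C.c4, c7, or_true, true_or])] at B7
  have eb : CS G b {p7, p1, p2, p3, p4} = CS G b {p1, p2, p3, p4} := by
    ext g
    constructor
    · intro h
      obtain ⟨h1, h2, h3⟩ := mem_CS.1 h
      exact mem_CS.2 ⟨h1, h2, fun x hx => h3 x (Or.inr hx)⟩
    · intro h
      obtain ⟨h1, h2, h3⟩ := mem_CS.1 h
      refine mem_CS.2 ⟨h1, h2, ?_⟩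
      rintro x (rfl | hx)
      · refine R.fix_all_of_one C.hb C.bb C.b_ne h2 (R.odd h1 C.D (h3 _ (by simp))
          (h3 _ (by simp)) (h3 _ (by simp)) (h3 _ (by simp))) C.b5 ?_ b7
        obtain ⟨y, hy⟩ := Set.ncard_eq_one.1 he
        have e1 : p5 ∈ ({y} : Set α) := hy ▸ self_mem_orb _ _
        have e2 : g p5 ∈ ({y} : Set α) := hy ▸ ⟨g, C.eq_b4 ▸ h, rfl⟩
        rw [Set.mem_singleton_iff] at e1 e2
        rw [e2, e1]
      · exact h3 x hx
  rw [eb, ← B4] at B7
  have hz : 0 < Nat.card ↥(CS G a (insert p3 (Fx a)) ⊓ centralizer {b}) := Nat.card_pos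
  have e := Nat.eq_of_mul_eq_mul_right (pow_pos hz 2) B7
  have hle : fixSub G {p7, p1, p2, p3, p4} ≤ fixSub G {p1, p2, p3, p4} :=
    fun g hg => ⟨hg.1, fun x hx => hg.2 x (Or.inr hx)⟩
  have := eq_of_le_of_card_ge hle e.ge
  intro g hg
  rw [← this] at hg
  exact hg.2 _ (Or.inl rfl)

theorem fix_star (R : Q4 G) {p7 : α} (a7 : a p7 = p7) (n71 : p7 ≠ p1) (n72 : p7 ≠ p2)
    (h7 : ∀ g ∈ fixSub G {p1, p2, p3, p4}, g p7 = p7) {t : Perm α} (ht : t ∈ G) (tt : t * t = 1)
    {u v w x : α} (hD : D4 u v x (t x)) (hu : t u = u) (hv : t v = v) (hw : t w = w)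
    (hwu : w ≠ u) (hwv : w ≠ v) {g : Perm α} (hg : g ∈ G) (gu : g u = u) (gv : g v = v)
    (gx : g x = x) (gt : g (t x) = t x) : g w = w := by
  obtain ⟨k, hk, e, k1, k2, k3⟩ := R.conj_fix ht C.ha tt C.aa hD
    (u' := p1) (v' := p2) (x' := p3) (by rw [C.a3]; exact C.D) hu hv C.a1 C.a2
  have ek : ∀ y, k (t y) = a (k y) := fun y => by rw [← e]; simp
  have k4 : k (t x) = p4 := by rw [ek, k3, C.a3]
  have k7 : k w = p7 := R.fix_third C.ha C.aa C.a_ne C.a1 C.a2 (by rw [← ek, hw]) a7 C.n12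
    (by rw [← k1]; exact k.injective.ne hwu) (by rw [← k2]; exact k.injective.ne hwv) n71 n72
  have := h7 (k * g * k⁻¹) ⟨mul_mem (mul_mem hk hg) (inv_mem hk), by
    rintro y (rfl | rfl | rfl | rfl) <;> simp only [Perm.mul_apply]
    · rw [inv_of k1, gu, k1]
    · rw [inv_of k2, gv, k2]
    · rw [inv_of k3, gx, k3]
    · rw [inv_of k4, gt, k4]⟩
  simp only [Perm.mul_apply] at this
  rw [inv_of k7, ← k7] at this
  exact k.injective this

theorem no23 (R : Q4 G) (hf : (Fx a).ncard = 3) (hfb : (Fx b).ncard = 3) {p7 : α}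
    (a7 : a p7 = p7) (b7 : b p7 = p7) (n71 : p7 ≠ p1) (n72 : p7 ≠ p2)
    (h7 : ∀ g ∈ fixSub G {p1, p2, p3, p4}, g p7 = p7)
    (h9 : (orb (fixSub G {p1, p2, p3, p4}) p5).ncard = 9)
    (disj : Disjoint (orb (fixSub G {p1, p2, p3, p4}) p5) (orb (fixSub G {p1, p2, p3, p4}) p6))
    (cover : ∀ z ∉ ({p1, p2, p3, p4} : Set α), z ≠ p7 →
      z ∈ orb (fixSub G {p1, p2, p3, p4}) p5 ∨ z ∈ orb (fixSub G {p1, p2, p3, p4}) p6) :
    False := by
  have h9' := C.ncard_O6
  set H := fixSub G {p1, p2, p3, p4} with hH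
  have n7 : p7 ∉ ({p1, p2, p3, p4} : Set α) := by
    rintro (h | h | h | h)
    exacts [n71 h, n72 h, C.na3 a7 h.symm, C.na4 a7 h.symm]
  have nf : ∀ {y z : α}, (orb H y).ncard = 9 → z ∈ orb H y → (∀ g ∈ H, g z = z) → False := by
    intro y z h1 h2 h3
    have : (orb H y).ncard ≤ ({z} : Set α).ncard := by
      refine Set.ncard_le_ncard ?_ (Set.toFinite _)
      rw [← orb_eq h2]
      rintro _ ⟨g, hg, rfl⟩
      exact h3 g hg
    rw [Set.ncard_singleton] at this
    omega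
  obtain ⟨q, hq, hq5⟩ : ∃ q ∈ orb H p5, q ∉ ({p5} : Set α) :=
    Set.exists_mem_notMem_of_ncard_lt_ncard (by rw [h9, Set.ncard_singleton]; omega)
      (Set.toFinite _)
  have hq4 := orb_fixSub_notMem C.n5 hq
  simp only [Set.mem_insert_iff, Set.mem_singleton_iff, not_or] at hq4 hq5
  have hq6 : q ≠ p6 := by
    rintro rfl
    exact Set.disjoint_left.1 disj hq (self_mem_orb _ _)
  have hq7 : q ≠ p7 := by
    rintro rfl
    exact nf h9 hq h7
  have qa : a q ≠ q := fun h =>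
    hq7 (R.fix_third C.ha C.aa C.a_ne C.a1 C.a2 h a7 C.n12 hq4.1 hq4.2.1 n71 n72)
  have qb : b q ≠ q := fun h =>
    hq7 (R.fix_third C.hb C.bb C.b_ne C.b5 C.b6 h b7 C.n56 hq5 hq6 (C.na5 a7).symm
      (C.na6 a7).symm)
  have qc : a (b q) ≠ q := fun h =>
    hq7 (R.fix_third C.hc C.cc C.c_ne C.c3 C.c4 h (by rw [Perm.mul_apply, b7, a7]) C.n34
      hq4.2.2.1 hq4.2.2.2 (C.na3 a7).symm (C.na4 a7).symm)
  have hD : D4 q (a q) (b q) (a (b q)) := ⟨qa.symm, qb.symm, qc.symm,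
    fun h => qc (by rw [← h, apply_apply C.aa]), a.injective.ne qb.symm,
    fun h => qa (b.injective (by rw [← comm_apply C.ab, ← h]))⟩
  obtain ⟨k, hk, k1, k2, k3, k4⟩ := R.tr C.D hD
  have claim : ∀ t ∈ G, t * t = 1 → (Fx t).ncard = 3 →
      (∀ x ∈ ({p1, p2, p3, p4} : Set α), t x ∈ ({p1, p2, p3, p4} : Set α) ∧ t x ≠ x) →
      t p7 = p7 ∧ (∀ y ∈ orb H p5, t y ∈ orb H p5) ∧ (∀ y ∈ orb H p6, t y ∈ orb H p6) := by
    intro t ht tt h3 hS
    have hn := conj_mem_fixSub ht tt fun x hx => (hS x hx).1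
    have hout : ∀ z ∉ ({p1, p2, p3, p4} : Set α), t z ∉ ({p1, p2, p3, p4} : Set α) :=
      fun z hz h => hz (by rw [← apply_apply tt z]; exact (hS _ h).1)
    have t7 : t p7 = p7 := by
      by_contra h
      have hfix : ∀ g ∈ H, g (t p7) = t p7 := fun g hg => by
        have := h7 _ (hn g hg)
        simp only [Perm.mul_apply] at this
        rw [← apply_apply tt (g (t p7)), this]
      rcases cover _ (hout _ n7) h with h' | h'
      · exact nf h9 h' hfix
      · exact nf (h9' ▸ h9) h' hfix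
    have hne7 : ∀ z, z ≠ p7 → t z ≠ p7 := fun z hz h => hz (t.injective (h.trans t7.symm))
    rcases cover _ (hout _ C.n5) (hne7 _ (C.na5 a7)) with h5 | h5
    · have i5 : ∀ y ∈ orb H p5, t y ∈ orb H p5 := fun y hy => orb_trans h5 (orb_conj tt hn hy)
      refine ⟨t7, i5, fun y hy => (cover _ (hout _ (orb_fixSub_notMem C.n6 hy)) (hne7 _ ?_)
        ).resolve_left fun h => ?_⟩
      · rintro rfl
        exact nf (h9' ▸ h9) hy h7
      · have := i5 _ h
        rw [apply_apply tt] at this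
        exact Set.disjoint_left.1 disj this hy
    · exfalso
      obtain ⟨y, hy, hy7⟩ : ∃ y ∈ Fx t, y ∉ ({p7} : Set α) :=
        Set.exists_mem_notMem_of_ncard_lt_ncard (by rw [h3, Set.ncard_singleton]; omega)
          (Set.toFinite _)
      rcases cover y (fun h => (hS y h).2 hy) hy7 with h | h
      · have := orb_trans h5 (orb_conj tt hn h)
        rw [mem_Fx.1 hy] at this
        exact Set.disjoint_left.1 disj h this
      · have := orb_conj tt hn (orb_trans (orb_symm h5) h)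
        rw [mem_Fx.1 hy, apply_apply tt] at this
        exact Set.disjoint_left.1 disj this h
  have hc : ∀ t ∈ G, t * t = 1 → (Fx t).ncard = 3 →
      k⁻¹ * t * k ∈ G ∧ k⁻¹ * t * k * (k⁻¹ * t * k) = 1 ∧ (Fx (k⁻¹ * t * k)).ncard = 3 := by
    intro t ht tt h3
    refine ⟨mul_mem (mul_mem (inv_mem hk) ht) hk, ?_, ?_⟩
    · calc _ = k⁻¹ * (t * t) * k := by group
        _ = 1 := by rw [tt]; group
    · have := Fx_conj t k⁻¹
      rw [inv_inv] at this
      rw [this, Set.ncard_image_of_injective _ k⁻¹.injective, h3]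
  obtain ⟨ha', aa', fa'⟩ := hc a C.ha C.aa hf
  obtain ⟨hb', bb', fb'⟩ := hc b C.hb C.bb hfb
  have ca := claim _ ha' aa' fa' (by
    rintro x (rfl | rfl | rfl | rfl) <;> simp only [Perm.mul_apply]
    · rw [k1, inv_of k2]; exact ⟨by simp, C.n12.symm⟩
    · rw [k2, apply_apply C.aa, inv_of k1]; exact ⟨by simp, C.n12⟩
    · rw [k3, inv_of k4]; exact ⟨by simp, C.n34.symm⟩
    · rw [k4, apply_apply C.aa, inv_of k3]; exact ⟨by simp, C.n34⟩)
  have cb := claim _ hb' bb' fb' (by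
    rintro x (rfl | rfl | rfl | rfl) <;> simp only [Perm.mul_apply]
    · rw [k1, inv_of k3]; exact ⟨by simp, C.n13.symm⟩
    · rw [k2, ← comm_apply C.ab, inv_of k4]; exact ⟨by simp, C.n24.symm⟩
    · rw [k3, apply_apply C.bb, inv_of k1]; exact ⟨by simp, C.n13⟩
    · rw [k4, ← comm_apply C.ab, apply_apply C.bb, inv_of k2]; exact ⟨by simp, C.n24⟩)
  have ab' : k⁻¹ * a * k * (k⁻¹ * b * k) = k⁻¹ * b * k * (k⁻¹ * a * k) := by
    calc _ = k⁻¹ * (a * b) * k := by group
      _ = _ := by rw [C.ab]; group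
  have w1 : (k⁻¹ * a * k) (k⁻¹ p1) = k⁻¹ p1 := by simp only [Perm.mul_apply, aiv, C.a1]
  have w2 : (k⁻¹ * b * k) (k⁻¹ p1) ≠ k⁻¹ p1 := by
    simp only [Perm.mul_apply, aiv, C.b1]
    exact k⁻¹.injective.ne C.n12.symm
  have a_ne' : k⁻¹ * a * k ≠ 1 := by
    intro h
    apply C.a_ne
    calc a = k * (k⁻¹ * a * k) * k⁻¹ := by group
      _ = 1 := by rw [h]; group
  generalize k⁻¹ * a * k = a' at *
  generalize k⁻¹ * b * k = b' at *
  obtain ⟨x5, hx5, e5⟩ := exists_fix_of_odd aa' ca.2.1 (by rw [h9]; decide)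
  obtain ⟨x6, hx6, e6⟩ := exists_fix_of_odd aa' ca.2.2 (by rw [← h9', h9]; decide)
  have ne7 : ∀ {y z : α}, (orb H y).ncard = 9 → z ∈ orb H y → z ≠ p7 := by
    rintro y z h1 h2 rfl
    exact nf h1 h2 h7
  have ne56 : ∀ {y z : α}, y ∈ orb H p5 → z ∈ orb H p6 → y ≠ z := by
    rintro y z h1 h2 rfl
    exact Set.disjoint_left.1 disj h1 h2
  have f5 : b' x5 = x5 := R.fix_third ha' aa' a_ne' e6 ca.1 (by rw [comm_apply ab', e5]) e5
    (ne7 (h9' ▸ h9) hx6) (ne56 (cb.2.1 _ hx5) hx6) (ne7 h9 (cb.2.1 _ hx5)) (ne56 hx5 hx6)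
    (ne7 h9 hx5)
  exact w2 (R.fix_all_of_two ha' aa' a_ne' ab'.symm e5 ca.1 (ne7 h9 hx5) f5 cb.1 w1)

theorem case_eleven (R : Q4 G) (hf : (Fx a).ncard = 3)
    (he : (orb (CS G b {p1, p3}) p5).ncard = 1) :
    Nat.card α = 11 ∧ fixSub G {p1, p2, p3, p4} = ⊥ := by
  obtain ⟨m1, m2, m3⟩ := C.main R
  obtain ⟨p7, a7, b7, n71, n72⟩ := C.exists_p7 R hf
  have h7 := C.fix_p7 R he a7 b7
  have hm := Q4.ncard_moved (t := a) (x := p3) (by rw [C.a3]; exact C.n34.symm)
  rw [he, hf] at m2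
  rw [he] at m1
  have hFa : ∀ g ∈ fixSub G {p1, p2, p3, p4}, ∀ x, a x = x → g x = x := by
    intro g hg x hx
    by_cases h1 : x = p1
    · exact hg.2 x (by simp [h1])
    by_cases h2 : x = p2
    · exact hg.2 x (by simp [h2])
    rw [R.fix_third C.ha C.aa C.a_ne C.a1 C.a2 hx a7 C.n12 h1 h2 n71 n72]
    exact h7 g hg
  have e1 := card_eq_orb (fixSub G {p1, p2, p3, p4}) (fixSub G {p1, p2, p3, p4, p5, p6}) p5
    fun g => by
      constructor
      · intro hg
        refine ⟨⟨hg.1, ?_⟩, hg.2 _ (by simp)⟩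
        rintro x (rfl | rfl | rfl | rfl) <;> exact hg.2 _ (by simp)
      · rintro ⟨hg, g5⟩
        refine ⟨hg.1, ?_⟩
        rintro x (rfl | rfl | rfl | rfl | rfl | rfl)
        · exact hg.2 _ (by simp)
        · exact hg.2 _ (by simp)
        · exact hg.2 _ (by simp)
        · exact hg.2 _ (by simp)
        · exact g5
        · refine C.fix_star R a7 n71 n72 h7 C.hb C.bb (u := p5) (v := p7) (x := p1) ?_ C.b5 b7
            C.b6 C.n56.symm (C.na6 a7) hg.1 g5 (h7 g hg) (hg.2 _ (by simp))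
            (by rw [C.b1]; exact hg.2 _ (by simp))
          rw [C.b1]
          exact ⟨C.na5 a7, (C.nb1 C.b5).symm, (C.nb2 C.b5).symm, n71, n72, C.n12⟩
  have hl : 0 < Nat.card (fixSub G {p1, p2, p3, p4, p5, p6}) := Nat.card_pos
  rw [m1, mul_one] at e1
  have hO := Nat.eq_of_mul_eq_mul_right hl e1
  have disj : Disjoint (orb (fixSub G {p1, p2, p3, p4}) p5) (orb (fixSub G {p1, p2, p3, p4}) p6) := by
    rw [← C.a5]
    exact orb_disj (C.oddH R) C.aa C.normH hFa (by rw [C.a5]; exact C.n56.symm)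
  have h56 := C.ncard_O6
  have hW : ∀ {y z : α}, y ∉ ({p1, p2, p3, p4} : Set α) → a y ≠ y →
      z ∈ orb (fixSub G {p1, p2, p3, p4}) y → z ∈ (insert p3 (insert (a p3) (Fx a)))ᶜ := by
    intro y z h1 h2 h3
    have h4 := orb_fixSub_notMem h1 h3
    rintro (rfl | rfl | h)
    · exact h4 (by simp)
    · exact h4 (by simp [C.a3])
    · obtain ⟨g, hg, rfl⟩ := orb_symm h3
      rw [hFa g hg z h] at h2
      exact h2 h
  have hsub : orb (fixSub G {p1, p2, p3, p4}) p5 ∪ orb (fixSub G {p1, p2, p3, p4}) p6 ⊆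
      (insert p3 (insert (a p3) (Fx a)))ᶜ := by
    rintro x (h | h)
    · exact hW C.n5 (by rw [C.a5]; exact C.n56.symm) h
    · exact hW C.n6 (by rw [C.a6]; exact C.n56) h
  have hu := Set.ncard_union_eq disj (Set.toFinite _) (Set.toFinite _)
  have hle := Set.ncard_le_ncard hsub (Set.toFinite _)
  have hodd := C.odd_m R
  generalize (orb (CS G a (insert p3 (Fx a))) p5).ncard = m at *
  have hm3 : m ≤ 3 := by nlinarith
  obtain rfl | rfl : m = 1 ∨ m = 3 := by
    obtain ⟨k, hk⟩ := hodd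
    omega
  · refine ⟨by omega, ?_⟩
    have g5 : ∀ g ∈ fixSub G {p1, p2, p3, p4}, g p5 = p5 := by
      intro g hg
      obtain ⟨y, hy⟩ := Set.ncard_eq_one.1 hO.symm
      have e1 : p5 ∈ ({y} : Set α) := hy ▸ self_mem_orb _ _
      have e2 : g p5 ∈ ({y} : Set α) := hy ▸ ⟨g, hg, rfl⟩
      rw [Set.mem_singleton_iff] at e1 e2
      rw [e2, e1]
    rw [eq_bot_iff]
    intro g hg
    rw [mem_bot]
    ext w
    change g w = w
    by_cases hw : w ∈ insert p3 (insert (a p3) (Fx a))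
    · rcases hw with rfl | rfl | hw
      · exact hg.2 _ (by simp)
      · exact hg.2 _ (by simp [C.a3])
      · exact hFa g hg w hw
    · have : w ∈ orb (CS G a {p3}) p5 := by rw [R.orb_moved C.ha C.aa C.Da]; exact hw
      obtain ⟨k, hk, rfl⟩ := this
      obtain ⟨h1, h2, h3⟩ := mem_CS.1 hk
      have k3 : k p3 = p3 := h3 _ rfl
      have k4 : k p4 = p4 := by rw [← C.a3, comm_apply h2, k3]
      have := g5 (k⁻¹ * g * k) ⟨mul_mem (mul_mem (inv_mem h1) hg.1) h1, by
        rintro x (rfl | rfl | rfl | rfl) <;> simp only [Perm.mul_apply]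
        · rw [hFa g hg _ (by rw [← comm_apply h2, C.a1]), iav]
        · rw [hFa g hg _ (by rw [← comm_apply h2, C.a2]), iav]
        · rw [k3, hg.2 _ (by simp), inv_of k3]
        · rw [k4, hg.2 _ (by simp), inv_of k4]⟩
      simp only [Perm.mul_apply] at this
      exact Perm.inv_eq_iff_eq.1 this
  · exfalso
    have hcov := Set.eq_of_subset_of_ncard_le hsub (by omega) (Set.toFinite _)
    refine C.no23 R hf (by omega) a7 b7 n71 n72 h7 (by omega) disj fun z hz hz7 => ?_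
    have : z ∈ orb (fixSub G {p1, p2, p3, p4}) p5 ∪ orb (fixSub G {p1, p2, p3, p4}) p6 := by
      rw [hcov]
      simp only [Set.mem_insert_iff, Set.mem_singleton_iff, not_or] at hz
      rintro (h | h | h)
      · exact hz.2.2.1 h
      · exact hz.2.2.2 (h.trans C.a3)
      · exact hz7 (R.fix_third C.ha C.aa C.a_ne C.a1 C.a2 h a7 C.n12 hz.1 hz.2.1 n71 n72)
    exact this

theorem cases (R : Q4 G) : (Nat.card α = 6 ∧ (Fx a).ncard = 2) ∨
    (Nat.card α = 7 ∧ (Fx a).ncard = 3) ∨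
    (Nat.card α = 11 ∧ fixSub G {p1, p2, p3, p4} = ⊥) := by
  have h1 := R.ncard_Fx_le C.ha C.aa C.a_ne
  have h2 : ({p1, p2} : Set α).ncard ≤ (Fx a).ncard := by
    refine Set.ncard_le_ncard ?_ (Set.toFinite _)
    rintro x (rfl | rfl)
    exacts [C.a1, C.a2]
  rw [Set.ncard_pair C.n12] at h2
  obtain hf | hf : (Fx a).ncard = 2 ∨ (Fx a).ncard = 3 := by omega
  · exact Or.inl ⟨C.case_even R hf, hf⟩
  have h3 := Set.ncard_le_ncard C.orbA_sub (Set.toFinite _)
  have h4 := R.ncard_Fx_le C.hb C.bb C.b_ne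
  obtain ⟨k, hk⟩ := C.odd_eps R
  obtain he | he : (orb (CS G b {p1, p3}) p5).ncard = 3 ∨
      (orb (CS G b {p1, p3}) p5).ncard = 1 := by omega
  · exact Or.inr (Or.inl ⟨C.case_seven R hf he, hf⟩)
  · exact Or.inr (Or.inr (C.case_eleven R hf he))

end Cfg

theorem Q4.of_multiply [Fintype α] [DecidableEq α] {G : Subgroup (Perm α)}
    (hG : IsMultiplyPretransitive G α 4) (x : Fin 4 ↪ α)
    (hodd : Odd (Nat.card (stabilizer G x))) : Q4 G := by
  have tr : ∀ {a b c d a' b' c' d' : α}, D4 a b c d → D4 a' b' c' d' →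
      ∃ g ∈ G, g a = a' ∧ g b = b' ∧ g c = c' ∧ g d = d' := by
    have inj : ∀ {a b c d : α}, D4 a b c d → Function.Injective ![a, b, c, d] := by
      rintro a b c d ⟨h1, h2, h3, h4, h5, h6⟩ i j
      fin_cases i <;> fin_cases j <;> simp [*, h1.symm, h2.symm, h3.symm, h4.symm, h5.symm, h6.symm]
    intro a b c d a' b' c' d' h h'
    obtain ⟨g, hg⟩ := exists_smul_eq G (⟨_, inj h⟩ : Fin 4 ↪ α) (⟨_, inj h'⟩ : Fin 4 ↪ α)
    have e := fun i => congrArg (fun f : Fin 4 ↪ α => f i) hg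
    exact ⟨g, g.2, e 0, e 1, e 2, e 3⟩
  refine ⟨tr, fun {g} hg {a b c d} hD ha hb hc hd => ?_⟩
  obtain ⟨k, hk, k1, k2, k3, k4⟩ := tr hD (⟨x.injective.ne (by decide), x.injective.ne (by decide),
    x.injective.ne (by decide), x.injective.ne (by decide), x.injective.ne (by decide),
    x.injective.ne (by decide)⟩ : D4 (x 0) (x 1) (x 2) (x 3))
  have hm : (⟨k * g * k⁻¹, mul_mem (mul_mem hk hg) (inv_mem hk)⟩ : G) ∈ stabilizer G x := by
    rw [mem_stabilizer_iff]
    ext i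
    change k (g (k⁻¹ (x i))) = x i
    fin_cases i
    · change k (g (k⁻¹ (x 0))) = x 0
      rw [inv_of k1, ha, k1]
    · change k (g (k⁻¹ (x 1))) = x 1
      rw [inv_of k2, hb, k2]
    · change k (g (k⁻¹ (x 2))) = x 2
      rw [inv_of k3, hc, k3]
    · change k (g (k⁻¹ (x 3))) = x 3
      rw [inv_of k4, hd, k4]
  have := hodd.of_dvd_nat (orderOf_dvd_natCard _ hm)
  rw [← orderOf_coe] at this
  rwa [← (MulAut.conj k).orderOf_eq g]

theorem Q4.classify [Fintype α] [DecidableEq α] {G : Subgroup (Perm α)} (R : Q4 G)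
    (hG : IsMultiplyPretransitive G α 4) (h6 : 6 ≤ Nat.card α) :
    ((Nat.card α = 6 ∨ Nat.card α = 7) ∧ G = alternatingGroup α) ∨
      (Nat.card α = 11 ∧ Nat.card G = 7920) := by
  obtain ⟨p1, p2, p3, p4, -, -, -, -, D⟩ := (Set.three_lt_ncard_iff (s := (Set.univ : Set α))
    (Set.toFinite _)).1 (by rw [Set.ncard_univ]; omega)
  obtain ⟨a, b, p5, p6, C⟩ := R.exists_cfg h6 D
  have key : (Fx a).ncard + 4 = Nat.card α → G = alternatingGroup α := by
    intro h
    have hs : a.support.card ≤ 4 := by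
      have e := Set.ncard_add_ncard_compl (Fx a)
      have : (Fx a)ᶜ = a.support := by
        ext y; simp [mem_Fx]
      rw [this, Set.ncard_coe_finset] at e
      omega
    have hle := alt_le_of_support hG (by omega) (by omega) C.ha C.a_ne hs
    haveI : Nontrivial α := ⟨p1, p2, C.n12⟩
    have hi := index_dvd_of_le hle
    rw [alternatingGroup.index_eq_two, Nat.dvd_prime Nat.prime_two] at hi
    rcases hi with hi | hi
    · exfalso
      rw [index_eq_one] at hi
      have := R.eq_one (g := swap p5 p6) (hi ▸ mem_top _) (swap_mul_self _ _) C.D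
        (swap_apply_of_ne_of_ne (C.nb1 C.b5) (C.nb1 C.b6))
        (swap_apply_of_ne_of_ne (C.nb2 C.b5) (C.nb2 C.b6))
        (swap_apply_of_ne_of_ne (C.nb3 C.b5) (C.nb3 C.b6))
        (swap_apply_of_ne_of_ne (C.nb4 C.b5) (C.nb4 C.b6))
      exact C.n56 (swap_eq_one_iff.1 this)
    · exact eq_alternatingGroup_of_index_eq_two hi
  rcases C.cases R with h | h | h
  · exact Or.inl ⟨Or.inl h.1, key (by omega)⟩
  · exact Or.inl ⟨Or.inr h.1, key (by omega)⟩
  · refine Or.inr ⟨h.1, ?_⟩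
    have := card_mul_factorial_of_multiply hG {p1, p2, p3, p4} (by
      rw [Finset.card_insert_of_notMem (by simp [C.n12, C.n13, C.n14]),
        Finset.card_insert_of_notMem (by simp [C.n23, C.n24]), Finset.card_pair C.n34])
    simp only [Finset.coe_insert, Finset.coe_singleton] at this
    rw [h.1, h.2, card_bot] at this
    norm_num [Nat.factorial] at this
    omega

theorem four_transitive_odd [Fintype α] [DecidableEq α] (G : Subgroup (Perm α))
    (hG : IsMultiplyPretransitive G α 4) (x : Fin 4 ↪ α)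
    (hodd : Odd (Nat.card (stabilizer G x))) :
    ((Fintype.card α = 4 ∨ Fintype.card α = 5) ∧ G = ⊤) ∨
      ((Fintype.card α = 6 ∨ Fintype.card α = 7) ∧ G = alternatingGroup α) ∨
      (Fintype.card α = 11 ∧ Nat.card G = 7920) := by
  have h4 : 4 ≤ Nat.card α := by
    have := Fintype.card_le_of_embedding x
    rwa [Fintype.card_fin, ← Nat.card_eq_fintype_card] at this
  rw [← Nat.card_eq_fintype_card]
  by_cases h6 : 6 ≤ Nat.card α
  · exact Or.inr ((Q4.of_multiply hG x hodd).classify hG h6)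
  · refine Or.inl ⟨by omega, eq_top_of_isMultiplyPretransitive ?_⟩
    exact isMultiplyPretransitive_of_le (n := 4) (by omega) h4

end CfsgLib.H6Q
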