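import Mathlib
import Cfsg.Agent.Lib.CoprimeGen
import Cfsg.Agent.Lib.H5Small

/-! Failure of factorization for solvable groups, `p = 2` (Glauberman): best offenders are generated
by transvections, and the transvections generate a direct product of copies of `S₃`. -/

set_option autoImplicit false
set_option linter.unusedSectionVars false

namespace CfsgLib.H6T
open Subgroup Cfsg

variable {G V : Type*} [Group G] [Finite G] [CommGroup V] [Finite V] (φ : G →* MulAut V)

/-- `v ↦ [v, g]`. -/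
def dl (g : G) : V →* V := MonoidHom.mk' (fun v => v⁻¹ * φ g v) fun a b => by
  rw [map_mul, mul_inv, mul_mul_mul_comm]

def rg (g : G) : Subgroup V := (dl φ g).range

def fixS (B : Subgroup G) : Subgroup V where
  carrier := {v | ∀ b ∈ B, φ b v = v}
  mul_mem' ha hb b h := by rw [map_mul, ha b h, hb b h]
  one_mem' b _ := map_one _
  inv_mem' ha b h := by rw [map_inv, ha b h]

def Tv (t : G) : Prop := t ≠ 1 ∧ Nat.card (rg φ t) ≤ 2

structure Setup (F : Subgroup G) : Prop where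
  inj : Function.Injective φ
  pV : IsPGroup 2 V
  normal : F.Normal
  nil : Group.IsNilpotent F
  odd : Odd (Nat.card F)
  cent : centralizer (F : Set G) ≤ F

structure Pr (F : Subgroup G) (t d : G) : Prop where
  tv : Tv φ t
  mem : d ∈ F
  ne : d ≠ 1
  inv : t * d * t = d⁻¹
  card : Nat.card (rg φ d) ≤ 4

variable {φ} {F : Subgroup G}

theorem dl_apply (g : G) (v : V) : dl φ g v = v⁻¹ * φ g v := rfl

theorem dl_mem (g : G) (v : V) : v⁻¹ * φ g v ∈ rg φ g := ⟨v, rfl⟩

theorem mul_apply' (g h : G) (v : V) : φ (g * h) v = φ g (φ h v) := by rw [map_mul]; rfl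

theorem inv_apply' (g : G) (v : V) : φ g⁻¹ (φ g v) = v := by rw [← mul_apply']; simp

theorem apply_inv' (g : G) (v : V) : φ g (φ g⁻¹ v) = v := by rw [← mul_apply']; simp

theorem apply_mem_of_le {g : G} {W : Subgroup V} (h : rg φ g ≤ W) {w : V} (hw : w ∈ W) :
    φ g w ∈ W := by
  have := W.mul_mem hw (h (dl_mem g w))
  rwa [mul_inv_cancel_left] at this

theorem conj_mem_rg (x : G) {g : G} {w : V} (hw : w ∈ rg φ g) : φ x w ∈ rg φ (x * g * x⁻¹) := by
  obtain ⟨v, rfl⟩ := hw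
  exact ⟨φ x v, by rw [dl_apply, dl_apply, mul_apply', mul_apply', inv_apply', map_mul, map_inv]⟩

theorem card_rg_conj (x g : G) : Nat.card (rg φ (x * g * x⁻¹)) ≤ Nat.card (rg φ g) :=
  Nat.card_le_card_of_injective (fun w => (⟨φ x⁻¹ w, by
    simpa [mul_assoc] using conj_mem_rg x⁻¹ w.2⟩ : rg φ g)) fun a b h =>
    Subtype.ext ((φ x⁻¹).injective (congrArg Subtype.val h))

/-- The elements acting trivially on `V/W`. -/
def rgLe (W : Subgroup V) : Subgroup G where
  carrier := {g | rg φ g ≤ W}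
  mul_mem' {a b} ha hb := by
    rintro _ ⟨v, rfl⟩
    have := W.mul_mem (hb (dl_mem b v)) (ha (dl_mem a (φ b v)))
    rwa [mul_assoc, mul_inv_cancel_left, ← mul_apply'] at this
  one_mem' := by rintro _ ⟨v, rfl⟩; simp [dl_apply, W.one_mem]
  inv_mem' {a} ha := by
    rintro _ ⟨v, rfl⟩
    have := W.inv_mem (ha (dl_mem a (φ a⁻¹ v)))
    rwa [apply_inv', mul_inv_rev, inv_inv] at this

theorem rg_mul_le {W : Subgroup V} {a b : G} (ha : rg φ a ≤ W) (hb : rg φ b ≤ W) :
    rg φ (a * b) ≤ W := (rgLe (φ := φ) W).mul_mem (x := a) (y := b) ha hb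

theorem rg_inv_le {W : Subgroup V} {a : G} (ha : rg φ a ≤ W) : rg φ a⁻¹ ≤ W :=
  (rgLe (φ := φ) W).inv_mem (x := a) ha

theorem rg_inv (g : G) : rg φ g⁻¹ = rg φ g :=
  le_antisymm (rg_inv_le le_rfl) (by simpa using rg_inv_le (φ := φ) (a := g⁻¹) le_rfl)

theorem card_sup_le (A B : Subgroup V) : Nat.card ↥(A ⊔ B) ≤ Nat.card A * Nat.card B := by
  rw [← Nat.card_prod]
  refine Nat.card_le_card_of_surjective
    (fun p => (⟨p.1 * p.2, mul_mem_sup p.1.2 p.2.2⟩ : ↥(A ⊔ B))) fun x => ?_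
  obtain ⟨a, ha, b, hb, h⟩ := mem_sup.1 x.2
  exact ⟨(⟨a, ha⟩, ⟨b, hb⟩), Subtype.ext h⟩

theorem mem_four {W : Subgroup V} (h : Nat.card W ≤ 4) {a b c x : V} (ha : a ∈ W) (hb : b ∈ W)
    (hc : c ∈ W) (hx : x ∈ W) (a1 : a ≠ 1) (b1 : b ≠ 1) (c1 : c ≠ 1) (ab : a ≠ b) (ac : a ≠ c)
    (bc : b ≠ c) : x = 1 ∨ x = a ∨ x = b ∨ x = c := by
  classical
  by_contra hn
  push Not at hn
  have h1 : ({x, 1, a, b, c} : Finset V).card = 5 := by
    rw [Finset.card_insert_of_notMem (by simp; tauto), Finset.card_insert_of_notMem (by simp; tauto),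
      Finset.card_insert_of_notMem (by simp; tauto), Finset.card_pair bc]
  have h2 : (({x, 1, a, b, c} : Finset V) : Set V).ncard ≤ (W : Set V).ncard :=
    Set.ncard_le_ncard (by
      intro y hy
      simp only [Finset.coe_insert, Finset.coe_singleton, Set.mem_insert_iff,
        Set.mem_singleton_iff] at hy
      rcases hy with rfl | rfl | rfl | rfl | rfl
      exacts [hx, W.one_mem, ha, hb, hc])
  rw [Set.ncard_coe_finset, h1] at h2
  have h3 : (W : Set V).ncard = Nat.card W := rfl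
  omega

theorem mem_two {W : Subgroup V} (h : Nat.card W ≤ 2) {a x : V} (ha : a ∈ W) (hx : x ∈ W)
    (a1 : a ≠ 1) : x = 1 ∨ x = a := by
  classical
  have h1 : zpowers a = W := eq_of_le_of_card_ge (zpowers_le.2 ha) (h.trans (by
    have := (one_lt_card_iff_ne_bot (zpowers a)).2 (by simpa using a1)
    omega))
  have h2 : orderOf a = 2 := by
    have := (one_lt_card_iff_ne_bot (zpowers a)).2 (by simpa using a1)
    rw [← h1] at h
    rw [Nat.card_zpowers] at h this
    omega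
  rw [← h1, mem_zpowers_iff_mem_range_orderOf, h2] at hx
  simp only [Finset.mem_image, Finset.mem_range] at hx
  obtain ⟨j, hj, rfl⟩ := hx
  interval_cases j <;> simp

theorem exists_fixed (hV : IsPGroup 2 V) {B : Subgroup G} (hB : IsPGroup 2 B) {R : Subgroup V}
    (hR : R ≠ ⊥) (h : ∀ b ∈ B, ∀ r ∈ R, φ b r ∈ R) : ∃ r ∈ R, r ≠ 1 ∧ ∀ b ∈ B, φ b r = r := by
  let _ : MulAction B R :=
    { smul := fun b r => ⟨φ b r, h b b.2 r r.2⟩
      one_smul := fun r => Subtype.ext (by change φ (1 : G) r = r; simp)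
      mul_smul := fun a b r => Subtype.ext (mul_apply' _ _ _) }
  obtain ⟨k, hk⟩ := IsPGroup.iff_card.1 (hV.to_subgroup R)
  obtain ⟨r, hr, hr1⟩ := hB.exists_fixed_point_of_prime_dvd_card_of_fixed_point R (a := 1)
    (by
      rw [hk]
      exact dvd_pow_self 2 (by rintro rfl; exact hR (card_eq_one.1 hk)))
    (fun b => Subtype.ext (map_one (φ b)))
  exact ⟨r, r.2, fun h => hr1 (Subtype.ext h.symm), fun b hb => congrArg Subtype.val (hr ⟨b, hb⟩)⟩

theorem commute_of_rg (hφ : Function.Injective φ) {x y : G} (h1 : ∀ w ∈ rg φ x, φ y w = w)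
    (h2 : ∀ w ∈ rg φ y, φ x w = w) : x * y = y * x := by
  refine hφ (MulEquiv.ext fun v => ?_)
  have a1 := h1 _ (dl_mem x v)
  have a2 := h2 _ (dl_mem y v)
  rw [map_mul, map_inv, inv_mul_eq_iff_eq_mul] at a1 a2
  rw [mul_apply', mul_apply', a1, a2]
  simp only [mul_comm, mul_left_comm]

namespace Tv
variable {t : G} (h : Tv φ t)
include h

theorem fix {w : V} (hw : w ∈ rg φ t) : φ t w = w := by
  by_cases h1 : w = 1
  · rw [h1, map_one]
  · exact (mem_two h.2 hw (apply_mem_of_le le_rfl hw) h1).resolve_left (by simpa using h1)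

theorem sq_rg {w : V} (hw : w ∈ rg φ t) : w * w = 1 := by
  by_cases h1 : w = 1
  · rw [h1, mul_one]
  · exact (mem_two h.2 hw (mul_mem hw hw) h1).resolve_right (by simpa using h1)

theorem sq (hφ : Function.Injective φ) : t * t = 1 := by
  refine hφ (MulEquiv.ext fun v => ?_)
  have a1 := h.fix (dl_mem t v)
  have a2 := h.sq_rg (dl_mem t v)
  rw [map_mul, map_inv, inv_mul_eq_iff_eq_mul] at a1
  rw [mul_apply', a1, map_one, MulAut.one_apply]
  calc φ t v * (v⁻¹ * φ t v) = v * (v⁻¹ * φ t v * (v⁻¹ * φ t v)) := by group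
    _ = v := by rw [a2, mul_one]

theorem conj (x : G) : Tv φ (x * t * x⁻¹) :=
  ⟨fun h1 => h.1 (by simpa using h1), (card_rg_conj x t).trans h.2⟩

theorem exists_ne (hφ : Function.Injective φ) : ∃ z ∈ rg φ t, z ≠ 1 := by
  by_contra hn
  push Not at hn
  exact h.1 (hφ (MulEquiv.ext fun v => by
    rw [map_one]; exact (inv_mul_eq_one.1 (hn _ (dl_mem t v))).symm))

end Tv

theorem Pr.conj (hF : F.Normal) {t d : G} (h : Pr φ F t d) (x : G) :
    Pr φ F (x * t * x⁻¹) (x * d * x⁻¹) :=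
  ⟨h.tv.conj x, hF.conj_mem d h.mem x, fun h1 => h.ne (by simpa using h1), by
    calc _ = x * (t * d * t) * x⁻¹ := by group
      _ = _ := by rw [h.inv]; group, (card_rg_conj x d).trans h.card⟩

namespace Setup
variable (S : Setup φ F)
include S

theorem odd_order {g : G} (hg : g ∈ F) : Odd (orderOf g) :=
  S.odd.of_dvd_nat (orderOf_dvd_natCard F hg)

theorem eq_one {g : G} (hg : g ∈ F) {v : V} (hv : v ∈ rg φ g) (h : φ g v = v) : v = 1 := by
  obtain ⟨u, rfl⟩ := hv
  set v := dl φ g u with hv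
  have h1 : ∀ n : ℕ, φ (g ^ n) u = u * v ^ n := fun n => by
    induction n with
    | zero => simp
    | succ n ih =>
      rw [pow_succ', mul_apply', ih, map_mul, map_pow, h, pow_succ', ← mul_assoc, hv, dl_apply,
        mul_inv_cancel_left]
  have h2 := h1 (orderOf g)
  rw [pow_orderOf_eq_one, map_one, MulAut.one_apply, left_eq_mul] at h2
  obtain ⟨k, hk⟩ := S.pV v
  have := pow_gcd_eq_one.2 ⟨h2, hk⟩
  rwa [Nat.Coprime.pow_right k (Nat.coprime_two_right.2 (S.odd_order hg)), pow_one] at this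

theorem decomp {g : G} (hg : g ∈ F) (v : V) : ∃ w ∈ rg φ g, ∃ u, φ g u = u ∧ v = w * u := by
  have hi : Function.Injective fun w : rg φ g => (⟨dl φ g w, w, rfl⟩ : rg φ g) := fun a b h => by
    have h1 : dl φ g ((a : V)⁻¹ * b) = 1 := by
      rw [map_mul, map_inv, inv_mul_eq_one]; exact congrArg Subtype.val h
    exact Subtype.ext (inv_mul_eq_one.1 (S.eq_one hg (mul_mem (inv_mem a.2) b.2)
      (inv_mul_eq_one.1 h1).symm))
  obtain ⟨w, hw⟩ := Finite.injective_iff_surjective.1 hi ⟨dl φ g v, v, rfl⟩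
  have h1 : dl φ g ((w : V)⁻¹ * v) = 1 := by
    rw [map_mul, map_inv, inv_mul_eq_one]; exact congrArg Subtype.val hw
  exact ⟨w, w.2, _, (inv_mul_eq_one.1 h1).symm, by group⟩

theorem decomp_fix {g x : G} (hg : g ∈ F) (hx : rg φ (x * g * x⁻¹) ≤ rg φ g)
    (hx' : ∀ u, φ g u = u → φ g (φ x u) = φ x u) {w u : V} (hw : w ∈ rg φ g) (hu : φ g u = u)
    (h : φ x (w * u) = w * u) : φ x w = w ∧ φ x u = u := by
  have h1 : w⁻¹ * φ x w = u * (φ x u)⁻¹ := by
    rw [map_mul] at h
    calc w⁻¹ * φ x w = w⁻¹ * (φ x w * φ x u) * (φ x u)⁻¹ := by group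
      _ = _ := by rw [h]; group
  have h2 := S.eq_one hg (mul_mem (inv_mem hw) (hx (conj_mem_rg x hw))) (by
    rw [h1, map_mul, map_inv, hu, hx' u hu])
  exact ⟨(inv_mul_eq_one.1 h2).symm, (mul_inv_eq_one.1 (h1 ▸ h2)).symm⟩

theorem eq_one_of_fix {g : G} (hg : g ∈ F) (h : ∀ w ∈ rg φ g, φ g w = w) : g = 1 :=
  S.inj (MulEquiv.ext fun v => by
    rw [map_one]; exact (inv_mul_eq_one.1 (S.eq_one hg (dl_mem g v) (h _ (dl_mem g v)))).symm)

theorem fix_four {g : G} (hg : g ∈ F) {W : Subgroup V} (hW : Nat.card W ≤ 4)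
    (hi : ∀ w ∈ W, φ g w ∈ W) {z : V} (hz : z ∈ W) (hz1 : z ≠ 1) (h : φ g z = z) :
    ∀ w ∈ W, φ g w = w := by
  intro w hw
  by_contra hn
  have w1 : w ≠ 1 := by rintro rfl; simp at hn
  have wz : z ≠ w := by rintro rfl; exact hn h
  have wz1 : w * z ≠ 1 := fun h' => hn (by rw [eq_inv_of_mul_eq_one_left h', map_inv, h])
  rcases mem_four hW hz hw (mul_mem hw hz) (hi w hw) hz1 w1 wz1 wz (by simpa using w1)
    (by simpa using hz1) with h1 | h1 | h1 | h1
  · exact w1 (by simpa using h1)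
  · exact wz ((φ g).injective (h.trans h1.symm))
  · exact hn h1
  · exact hz1 (S.eq_one hg ⟨w, by rw [dl_apply, h1, inv_mul_cancel_left]⟩ h)

theorem fix_of_sq {g : G} (hg : g ∈ F) {v : V} (h : φ g (φ g v) = v) : φ g v = v := by
  obtain ⟨k, hk⟩ := S.odd_order hg
  have h1 : ∀ n : ℕ, φ ((g * g) ^ n) v = v := fun n => by
    induction n with
    | zero => simp
    | succ n ih => rw [pow_succ, mul_apply', mul_apply', h, ih]
  have h2 : g = (g * g) ^ (k + 1) := by
    rw [← sq, ← pow_mul, show 2 * (k + 1) = 2 * k + 1 + 1 by ring, ← hk, pow_succ,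
      pow_orderOf_eq_one, one_mul]
  rw [h2, h1]

theorem elems {d : G} (hd : d ∈ F) (h : Nat.card (rg φ d) ≤ 4) {z w : V} (hz : z ∈ rg φ d)
    (hz1 : z ≠ 1) (hw : w ∈ rg φ d) : w = 1 ∨ w = z ∨ w = φ d z ∨ w = φ d⁻¹ z := by
  have a1 : z ≠ φ d z := fun h => hz1 (S.eq_one hd hz h.symm)
  refine mem_four h hz (apply_mem_of_le le_rfl hz) (apply_mem_of_le (rg_inv d).le hz) hw hz1
    (by simpa using hz1) (by simpa using hz1) a1 (fun h => a1 ?_) fun h => a1 ?_
  · nth_rewrite 2 [h]; rw [apply_inv']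
  · exact (S.fix_of_sq hd (by rw [h, apply_inv'])).symm

theorem exists_ne {d : G} (hd : d ≠ 1) : ∃ z ∈ rg φ d, z ≠ 1 := by
  by_contra hn
  push Not at hn
  exact hd (S.inj (MulEquiv.ext fun v => by
    rw [map_one]; exact (inv_mul_eq_one.1 (hn _ (dl_mem d v))).symm))

theorem eq_or_inv {d e : G} (hd : d ∈ F) (he : e ∈ F) (hd1 : d ≠ 1) (h : Nat.card (rg φ d) ≤ 4)
    (hde : rg φ d = rg φ e) : e = d ∨ e = d⁻¹ := by
  obtain ⟨z, hz, hz1⟩ := S.exists_ne hd1
  have key : ∀ c : G, c ∈ F → rg φ c ≤ rg φ d → φ e z = φ c z → e = c := fun c hc hcd h1 => by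
    have h2 : rg φ (c⁻¹ * e) ≤ rg φ d :=
      rg_mul_le (rg_inv_le hcd) hde.ge
    have hg := F.mul_mem (F.inv_mem hc) he
    exact (inv_mul_eq_one.1 (S.eq_one_of_fix hg fun w hw => S.fix_four hg h
      (fun w hw => apply_mem_of_le h2 hw) hz hz1 (by rw [mul_apply', h1, inv_apply']) w (h2 hw))).symm
  rcases S.elems hd h hz hz1 (apply_mem_of_le hde.ge hz) with h1 | h1 | h1 | h1
  · exact absurd (by simpa using h1) hz1
  · exact absurd (S.eq_one he (hde ▸ hz) h1) hz1
  · exact Or.inl (key d hd le_rfl h1)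
  · exact Or.inr (key d⁻¹ (F.inv_mem hd) (rg_inv d).le h1)

theorem cube {d : G} (hd : d ∈ F) (h : Nat.card (rg φ d) ≤ 4) : d * d * d = 1 := by
  by_cases hd1 : d = 1
  · simp [hd1]
  obtain ⟨z, hz, hz1⟩ := S.exists_ne hd1
  have h2 : rg φ (d * d * d) ≤ rg φ d :=
    rg_mul_le (rg_mul_le le_rfl le_rfl) le_rfl
  have hg := F.mul_mem (F.mul_mem hd hd) hd
  refine S.eq_one_of_fix hg fun w hw => S.fix_four hg h
      (fun w hw => apply_mem_of_le h2 hw) hz hz1 ?_ w (h2 hw)
  rcases S.elems hd h hz hz1 (apply_mem_of_le le_rfl (apply_mem_of_le le_rfl hz)) with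
    h1 | h1 | h1 | h1
  · exact absurd (by simpa using h1) hz1
  · exact absurd (S.eq_one hd hz (S.fix_of_sq hd h1)) hz1
  · exact absurd (S.eq_one hd hz ((φ d).injective h1)) hz1
  · rw [mul_assoc, mul_apply', mul_apply', h1, apply_inv']

theorem pr_of {t f : G} (ht : Tv φ t) (hf : f ∈ F) (h : f⁻¹ * t * f * t ≠ 1) :
    Pr φ F t (f⁻¹ * t * f * t) := by
  have h2 := ht.sq S.inj
  have hi : t⁻¹ = t := inv_eq_of_mul_eq_one_right h2
  refine ⟨ht, ?_, h, ?_, ?_⟩
  · have := F.mul_mem (F.inv_mem hf) (S.normal.conj_mem f hf t)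
    rwa [hi, ← mul_assoc, ← mul_assoc] at this
  · simp only [mul_inv_rev, hi, inv_inv, mul_assoc, h2, mul_one]
  · have h3 := ht.conj f⁻¹
    rw [inv_inv] at h3
    refine (card_le_of_le (rg_mul_le le_sup_left le_sup_right)).trans
      ((card_sup_le _ _).trans ?_)
    exact Nat.mul_le_mul h3.2 ht.2

theorem exists_pr {t : G} (ht : Tv φ t) : ∃ d, Pr φ F t d := by
  have h2 := ht.sq S.inj
  by_contra hn
  have h1 : t ∈ F := S.cent fun f hf => by
    by_contra h
    refine hn ⟨_, S.pr_of ht hf fun h' => h ?_⟩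
    calc f * t = f * (f⁻¹ * t * f * t) * t := by rw [h', mul_one]
      _ = t * f * (t * t) := by group
      _ = t * f := by rw [h2, mul_one]
  have h3 := S.odd_order h1
  rw [orderOf_eq_prime (by rw [sq, h2]) ht.1] at h3
  exact absurd h3 (by decide)

variable {t d u e : G}

theorem fix_le (h : Pr φ F t d) {v : V} (hv : φ d v = v) : φ d (φ t v) = φ t v := by
  have h2 := h.tv.sq S.inj
  have e1 : d * t = t * d⁻¹ := by rw [← h.inv, ← mul_assoc, ← mul_assoc, h2, one_mul]
  rw [← mul_apply', e1, mul_apply']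
  nth_rewrite 1 [← hv]
  rw [inv_apply']

theorem rg_le (h : Pr φ F t d) : rg φ t ≤ rg φ d := by
  have h2 := h.tv.sq S.inj
  have hi : t⁻¹ = t := inv_eq_of_mul_eq_one_right h2
  have hinv : ∀ w ∈ rg φ d, φ t w ∈ rg φ d := fun w hw => by
    have := conj_mem_rg t hw
    rwa [hi, h.inv, rg_inv] at this
  obtain ⟨w, hw, hw1⟩ : ∃ w ∈ rg φ d, φ t w ≠ w := by
    by_contra hn
    push Not at hn
    refine h.ne (S.eq_one_of_fix h.mem fun w hw => S.fix_of_sq h.mem ?_)
    have h3 : φ d⁻¹ w = φ d w := by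
      rw [← h.inv, mul_apply', mul_apply', hn w hw, hn _ (apply_mem_of_le le_rfl hw)]
    rw [← h3, apply_inv']
  intro z hz
  rcases mem_two h.tv.2 (dl_mem t w) hz (fun h => hw1 (inv_mul_eq_one.1 h).symm) with rfl | rfl
  · exact one_mem _
  · exact mul_mem (inv_mem hw) (hinv w hw)

theorem fix_t (h : Pr φ F t d) {v : V} (hv : φ d v = v) : φ t v = v :=
  (inv_mul_eq_one.1 (S.eq_one h.mem (S.rg_le h (dl_mem t v))
    (by rw [map_mul, map_inv, hv, S.fix_le h hv]))).symm

theorem unique (h : Pr φ F t d) (h' : Pr φ F t e) : e = d ∨ e = d⁻¹ := by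
  refine S.eq_or_inv h.mem h'.mem h.ne h.card ?_
  by_contra hne
  obtain ⟨z, hz, hz1⟩ := h.tv.exists_ne S.inj
  have hzd := S.rg_le h hz
  have hze := S.rg_le h' hz
  set P := closure ({d, e} : Set G) with hP
  have hPF : P ≤ F := (closure_le _).2 (by rintro _ (rfl | rfl); exacts [h.mem, h'.mem])
  have hd : d ∈ P := subset_closure (by simp)
  have he : e ∈ P := subset_closure (by simp)
  have hn : Group.IsNilpotent P := CfsgLib.isNilpotent_of_le S.nil hPF
  have hnt : Nontrivial P := ⟨⟨⟨d, hd⟩, 1, fun h1 => h.ne (congrArg Subtype.val h1)⟩⟩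
  obtain ⟨c, hc, hc1⟩ := (center P).bot_or_exists_ne_one.resolve_left
    (Group.IsNilpotent.center_ne_bot P)
  have cd : (c : G) * d * (c : G)⁻¹ = d := by
    have := congrArg Subtype.val (mem_center_iff.1 hc ⟨d, hd⟩)
    simp only [coe_mul] at this
    rw [← this, mul_inv_cancel_right]
  have ce : (c : G) * e * (c : G)⁻¹ = e := by
    have := congrArg Subtype.val (mem_center_iff.1 hc ⟨e, he⟩)
    simp only [coe_mul] at this
    rw [← this, mul_inv_cancel_right]
  have id : ∀ w ∈ rg φ d, φ c w ∈ rg φ d := fun w hw => cd ▸ conj_mem_rg (c : G) hw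
  have ie : ∀ w ∈ rg φ e, φ c w ∈ rg φ e := fun w hw => ce ▸ conj_mem_rg (c : G) hw
  have hcz : φ c z = z := by
    by_contra hn
    have a1 : φ c z ≠ 1 := by simpa using hz1
    have a2 : φ c z * z ≠ 1 := fun h1 => hn (by
      rw [eq_inv_of_mul_eq_one_left h1, inv_eq_of_mul_eq_one_right (h.tv.sq_rg hz)])
    have key : ∀ A B : Subgroup V, Nat.card A ≤ 4 → z ∈ A → φ c z ∈ A → z ∈ B → φ c z ∈ B → A ≤ B :=
      fun A B hA h1 h2 h3 h4 x hx => by
        rcases mem_four hA h1 h2 (mul_mem h2 h1) hx hz1 a1 a2 (Ne.symm hn) (by simpa using a1)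
          (by simpa using hz1) with rfl | rfl | rfl | rfl
        exacts [one_mem _, h3, h4, mul_mem h4 h3]
    exact hne (le_antisymm (key _ _ h.card hzd (id z hzd) hze (ie z hze))
      (key _ _ h'.card hze (ie z hze) hzd (id z hzd)))
  have hcF := hPF c.2
  have h1 : rg φ c ≤ rg φ d ⊔ rg φ e := (show P ≤ rgLe (rg φ d ⊔ rg φ e) from
    (closure_le _).2 (by
      rintro _ (rfl | rfl)
      exacts [show rg φ _ ≤ _ from le_sup_left, show rg φ _ ≤ _ from le_sup_right])) c.2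
  refine hc1 (Subtype.ext (S.eq_one_of_fix hcF fun w hw => ?_))
  obtain ⟨a, ha, b, hb, rfl⟩ := mem_sup.1 (h1 hw)
  rw [map_mul, S.fix_four hcF h.card id hzd hz1 hcz a ha, S.fix_four hcF h'.card ie hze hz1 hcz b hb]

theorem central (h : Pr φ F t d) {g : G} (hg : g ∈ F) : g * d = d * g := by
  have h2 := h.tv.sq S.inj
  have h1 : Pr φ F (g⁻¹ * t * g⁻¹⁻¹) d := by
    refine ⟨h.tv.conj _, h.mem, h.ne, ?_, h.card⟩
    have e1 : g⁻¹ * t * g⁻¹⁻¹ = (g⁻¹ * t * g * t) * t := by
      rw [inv_inv, mul_assoc _ t t, h2, mul_one]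
    have e2 : g⁻¹ * t * g⁻¹⁻¹ = t * (g⁻¹ * t * g * t)⁻¹ := by
      rw [inv_inv]
      calc g⁻¹ * t * g = g⁻¹ * (t * t) * t⁻¹ * g := by group
        _ = _ := by rw [h2]; group
    have : (g⁻¹ * t * g * t) * d⁻¹ = d⁻¹ * (g⁻¹ * t * g * t) := by
      by_cases h3 : g⁻¹ * t * g * t = 1
      · rw [h3, mul_one, one_mul]
      · rcases S.unique h (S.pr_of h.tv hg h3) with h4 | h4 <;> simp [h4]
    nth_rewrite 2 [e2]
    rw [e1]
    calc _ = (g⁻¹ * t * g * t) * (t * d * t) * (g⁻¹ * t * g * t)⁻¹ := by group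
      _ = d⁻¹ := by rw [h.inv, this]; group
  rcases S.unique h1 (h.conj S.normal g⁻¹) with h3 | h3
  · calc g * d = g * (g⁻¹ * d * g⁻¹⁻¹) := by rw [h3]
      _ = d * g := by group
  · exfalso
    have h4 : Commute d (g * g) := by
      have : g⁻¹ * d⁻¹ * g = d := by
        calc g⁻¹ * d⁻¹ * g = (g⁻¹ * d * g⁻¹⁻¹)⁻¹ := by group
          _ = d := by rw [h3, inv_inv]
      calc d * (g * g) = g * g * (g⁻¹ * (g⁻¹ * d * g⁻¹⁻¹) * g) := by group
        _ = g * g * d := by rw [h3, this]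
    obtain ⟨k, hk⟩ := S.odd_order hg
    have h5 : g = (g * g) ^ (k + 1) := by
      rw [← sq, ← pow_mul, show 2 * (k + 1) = 2 * k + 1 + 1 by ring, ← hk, pow_succ,
        pow_orderOf_eq_one, one_mul]
    have h6 : Commute d g := h5 ▸ h4.pow_right (k + 1)
    rw [inv_inv, mul_assoc, h6.eq, inv_mul_cancel_left] at h3
    have h7 := S.cube h.mem h.card
    nth_rewrite 2 [h3] at h7
    exact h.ne (by simpa using h7)

theorem fix_or (h : Pr φ F t d) {x : G} (hx : ∀ w ∈ rg φ d, φ x w ∈ rg φ d)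
    (hz : ∀ z ∈ rg φ t, φ x z = z) :
    (∀ w ∈ rg φ d, φ x w = w) ∨ ∀ w ∈ rg φ d, φ (x * t) w = w := by
  obtain ⟨z, hzt, hz1⟩ := h.tv.exists_ne S.inj
  have hzd := S.rg_le h hzt
  set w := φ d z with hw
  have hwd : w ∈ rg φ d := apply_mem_of_le le_rfl hzd
  have w1 : w ≠ 1 := by simpa [hw] using hz1
  have zw : z ≠ w := fun h1 => hz1 (S.eq_one h.mem hzd h1.symm)
  have zz := h.tv.sq_rg hzt
  have wz : w * z ≠ 1 := fun h1 => zw (by
    rw [eq_inv_of_mul_eq_one_left h1, inv_eq_of_mul_eq_one_right zz])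
  have el : ∀ y ∈ rg φ d, y = 1 ∨ y = z ∨ y = w ∨ y = w * z := fun y hy =>
    mem_four h.card hzd hwd (mul_mem hwd hzd) hy hz1 w1 wz zw (by simpa using w1)
      (by simpa using hz1)
  have all : ∀ g : G, φ g z = z → φ g w = w → ∀ y ∈ rg φ d, φ g y = y := fun g h1 h2 y hy => by
    rcases el y hy with rfl | rfl | rfl | rfl
    exacts [map_one _, h1, h2, by rw [map_mul, h1, h2]]
  have two : ∀ g : G, φ g z = z → φ g w ∈ rg φ d → φ g w = w ∨ φ g w = w * z := fun g h1 h2 => by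
    rcases el _ h2 with h3 | h3 | h3 | h3
    · exact absurd (by simpa using h3) w1
    · exact absurd ((φ g).injective (h1.trans h3.symm)) zw
    · exact Or.inl h3
    · exact Or.inr h3
  have htz := h.tv.fix hzt
  have htw : φ t w = w * z := (two t htz (apply_mem_of_le (S.rg_le h) hwd)).resolve_left fun h1 =>
    h.tv.1 (S.inj (MulEquiv.ext fun v => by
      obtain ⟨a, ha, b, hb, rfl⟩ := S.decomp h.mem v
      rw [map_mul, all t htz h1 a ha, S.fix_t h hb, map_one, MulAut.one_apply]))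
  rcases two x (hz z hzt) (hx w hwd) with h1 | h1
  · exact Or.inl (all x (hz z hzt) h1)
  · exact Or.inr (all _ (by rw [mul_apply', htz, hz z hzt])
      (by rw [mul_apply', htw, map_mul, h1, hz z hzt, mul_assoc, zz, mul_one]))

theorem dichotomy (h : Pr φ F t d) (h' : Pr φ F u e) :
    (u ∈ closure ({t, d} : Set G) ∧ e ∈ closure ({t, d} : Set G)) ∨
      ((∀ w ∈ rg φ d, φ e w = w) ∧ ∀ w ∈ rg φ e, φ d w = w) := by
  have ht : t ∈ closure ({t, d} : Set G) := subset_closure (by simp)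
  have hd : d ∈ closure ({t, d} : Set G) := subset_closure (by simp)
  by_cases hr : rg φ d = rg φ e
  · have h1 := S.eq_or_inv h.mem h'.mem h.ne h.card hr
    refine Or.inl ⟨?_, by rcases h1 with rfl | rfl; exacts [hd, inv_mem hd]⟩
    have hfix : ∀ v, φ d v = v → φ u v = v := fun v hv => S.fix_t h' (by
      rcases h1 with rfl | rfl
      · exact hv
      · nth_rewrite 1 [← hv]; rw [inv_apply'])
    have key : ∀ t', Pr φ F t' d → (∃ z ∈ rg φ t', z ∈ rg φ u ∧ z ≠ 1) → u = t' := by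
      rintro t' p ⟨z, hz, hzu, hz1⟩
      rcases S.fix_or p (x := u) (fun w hw => apply_mem_of_le ((S.rg_le h').trans hr.ge) hw)
        (fun y hy => by
          rcases mem_two p.tv.2 hz hy hz1 with rfl | rfl
          exacts [map_one _, h'.tv.fix hzu]) with h2 | h2
      · exact absurd (S.inj (MulEquiv.ext fun v => by
          obtain ⟨a, ha, b, hb, rfl⟩ := S.decomp h.mem v
          rw [map_mul, h2 a ha, hfix b hb, map_one, MulAut.one_apply])) h'.tv.1
      · have : u * t' = 1 := S.inj (MulEquiv.ext fun v => by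
          obtain ⟨a, ha, b, hb, rfl⟩ := S.decomp h.mem v
          rw [map_mul (φ (u * t')), h2 a ha, mul_apply', S.fix_t p hb, hfix b hb, map_one,
            MulAut.one_apply])
        rw [eq_inv_of_mul_eq_one_left this, inv_eq_of_mul_eq_one_right (p.tv.sq S.inj)]
    obtain ⟨z, hz, hz1⟩ := h.tv.exists_ne S.inj
    obtain ⟨y, hy, hy1⟩ := h'.tv.exists_ne S.inj
    rcases S.elems h.mem h.card (S.rg_le h hz) hz1 (hr ▸ S.rg_le h' hy) with h2 | h2 | h2 | h2
    · exact absurd h2 hy1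
    · rw [key t h ⟨y, h2 ▸ hz, hy, hy1⟩]; exact ht
    · rw [key (d * t * d⁻¹) (by simpa using h.conj S.normal d) ⟨y, h2 ▸ conj_mem_rg d hz, hy, hy1⟩]
      exact mul_mem (mul_mem hd ht) (inv_mem hd)
    · rw [key (d⁻¹ * t * d⁻¹⁻¹) (by simpa using h.conj S.normal d⁻¹)
        ⟨y, h2 ▸ conj_mem_rg d⁻¹ hz, hy, hy1⟩]
      exact mul_mem (mul_mem (inv_mem hd) ht) (inv_mem (inv_mem hd))
  · have key : ∀ {t d u e : G}, Pr φ F t d → Pr φ F u e → ¬ rg φ d ≤ rg φ e →
        ∀ w ∈ rg φ d, φ e w = w := by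
      intro t d u e h h' hr
      have c : e * d * e⁻¹ = d := by rw [S.central h h'.mem, mul_inv_cancel_right]
      have hi : ∀ w ∈ rg φ d, φ e w ∈ rg φ d := fun w hw => c ▸ conj_mem_rg e hw
      by_cases hz : ∃ z ∈ rg φ d, z ≠ 1 ∧ φ e z = z
      · obtain ⟨z, hz, hz1, hz2⟩ := hz
        exact S.fix_four h'.mem h.card hi hz hz1 hz2
      refine absurd (fun v hv => ?_) hr
      have hinj : Function.Injective fun w : rg φ d =>
          (⟨dl φ e w, mul_mem (inv_mem w.2) (hi w w.2)⟩ : rg φ d) := fun a b hab => by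
        have h1 : dl φ e ((a : V)⁻¹ * b) = 1 := by
          rw [map_mul, map_inv, inv_mul_eq_one]; exact congrArg Subtype.val hab
        by_contra hne
        exact hz ⟨_, mul_mem (inv_mem a.2) b.2, fun h2 => hne (Subtype.ext (inv_mul_eq_one.1 h2)),
          (inv_mul_eq_one.1 h1).symm⟩
      obtain ⟨w, hw⟩ := Finite.injective_iff_surjective.1 hinj ⟨v, hv⟩
      exact ⟨w, congrArg Subtype.val hw⟩
    have key2 : ∀ {t d u e : G}, Pr φ F t d → Pr φ F u e → rg φ d ≤ rg φ e → rg φ e ≤ rg φ d := by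
      intro t d u e h h' hr w hw
      obtain ⟨z, hz, hz1⟩ := S.exists_ne h.ne
      have a1 : z ≠ φ d z := fun h1 => hz1 (S.eq_one h.mem hz h1.symm)
      have b1 := apply_mem_of_le le_rfl hz
      have b2 := apply_mem_of_le (rg_inv d).le hz
      rcases mem_four h'.card (hr hz) (hr b1) (hr b2) hw hz1 (by simpa using hz1)
        (by simpa using hz1) a1 (fun h => a1 (by nth_rewrite 2 [h]; rw [apply_inv']))
        (fun h1 => a1 (S.fix_of_sq h.mem (by rw [h1, apply_inv'])).symm) with rfl | rfl | rfl | rfl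
      exacts [one_mem _, hz, b1, b2]
    exact Or.inr ⟨key h h' fun h1 => hr (le_antisymm h1 (key2 h h' h1)),
      key h' h fun h1 => hr (le_antisymm (key2 h' h h1) h1)⟩

theorem pxq {B : Subgroup G} (hB : IsPGroup 2 B) {c : G} (hc : c ∈ F) (hBc : ∀ b ∈ B, b * c = c * b)
    (h : ∀ v ∈ fixS φ B, v * v = 1 → φ c v = v) : c = 1 := by
  by_contra hc1
  obtain ⟨z, hz, hz1⟩ := S.exists_ne hc1
  let R : Subgroup V := rg φ c ⊓ (powMonoidHom 2 : V →* V).ker
  obtain ⟨r, hr, hr1, hrB⟩ := exists_fixed (φ := φ) S.pV hB (R := R) (fun h0 => by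
    obtain ⟨k, hk⟩ := IsPGroup.iff_orderOf.1 S.pV z
    obtain ⟨y, hy, hy2⟩ := H5.exists_involution_mem_zpowers (x := z) (by
      rw [hk]; exact dvd_pow_self 2 (by rintro rfl; exact hz1 (orderOf_eq_one_iff.1 hk)))
    have : y ∈ R := ⟨zpowers_le.2 hz hy, show y ^ 2 = 1 by rw [← hy2, pow_orderOf_eq_one]⟩
    rw [h0, mem_bot] at this
    rw [this, orderOf_one] at hy2
    exact absurd hy2 (by decide)) (fun b hb r hr => ⟨by
      have := conj_mem_rg b hr.1
      rwa [hBc b hb, mul_inv_cancel_right] at this, by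
      have h2 : r ^ 2 = 1 := hr.2
      change φ b r ^ 2 = 1
      rw [← map_pow, h2, map_one]⟩)
  exact hr1 (S.eq_one hc hr.1 (h r hrB (by rw [← sq]; exact hr.2)))

/-- A maximal subgroup of `A` with more fixed points. -/
theorem exists_index_two {A : Subgroup G} (hA : IsMulCommutative A) (h2 : IsPGroup 2 A)
    (h1 : A ≠ ⊥) : ∃ B ≤ A, B.relIndex A = 2 ∧ ∃ v ∈ fixS φ B, v ∉ fixS φ A := by
  have hn := S.normal
  have comm : ∀ x ∈ A, ∀ y ∈ A, x * y = y * x := fun x hx y hy =>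
    congrArg Subtype.val (hA.is_comm.comm (⟨x, hx⟩ : A) ⟨y, hy⟩)
  obtain ⟨k, hk⟩ := IsPGroup.iff_card.1 h2
  have hcop : (Nat.card A).Coprime (Nat.card F) := by
    rw [hk]; exact Nat.Coprime.pow_left k (Nat.coprime_two_left.2 S.odd)
  have h3 : ¬ F ≤ centralizer (A : Set G) := fun h => h1 (by
    have := disjoint_iff.1 (disjoint_of_coprime_natCard hcop)
    rwa [inf_eq_left.2 ((le_centralizer_iff.1 h).trans S.cent)] at this)
  obtain ⟨B, hBA, ⟨a, ha, hBa⟩, hB⟩ : ∃ B ≤ A, (∃ a ∈ A, B ⊔ zpowers a = A) ∧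
      ¬ F ⊓ centralizer (B : Set G) ≤ centralizer (A : Set G) := by
    by_contra hn'
    push Not at hn'
    exact h3 (Cop.le_of_cocyclic_centralizer_le hA (by rw [normalizer_eq_top]; exact le_top) hcop hn')
  obtain ⟨f, ⟨hf, hfB⟩, hfA⟩ := SetLike.not_le_iff_exists.1 hB
  have hfa : f⁻¹ * a * f * a⁻¹ ≠ 1 := fun h => hfA (by
    have : A ≤ centralizer {f} := by
      rw [← hBa]
      refine sup_le (fun b hb => mem_centralizer_singleton_iff.2 (hfB b hb))
        (zpowers_le.2 (mem_centralizer_singleton_iff.2 ?_))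
      calc a * f = f * (f⁻¹ * a * f * a⁻¹) * a := by group
        _ = f * a := by rw [h, mul_one]
    exact fun x hx => mem_centralizer_singleton_iff.1 (this hx))
  have hB2 : IsPGroup 2 B := h2.to_le hBA
  let Ω : Subgroup V := fixS φ B ⊓ (powMonoidHom 2 : V →* V).ker
  have hΩ : ∀ g : G, (∀ b ∈ B, b * g = g * b) → ∀ v ∈ Ω, φ g v ∈ Ω := fun g hg v hv =>
    ⟨fun b hb => by rw [← mul_apply', hg b hb, mul_apply', hv.1 b hb], by
      have h2 : v ^ 2 = 1 := hv.2
      change φ g v ^ 2 = 1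
      rw [← map_pow, h2, map_one]⟩
  have haB : ∀ b ∈ B, b * a = a * b := fun b hb => comm b (hBA hb) a ha
  have h4 : Ω.map (dl φ a) ≠ ⊥ := fun h => hfa (S.pxq hB2 (by
      have := F.mul_mem (F.inv_mem hf) (hn.conj_mem f hf a)
      rwa [← mul_assoc, ← mul_assoc] at this) (fun b hb => by
      have c1 : Commute b f := hfB b hb
      have c2 : Commute b a := haB b hb
      exact (((c1.inv_right.mul_right c2).mul_right c1).mul_right c2.inv_right).eq) fun v hv hvv => by
    have key : ∀ w ∈ Ω, φ a w = w := fun w hw => by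
      have : dl φ a w ∈ Ω.map (dl φ a) := mem_map_of_mem _ hw
      rw [h, mem_bot] at this
      exact (inv_mul_eq_one.1 this).symm
    have hv' : v ∈ Ω := ⟨hv, show v ^ 2 = 1 by rw [sq, hvv]⟩
    have h5 : φ a⁻¹ v = v := by nth_rewrite 1 [← key v hv']; rw [inv_apply']
    rw [mul_apply', mul_apply', mul_apply', h5, key _ (hΩ f hfB v hv'), inv_apply'])
  obtain ⟨_, ⟨v, hv, rfl⟩, hr1, hr⟩ := exists_fixed (φ := φ) S.pV (B := zpowers a)
    (h2.to_le (zpowers_le.2 ha)) h4 (by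
      rintro b hb _ ⟨w, hw, rfl⟩
      have hb' := zpowers_le.2 ha hb
      refine ⟨φ b w, hΩ b (fun c hc => comm c (hBA hc) b hb') w hw, ?_⟩
      rw [dl_apply, dl_apply, map_mul, map_inv, ← mul_apply', ← mul_apply', comm a ha b hb'])
  have hva : φ a v ≠ v := fun h => hr1 (by rw [dl_apply, h, inv_mul_cancel])
  have hv2 : φ (a * a) v = v := by
    have h5 := hr a (mem_zpowers a)
    have h6 : (v⁻¹ * φ a v) ^ 2 = 1 := (mul_mem (inv_mem hv) (hΩ a haB v hv)).2
    rw [dl_apply, map_mul, map_inv, inv_mul_eq_iff_eq_mul] at h5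
    rw [mul_apply', h5]
    calc φ a v * (v⁻¹ * φ a v) = v * (v⁻¹ * φ a v) ^ 2 := by rw [sq]; group
      _ = v := by rw [h6, mul_one]
  let B' : Subgroup G := B ⊔ zpowers (a * a)
  have hB'A : B' ≤ A := sup_le hBA (zpowers_le.2 (mul_mem ha ha))
  have hvB' : v ∈ fixS φ B' := by
    have : B' ≤ (MulAction.stabilizer (MulAut V) v).comap φ :=
      sup_le (fun b hb => hv.1 b hb) (zpowers_le.2 hv2)
    exact fun b hb => this hb
  refine ⟨B', hB'A, ?_, v, hvB', fun h => hva (h a ha)⟩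
  refine index_eq_two_iff.2 ⟨⟨a, ha⟩, fun x => ?_⟩
  have hx : (x : G) ∈ B' ∨ (x : G) * a ∈ B' := by
    have hxa : (x : G) ∈ B ⊔ zpowers a := hBa ▸ x.2
    obtain ⟨b, hb, _, ⟨j, rfl⟩, h⟩ := (CfsgLib.mem_sup_iff_of_le_normalizer'
      (zpowers_le.2 (centralizer_le_normalizer _ haB))).1 hxa
    have hb' : b ∈ B' := mem_sup_left hb
    rcases Int.even_or_odd j with ⟨i, rfl⟩ | ⟨i, rfl⟩
    · refine Or.inl (h ▸ mul_mem hb' (mem_sup_right ⟨i, ?_⟩))
      simp only [← sq, ← zpow_natCast, ← zpow_mul]; congr 1; push_cast; ring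
    · refine Or.inr (h ▸ ?_)
      rw [mul_assoc]
      refine mul_mem hb' (mem_sup_right ⟨i + 1, ?_⟩)
      simp only [← sq, ← zpow_natCast, ← zpow_mul, ← zpow_add_one]; congr 1; push_cast; ring
  have hna : a ∉ B' := fun h => hva (hvB' a h)
  rcases hx with hx | hx
  · exact Or.inr ⟨hx, fun h => hna ((B'.mul_mem_cancel_left hx).1 h)⟩
  · exact Or.inl ⟨hx, fun h => hna ((B'.mul_mem_cancel_left h).1 hx)⟩

theorem decomp_all {t : G} (s : Set G) (hs : ∀ e ∈ s, ∃ u, Pr φ F u e)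
    (ht : ∀ e ∈ s, ∀ w ∈ rg φ e, φ t w = w) (v : V) :
    ∃ m c, φ t m = m ∧ (∀ e ∈ s, φ e c = c) ∧ v = m * c := by
  induction s, Set.toFinite s using Set.Finite.induction_on with
  | empty => exact ⟨1, v, map_one _, by simp, by simp⟩
  | @insert e s _ _ ih =>
    obtain ⟨m, c, h1, h2, rfl⟩ := ih (fun e he => hs e (Or.inr he)) fun e he => ht e (Or.inr he)
    obtain ⟨u, hu⟩ := hs e (Or.inl rfl)
    obtain ⟨w, hw, c', hc', rfl⟩ := S.decomp hu.mem c
    refine ⟨m * w, c', by rw [map_mul, h1, ht e (Or.inl rfl) w hw], ?_, by rw [mul_assoc]⟩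
    rintro x (rfl | hx)
    · exact hc'
    · obtain ⟨y, hy⟩ := hs x (Or.inr hx)
      have c1 := S.central hu hy.mem
      exact (S.decomp_fix hu.mem (by rw [c1, mul_inv_cancel_right]) (fun u hu => by
        rw [← mul_apply', ← c1, mul_apply', hu]) hw hc' (h2 x hx)).2

theorem le_closure_tv (A : Subgroup G) : IsMulCommutative A → IsPGroup 2 A →
    (∀ B ≤ A, Nat.card B * Nat.card (fixS φ B) ≤ Nat.card A * Nat.card (fixS φ A)) →
    A ≤ closure {t | t ∈ A ∧ Tv φ t} := by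
  induction A using WellFoundedLT.induction with
  | ind A ih =>
  intro hA h2 hbest
  by_cases h1 : A = ⊥
  · rw [h1]; exact bot_le
  have comm : ∀ x ∈ A, ∀ y ∈ A, x * y = y * x := fun x hx y hy =>
    congrArg Subtype.val (hA.is_comm.comm (⟨x, hx⟩ : A) ⟨y, hy⟩)
  obtain ⟨B, hBA, hi, v, hvB, hvA⟩ := S.exists_index_two hA h2 h1
  have hne : B ≠ A := by rintro rfl; exact hvA hvB
  have hcard : Nat.card A = 2 * Nat.card B := by
    rw [← hi, ← card_subgroupOf_of_le hBA, relIndex, index_mul_card]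
  have hfix : fixS φ A ≤ fixS φ B := fun v hv b hb => hv b (hBA hb)
  have hf2 : 2 * Nat.card (fixS φ A) ≤ Nat.card (fixS φ B) := by
    obtain ⟨k, hk⟩ := card_dvd_of_le hfix
    have : k ≠ 1 := by
      rintro rfl
      exact hvA (eq_of_le_of_card_ge hfix (by omega) ▸ hvB)
    have h0 : k ≠ 0 := by rintro rfl; exact Nat.card_pos.ne' hk
    rw [hk, mul_comm]
    exact Nat.mul_le_mul_left _ (by omega)
  have hf3 : Nat.card (fixS φ B) ≤ 2 * Nat.card (fixS φ A) := by
    have := hbest B hBA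
    rw [hcard, mul_comm 2, mul_assoc] at this
    exact Nat.le_of_mul_le_mul_left this Nat.card_pos
  have hB := ih B (lt_of_le_of_ne hBA hne) ⟨⟨fun a b => Subtype.ext (comm _ (hBA a.2) _ (hBA b.2))⟩⟩
    (h2.to_le hBA) fun C hC => (hbest C (hC.trans hBA)).trans (by
      rw [hcard, mul_comm 2, mul_assoc]; exact Nat.mul_le_mul_left _ hf2)
  obtain ⟨t, ⟨htA, htB⟩, hmax⟩ := Set.exists_max_image {t | t ∈ A ∧ t ∉ B}
    (fun t => Nat.card (dl φ t).ker) (Set.toFinite _)
    (SetLike.exists_of_lt (lt_of_le_of_ne hBA hne))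
  have hker : ∀ {g : G} {v : V}, v ∈ (dl φ g).ker ↔ φ g v = v := fun {g v} => by
    rw [MonoidHom.mem_ker, dl_apply, inv_mul_eq_one, eq_comm]
  have htw : ∀ u ∈ B, ∀ e, Pr φ F u e → ∀ w ∈ rg φ e, φ t w = w := by
    intro u hu e he
    have c : t * u * t⁻¹ = u := by rw [comm t htA u (hBA hu), mul_inv_cancel_right]
    have h3 := S.unique he (c ▸ he.conj S.normal t)
    have h4 : rg φ (t * e * t⁻¹) = rg φ e := by rcases h3 with h | h <;> simp [h, rg_inv]
    have h5 : ∀ c, φ e c = c → φ e (φ t c) = φ t c := fun c hc => by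
      have : φ (t * e * t⁻¹) (φ t c) = φ t c := by rw [mul_apply', inv_apply', mul_apply', hc]
      rcases h3 with h | h
      · rwa [h] at this
      · rw [h] at this
        nth_rewrite 1 [← this]; rw [apply_inv']
    refine (S.fix_or he (fun w hw => h4 ▸ conj_mem_rg t hw) fun z hz => ?_).elim id fun h => ?_
    · by_cases hz1 : z = 1
      · rw [hz1, map_one]
      · exact (mem_two he.tv.2 hz (c ▸ conj_mem_rg t hz) hz1).resolve_left (by simpa using hz1)
    · have h6 : (dl φ t).ker ≤ (dl φ (t * u)).ker := fun v hv => by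
        obtain ⟨w, hw, c, hc, rfl⟩ := S.decomp he.mem v
        have := (S.decomp_fix he.mem h4.le h5 hw hc (hker.1 hv)).2
        rw [hker, map_mul (φ (t * u)), h w hw, mul_apply', S.fix_t he hc, this]
      have h7 := eq_of_le_of_card_ge h6 (hmax (t * u)
        ⟨mul_mem htA (hBA hu), fun h => htB ((B.mul_mem_cancel_right hu).1 h)⟩)
      exact fun w hw => hker.1 (h7 ▸ hker.2 (h w hw))
  have htv : Tv φ t := by
    refine ⟨fun h => htB (h ▸ B.one_mem), ?_⟩
    have h3 : rg φ t ≤ (fixS φ B).map (dl φ t) := by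
      rintro _ ⟨v, rfl⟩
      obtain ⟨m, c, h1, h4, rfl⟩ := S.decomp_all (t := t) {e | ∃ u ∈ B, Pr φ F u e}
        (fun e ⟨u, _, h⟩ => ⟨u, h⟩) (fun e ⟨u, hu, h⟩ => htw u hu e h) v
      refine ⟨c, fun b hb => ?_, by rw [map_mul, MonoidHom.mem_ker.1 (hker.2 h1), one_mul]⟩
      have : closure {t | t ∈ B ∧ Tv φ t} ≤ (MulAction.stabilizer (MulAut V) c).comap φ :=
        (closure_le _).2 fun u hu => by
          obtain ⟨e, he⟩ := S.exists_pr hu.2
          exact S.fix_t he (h4 e ⟨u, hu.1, he⟩)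
      exact this (hB hb)
    refine (card_le_of_le h3).trans ?_
    rw [← relIndex_ker]
    refine (relIndex_le_of_le_left (H := fixS φ A) (fun v hv => hker.2 (hv t htA))
      FiniteIndex.index_ne_zero).trans ?_
    have h4 := (fixS φ A).subgroupOf (fixS φ B) |>.index_mul_card
    rw [card_subgroupOf_of_le hfix] at h4
    exact Nat.le_of_mul_le_mul_right (h4.le.trans hf3) Nat.card_pos
  have hBA' : B ≤ closure {t | t ∈ A ∧ Tv φ t} :=
    hB.trans (closure_mono fun u hu => ⟨hBA hu.1, hu.2⟩)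
  have ht' : t ∈ closure {t | t ∈ A ∧ Tv φ t} := subset_closure ⟨htA, htv⟩
  intro x hx
  by_cases hxB : x ∈ B
  · exact hBA' hxB
  · have := (mul_mem_iff_of_index_two (H := B.subgroupOf A) hi (a := ⟨x, hx⟩) (b := ⟨t, htA⟩)).2
      (iff_of_false hxB htB)
    exact (Subgroup.mul_mem_cancel_right _ ht').1 (hBA' this)

theorem nonempty_perm (h : Pr φ F t d) :
    Nonempty (closure ({t, d} : Set G) ≃* Equiv.Perm (Fin 3)) := by
  have h2 := h.tv.sq S.inj
  have hi : t⁻¹ = t := inv_eq_of_mul_eq_one_right h2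
  have h3 := S.cube h.mem h.card
  have ht : t ∈ closure ({t, d} : Set G) := subset_closure (by simp)
  have hd : d ∈ closure ({t, d} : Set G) := subset_closure (by simp)
  have ot : orderOf t = 2 := orderOf_eq_prime (by rw [sq, h2]) h.tv.1
  have od : orderOf d = 3 := orderOf_eq_prime (by rw [pow_three', h3]) h.ne
  have hc : Nat.card (closure ({t, d} : Set G)) = 6 := by
    have e : closure ({t, d} : Set G) = zpowers t ⊔ zpowers d := by
      rw [zpowers_eq_closure, zpowers_eq_closure, ← Subgroup.closure_union]; rfl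
    have := CfsgLib.card_sup_mul_card_inf (H := zpowers t) (N := zpowers d) (zpowers_le.2 (by
      refine mem_normalizer_fintype ?_
      rintro _ ⟨j, rfl⟩
      exact ⟨-j, by simp only; rw [← conj_zpow, hi, h.inv, inv_zpow, zpow_neg]⟩))
    rw [disjoint_iff.1 (disjoint_of_coprime_natCard (by simp only [Nat.card_zpowers, ot, od]; decide)), card_bot, mul_one,
      Nat.card_zpowers, Nat.card_zpowers, ot, od] at this
    rw [e, this]
  refine H5.nonempty_equiv_perm_of_normalCore (H := zpowers (⟨t, ht⟩ : closure ({t, d} : Set G)))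
    ?_ (by norm_num) ?_ hc
  · by_contra hne
    have h4 : (zpowers (⟨t, ht⟩ : closure ({t, d} : Set G))).normalCore = zpowers ⟨t, ht⟩ := by
      refine eq_of_le_of_card_ge (normalCore_le _) ?_
      rw [Nat.card_zpowers, ← orderOf_coe, ot]
      exact (one_lt_card_iff_ne_bot _).2 hne
    have h5 := (normalCore_normal _).conj_mem _ (h4.ge (mem_zpowers _)) ⟨d, hd⟩
    rw [h4] at h5
    have h6 : d * t * d⁻¹ ∈ zpowers t := by
      obtain ⟨j, hj⟩ := h5
      exact ⟨j, congrArg Subtype.val hj⟩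
    have h7 : d * d ∈ zpowers t := by
      have := mul_mem h6 (mem_zpowers t)
      rwa [mul_assoc d, mul_assoc d, show t * d⁻¹ * t = d by
        rw [← h.inv, ← mul_assoc, ← mul_assoc, h2, one_mul, mul_assoc, h2, mul_one]] at this
    have h8 := orderOf_dvd_of_mem_zpowers ((zpowers t).inv_mem h7)
    rw [← eq_inv_of_mul_eq_one_right h3, od, ot] at h8
    omega
  · have := (zpowers (⟨t, ht⟩ : closure ({t, d} : Set G))).index_mul_card
    rw [hc, Nat.card_zpowers, ← orderOf_coe, ot] at this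
    omega

theorem closure_eq (h : Pr φ F t d) (h' : Pr φ F u e) :
    closure ({t, d} : Set G) = closure {u, e} ∨
      ∀ x ∈ closure ({t, d} : Set G), ∀ y ∈ closure ({u, e} : Set G), x * y = y * x := by
  rcases S.dichotomy h h' with h1 | h1
  · refine Or.inl (eq_of_le_of_card_ge ((closure_le _).2 ?_) ?_).symm
    · rintro _ (rfl | rfl); exacts [h1.1, h1.2]
    · obtain ⟨a⟩ := S.nonempty_perm h
      obtain ⟨b⟩ := S.nonempty_perm h'
      exact (Nat.card_congr (a.trans b.symm).toEquiv).le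
  · refine Or.inr fun x hx y hy => ?_
    have a1 : rg φ x ≤ rg φ d := (show closure {t, d} ≤ rgLe (rg φ d) from (closure_le _).2 (by
      rintro _ (rfl | rfl); exacts [S.rg_le h, show rg φ _ ≤ _ from le_rfl])) hx
    have a2 : rg φ y ≤ rg φ e := (show closure {u, e} ≤ rgLe (rg φ e) from (closure_le _).2 (by
      rintro _ (rfl | rfl); exacts [S.rg_le h', show rg φ _ ≤ _ from le_rfl])) hy
    refine commute_of_rg S.inj (fun w hw => ?_) fun w hw => ?_
    · exact (show closure {u, e} ≤ (MulAction.stabilizer (MulAut V) w).comap φ from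
        (closure_le _).2 (by
          rintro _ (rfl | rfl); exacts [S.fix_t h' (h1.1 w (a1 hw)), h1.1 w (a1 hw)])) hy
    · exact (show closure {t, d} ≤ (MulAction.stabilizer (MulAut V) w).comap φ from
        (closure_le _).2 (by
          rintro _ (rfl | rfl); exacts [S.fix_t h (h1.2 w (a2 hw)), h1.2 w (a2 hw)])) hx

theorem structure_thm {T : Set G} (hT : ∀ t ∈ T, Tv φ t) (hc : ∀ t ∈ T, ∀ g, g * t * g⁻¹ ∈ T)
    (hne : T.Nonempty) :
    ∃ n : ℕ, 1 ≤ n ∧ Nonempty (closure T ≃* (Fin n → Equiv.Perm (Fin 3))) := by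
  classical
  let ι := {L : Subgroup G // ∃ t ∈ T, ∃ d, Pr φ F t d ∧ L = closure {t, d}}
  have := Fintype.ofFinite ι
  have hcomm : Pairwise fun i j : ι => ∀ x y : G, x ∈ i.1 → y ∈ j.1 → Commute x y := by
    rintro ⟨_, t, ht, d, h, rfl⟩ ⟨_, u, hu, e, h', rfl⟩ hij x y hx hy
    exact ((S.closure_eq h h').resolve_left fun h => hij (Subtype.ext h)) x hx y hy
  have hp : ∀ i : ι, Nonempty (i.1 ≃* Equiv.Perm (Fin 3)) := by
    rintro ⟨_, t, ht, d, h, rfl⟩
    exact S.nonempty_perm h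
  have hind : iSupIndep fun i : ι => i.1 := by
    intro i
    obtain ⟨e⟩ := hp i
    refine disjoint_def.2 fun {x} hx hx' => ?_
    have h1 : (⨆ j, ⨆ (_ : j ≠ i), j.1) ≤ centralizer (i.1 : Set G) :=
      iSup₂_le fun j hj y hy z hz => (hcomm hj y z hy hz).symm.eq
    have h2 : e ⟨x, hx⟩ = 1 := by
      have : ∀ a : Equiv.Perm (Fin 3), (∀ b, b * a = a * b) → a = 1 := by decide
      refine this _ fun b => ?_
      obtain ⟨b, rfl⟩ := e.surjective b
      rw [← map_mul, ← map_mul]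
      exact congrArg e (Subtype.ext (h1 hx' b b.2))
    exact congrArg Subtype.val (e.map_eq_one_iff.1 h2)
  have hr : (noncommPiCoprod hcomm).range = closure T := by
    rw [noncommPiCoprod_range]
    refine le_antisymm (iSup_le ?_) ((closure_le _).2 fun t ht => ?_)
    · rintro ⟨_, t, ht, d, h, rfl⟩
      refine (closure_le _).2 ?_
      rintro _ (rfl | rfl)
      · exact subset_closure ht
      · rename_i d
        have h2 := h.tv.sq S.inj
        have := mul_mem (subset_closure (hc t ht d⁻¹)) (subset_closure (k := T) ht)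
        rwa [inv_inv, mul_assoc, mul_assoc, ← mul_assoc t, h.inv, ← mul_inv_rev,
          ← eq_inv_of_mul_eq_one_right (S.cube h.mem h.card)] at this
    · obtain ⟨d, h⟩ := S.exists_pr (hT t ht)
      exact le_iSup (fun i : ι => i.1) ⟨_, t, ht, d, h, rfl⟩ (subset_closure (by simp))
  obtain ⟨t, ht⟩ := hne
  obtain ⟨d, h⟩ := S.exists_pr (hT t ht)
  have : Nonempty ι := ⟨⟨_, t, ht, d, h, rfl⟩⟩
  exact ⟨Fintype.card ι, Fintype.card_pos, ⟨(MulEquiv.subgroupCongr hr.symm).trans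
    ((MonoidHom.ofInjective (injective_noncommPiCoprod_of_iSupIndep hind)).symm.trans
      ((MulEquiv.piCongrRight fun i => (hp i).some).trans
        (MulEquiv.arrowCongr (Fintype.equivFin ι) (MulEquiv.refl _))))⟩⟩

end Setup

end CfsgLib.H6T
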