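import Cfsg.Agent.Lib.FpfPQ
import Cfsg.Agent.Lib.FT.BG10T3
import Cfsg.Agent.Lib.FT.Wielandt
import Cfsg.Agent.Lib.FT.BG3
import Cfsg.Agent.Lib.H5Thompson
import Cfsg.Agent.Lib.CharBurnside
import Cfsg.Agent.Lib.H1Amb

/-! A Martineau type theorem: a group with a coprime noncyclic operator group of order `r ^ 2`
all of whose nontrivial elements have abelian fixed point subgroups is solvable. -/

set_option autoImplicit false

namespace CfsgLib.H8Mart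

open Subgroup Cfsg CfsgLib.FT CfsgLib.FT.BGN CfsgLib.Cop
open scoped commutatorElement

universe u

variable {X : Type u} [Group X] [Finite X] {r : ℕ} {A G : Subgroup X}

structure Base (r : ℕ) (A G : Subgroup X) : Prop where
  prime : r.Prime
  elem : IsElementaryAbelian r A
  card : Nat.card A = r ^ 2
  norm : A ≤ 𝐍(G)
  cop : (Nat.card A).Coprime (Nat.card G)
  ab : ∀ a ∈ A, a ≠ 1 → G ⊓ 𝐂[a] ≤ 𝐂(G ⊓ 𝐂[a])

structure Hyp (r : ℕ) (A G : Subgroup X) : Prop extends Base r A G where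
  fpf : G ⊓ 𝐂(A) = ⊥
  simple : ∀ N ≤ G, A ≤ 𝐍(N) → G ≤ 𝐍(N) → N = ⊥ ∨ N = G
  sol : ∀ H ≤ G, H ≠ G → A ≤ 𝐍(H) → Group.IsSolvable H
  nsol : ¬ Group.IsSolvable G

/-- invariant subgroups -/
structure Iv (A G H : Subgroup X) : Prop where
  le : H ≤ G
  n : A ≤ 𝐍(H)

/-- independent pairs -/
structure Ind (A : Subgroup X) (a b : X) : Prop where
  ha : a ∈ A
  hb : b ∈ A
  ne : a ≠ 1
  nm : b ∉ zpowers a

section iv
variable {H K D : Subgroup X}

omit [Finite X] in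
theorem Iv.inf (h : Iv A G H) (hK : A ≤ 𝐍(K)) : Iv A G (H ⊓ K) :=
  ⟨inf_le_left.trans h.le, H1.le_normalizer_inf h.n hK⟩

omit [Finite X] in
theorem Iv.sup (h : Iv A G H) (hK : Iv A G K) : Iv A G (H ⊔ K) :=
  ⟨sup_le h.le hK.le, H1.le_normalizer_sup h.n hK.n⟩

omit [Finite X] in
theorem Iv.cent (h : Iv A G H) (hK : A ≤ 𝐍(K)) : Iv A G (H ⊓ 𝐂(K)) :=
  h.inf (H1.le_normalizer_centralizer hK)

theorem Iv.norm (h : Iv A G H) (hK : A ≤ 𝐍(K)) : Iv A G (H ⊓ 𝐍(K)) :=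
  h.inf (le_normalizer_normalizer hK)

omit [Finite X] in
theorem Iv.pCoreOf (h : Iv A G H) (p : ℕ) : Iv A G (pCoreOf p H) :=
  ⟨(H1.pCoreOf_le H).trans h.le, h.n.trans (H1.normalizer_le_normalizer_pCoreOf H)⟩

omit [Finite X] in
theorem Iv.comm (h : Iv A G H) (hK : A ≤ 𝐍(K)) (hn : K ≤ 𝐍(H)) : Iv A G ⁅H, K⁆ :=
  ⟨(commutator_le_left_of_le_normalizer hn).trans h.le, le_normalizer_commutator h.n hK⟩

end iv

namespace Base
variable (h : Base r A G)
include h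

omit [Finite X] in
theorem le_cent : A ≤ 𝐂(A) := le_cent_of_comm h.elem.1 le_rfl le_rfl

omit [Finite X] in
theorem le_cent_zpowers {a : X} (ha : a ∈ A) : A ≤ 𝐂(zpowers a) :=
  h.le_cent.trans (centralizer_le (zpowers_le_of_mem ha))

omit [Finite X] in
theorem le_norm_zpowers {a : X} (ha : a ∈ A) : A ≤ 𝐍(zpowers a) :=
  (h.le_cent_zpowers ha).trans (cent_le_norm _)

theorem iv_cent1 {H : Subgroup X} (hH : Iv A G H) {a : X} (ha : a ∈ A) : Iv A G (H ⊓ 𝐂[a]) := by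
  rw [← FT.centralizer_zpowers_eq]
  exact hH.cent (h.le_norm_zpowers ha)

omit [Finite X] in
theorem card_zpowers {a : X} (ha : a ∈ A) (h1 : a ≠ 1) : Nat.card (zpowers a) = r :=
  haveI := Fact.mk h.prime
  card_zpowers_of_pow_eq_one (h.elem.2 a ha) h1

omit [Finite X] in
theorem mem_zpowers_of {a b : X} (ha : a ∈ A) (h1 : a ≠ 1) (hb : b ∈ zpowers a) (h2 : b ≠ 1) :
    zpowers b = zpowers a :=
  haveI := Fact.mk h.prime
  zpowers_eq_prime (h.card_zpowers ha h1) hb h2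

omit [Finite X] in
theorem ind_symm {a b : X} (hi : Ind A a b) : Ind A b a := by
  have hb : b ≠ 1 := fun e => hi.nm (e ▸ one_mem _)
  exact ⟨hi.hb, hi.ha, hb, fun hm =>
    hi.nm (h.mem_zpowers_of hi.hb hb hm hi.ne ▸ mem_zpowers b)⟩

omit [Finite X] in
theorem ind_of_mem {a b c : X} (hi : Ind A a b) (hc : c ∈ zpowers b) (h1 : c ≠ 1) : Ind A a c := by
  have hb := (h.ind_symm hi).ne
  have e := h.mem_zpowers_of hi.hb hb hc h1
  exact ⟨hi.ha, zpowers_le_of_mem hi.hb hc, hi.ne, fun hm =>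
    hi.nm (zpowers_le_of_mem hm (e ▸ mem_zpowers b))⟩

omit [Finite X] in
theorem ind_mul {a b : X} (hi : Ind A a b) : Ind A a (a * b) :=
  ⟨hi.ha, mul_mem hi.ha hi.hb, hi.ne, fun hm =>
    hi.nm (by simpa using mul_mem (inv_mem (mem_zpowers a)) hm)⟩

omit [Finite X] in
theorem ind_mul' {a b : X} (hi : Ind A a b) : Ind A b (a * b) :=
  ⟨hi.hb, mul_mem hi.ha hi.hb, (h.ind_symm hi).ne, fun hm =>
    (h.ind_symm hi).nm (by simpa using mul_mem hm (inv_mem (mem_zpowers b)))⟩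

theorem sup_eq {a b : X} (hi : Ind A a b) : zpowers a ⊔ zpowers b = A := by
  have hle : zpowers a ⊔ zpowers b ≤ A := sup_le (zpowers_le_of_mem hi.ha) (zpowers_le_of_mem hi.hb)
  have hlt : zpowers a < zpowers a ⊔ zpowers b := lt_of_le_of_ne le_sup_left fun e =>
    hi.nm (e ▸ mem_sup_right (mem_zpowers b))
  have h1 := card_lt_card_of_lt hlt
  obtain ⟨i, hi2, e⟩ := (Nat.dvd_prime_pow h.prime).1 (h.card ▸ card_dvd_of_le hle)
  rw [h.card_zpowers hi.ha hi.ne, e] at h1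
  refine eq_of_le_of_card_le hle ?_
  rw [h.card, e]
  refine Nat.pow_le_pow_right h.prime.pos ?_
  by_contra hc
  have : r ^ i ≤ r ^ 1 := Nat.pow_le_pow_right h.prime.pos (by omega)
  rw [pow_one] at this
  omega

theorem not_isCyclic : ¬ IsCyclic A :=
  haveI := Fact.mk h.prime
  P2Elem.not_isCyclic (p := r) (H := ⊤) ⟨le_top, h.elem, h.card⟩

omit [Finite X] in
theorem cop' {H : Subgroup X} (hH : H ≤ G) : (Nat.card A).Coprime (Nat.card H) :=
  coprime_mono h.cop le_rfl hH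

omit [Finite X] in
theorem solA : Group.IsSolvable A := haveI := h.elem.1; isSolvable_of_isMulCommutative

theorem gen {H K : Subgroup X} (hH : Iv A G H) (hK : ∀ a ∈ A, a ≠ 1 → H ⊓ 𝐂[a] ≤ K) : H ≤ K :=
  le_of_centralizer_le_of_not_isCyclic h.elem.1 h.not_isCyclic hH.n (h.cop' hH.le) hK

theorem gen' {H K : Subgroup X} (hH : Iv A G H) {a : X} (ha : a ∈ A) (h1 : a ≠ 1)
    (hK : H ⊓ 𝐂[a] ≤ K) (hK' : ∀ b, Ind A a b → H ⊓ 𝐂[b] ≤ K) : H ≤ K := by
  refine h.gen hH fun b hb hb1 => ?_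
  by_cases hm : b ∈ zpowers a
  · rw [← FT.centralizer_zpowers_eq, h.mem_zpowers_of ha h1 hm hb1, FT.centralizer_zpowers_eq]
    exact hK
  · exact hK' b ⟨ha, hb, h1, hm⟩

theorem exists_ne_bot {H : Subgroup X} (hH : Iv A G H) (h0 : H ≠ ⊥) :
    ∃ a ∈ A, a ≠ 1 ∧ H ⊓ 𝐂[a] ≠ ⊥ := by
  by_contra hc
  push Not at hc
  exact h0 (le_bot_iff.1 (h.gen hH fun a ha h1 => (hc a ha h1).le))

omit [Finite X] in
theorem ab' {a : X} (ha : a ∈ A) (h1 : a ≠ 1) {U V : Subgroup X} (hU : U ≤ G) (hV : V ≤ G)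
    (hU' : U ≤ 𝐂[a]) (hV' : V ≤ 𝐂[a]) : U ≤ 𝐂(V) :=
  (le_inf hU hU').trans ((h.ab a ha h1).trans (centralizer_le (le_inf hV hV')))

end Base

namespace Hyp
variable (h : Hyp r A G)
include h

theorem eq_bot {a b : X} (hi : Ind A a b) {U : Subgroup X} (hU : U ≤ G) (ha : U ≤ 𝐂[a])
    (hb : U ≤ 𝐂[b]) : U = ⊥ := by
  refine le_bot_iff.1 (h.fpf ▸ le_inf hU ?_)
  rw [← h.sup_eq hi, cent_sup, FT.centralizer_zpowers_eq, FT.centralizer_zpowers_eq]
  exact le_inf ha hb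

/-- the key lemma on the Frobenius group `D ⟨b⟩` -/
theorem cent_of {a b : X} (hi : Ind A a b) {D V : Subgroup X} (hD : Iv A G D) (hDa : D ≤ 𝐂[a])
    (hV : Iv A G V) (hs : Group.IsSolvable V) (hDV : D ≤ 𝐍(V))
    (hc : (Nat.card D).Coprime (Nat.card V)) (h0 : V ⊓ 𝐂[b] ≤ 𝐂(D)) : D ≤ 𝐂(V) := by
  have hb := zpowers_le_of_mem hi.hb
  have e := Frobenius_Wielandt_fixpoint (K := D) (R := zpowers b) (M := V) (hb.trans hD.n)
    (fun x hx h1 => h.eq_bot (h.ind_of_mem hi hx h1) (inf_le_left.trans hD.le)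
      (inf_le_left.trans hDa) inf_le_right) hDV (hb.trans hV.n) hs hc
    (coprime_mono h.cop hb hV.le)
  have e2 : V ⊓ 𝐂(D ⊔ zpowers b) = V ⊓ 𝐂(zpowers b) := by
    rw [cent_sup, FT.centralizer_zpowers_eq]
    exact le_antisymm (inf_le_inf_left _ inf_le_right)
      (le_inf inf_le_left (le_inf h0 inf_le_right))
  rw [e2] at e
  have e3 := Nat.eq_of_mul_eq_mul_left (pow_pos Nat.card_pos _) e
  exact le_centralizer_comm ((eq_of_le_of_card_le inf_le_left e3.le).ge.trans inf_le_right)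

omit [Finite X] in
theorem ivG : Iv A G G := ⟨le_rfl, h.norm⟩

theorem sol_norm {D : Subgroup X} (hD : Iv A G D) (h0 : D ≠ ⊥) (hs : Group.IsSolvable D) :
    Group.IsSolvable ↥(G ⊓ 𝐍(D)) := by
  refine h.sol _ inf_le_left (fun e => ?_) (h.ivG.norm hD.n).n
  rcases h.simple D hD.le hD.n (e.ge.trans inf_le_right) with e | e
  · exact h0 e
  · exact h.nsol (e ▸ hs)

theorem join {π : Set ℕ} {D U V : Subgroup X} (hD : Iv A G D) (h0 : D ≠ ⊥)
    (hs : Group.IsSolvable D) (hU : Iv A G U) (hV : Iv A G V) (hU' : IsPiSubgroup π U)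
    (hV' : IsPiSubgroup π V) (h1 : U ≤ 𝐍(D)) (h2 : V ≤ 𝐍(D)) : IsPiSubgroup π (U ⊔ V) := by
  have hM := h.ivG.norm hD.n
  have hs := h.sol_norm hD h0 hs
  obtain ⟨H1, a1, a2, a3⟩ := exists_invariant_hallOf_ge hM.n (h.cop' hM.le) hs hU'
    (le_inf hU.le h1) hU.n
  obtain ⟨H2, b1, b2, b3⟩ := exists_invariant_hallOf_ge hM.n (h.cop' hM.le) hs hV'
    (le_inf hV.le h2) hV.n
  obtain ⟨c, hc, e⟩ := conj_invariant_hallOf hM.n (h.cop' hM.le) hs a1 b1 a2 b2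
  have : c = 1 := mem_bot.1 (h.fpf ▸ (⟨hc.1.1, hc.2⟩ : c ∈ G ⊓ 𝐂(A)))
  rw [this, map_conj_one] at e
  exact isPiSubgroup_of_le (hall_isPi b1) (sup_le (e ▸ a3) b3)

theorem le_syl {p : ℕ} [Fact p.Prime] {P U : Subgroup X} (hP : IsSylowIn p P G) (hP' : A ≤ 𝐍(P))
    (hU : Iv A G U) (hU' : IsPGroup p U) : U ≤ P := by
  obtain ⟨S, a1, a2, a3⟩ := exists_inv_sylow_ge h.norm h.cop (Or.inl h.solA) hU' hU.le hU.n
  obtain ⟨c, hc, e⟩ := conj_invariant_sylowOf h.norm h.cop (Or.inl h.solA) (sylow_iff_hall.1 a1)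
    (sylow_iff_hall.1 hP) a2 hP'
  have : c = 1 := mem_bot.1 (h.fpf ▸ hc)
  rw [this, map_conj_one] at e
  exact e ▸ a3

theorem syl_inf {p : ℕ} [Fact p.Prime] {P H : Subgroup X} (hP : IsSylowIn p P G) (hP' : A ≤ 𝐍(P))
    (hH : Iv A G H) : IsSylowIn p (P ⊓ H) H := by
  obtain ⟨S, a1, a2⟩ := exists_inv_sylow p hH.n (h.cop' hH.le) (Or.inl h.solA)
  rw [a1.eq_of_le (hP.isPGroup.to_le inf_le_left)
    (le_inf (h.le_syl hP hP' ⟨a1.le.trans hH.le, a2⟩ a1.isPGroup) a1.le) inf_le_right]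
  exact a1

theorem nilMod {H : Subgroup X} (hH : Iv A G H) (hs : Group.IsSolvable H) :
    NilMod H (fittingOf H) := by
  obtain ⟨n, hn⟩ := Fpf.exists_isNilpotent_lcs (H.normalizerMonoidHom.comp (inclusion hH.n)) hs
    h.prime h.prime (h.card.trans (sq r)) (h.cop' hH.le) fun g hg => by
      have : (g : X) ∈ G ⊓ 𝐂(A) := ⟨hH.le g.2, fun a ha => by
        have := congrArg Subtype.val (hg ⟨a, ha⟩)
        simp only [MonoidHom.comp_apply] at this
        change a * g * a⁻¹ = g at this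
        exact mul_inv_eq_iff_eq_mul.1 this⟩
      rw [h.fpf] at this
      exact Subtype.ext this
  refine ⟨n, ?_⟩
  rw [← top_subtype_lowerCentralSeries]
  refine FT.le_fittingOf (map_subtype_le _) ?_ ?_
  · exact le_normalizer.trans (normalizer_le_normalizer_map_subtype_of_characteristic H _)
  · exact Group.nilpotent_of_mulEquiv (equivMapOfInjective _ _ H.subtype_injective)

theorem not_hnpc {p : ℕ} [Fact p.Prime] (hp : p ∣ Nat.card G) : ¬ HasNormalPComplement p G := by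
  intro hc
  have := pPrimeCore_characteristic (G := G) p
  have hn := normalizer_le_normalizer_map_subtype_of_characteristic G (pPrimeCore p G)
  rcases h.simple _ (map_subtype_le _) (h.norm.trans hn) (le_normalizer.trans hn) with e | e
  · exact h.nsol (solvable_of_isPGroup (PCompl.isPGroup_of_hnpc_of_pPrimeCore_eq_bot hc
      ((map_eq_bot_iff_of_injective _ G.subtype_injective).1 e)))
  · have := map_pPrimeCore_coprime p G
    rw [e] at this
    exact (Fact.out : p.Prime).one_lt.ne' (Nat.Coprime.eq_one_of_dvd this.symm hp)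

theorem not_le_cent {t : ℕ} [Fact t.Prime] {Q : Subgroup X} (hQ : IsSylowIn t Q G)
    (hQ' : A ≤ 𝐍(Q)) (h0 : Q ≠ ⊥) {a : X} (ha : a ∈ A) (h1 : a ≠ 1) : ¬ Q ≤ 𝐂[a] := by
  intro hc
  have hI : Iv A G Q := ⟨hQ.le, hQ'⟩
  have hN : G ⊓ 𝐍(Q) ≤ 𝐂(Q) := by
    refine h.gen' (h.ivG.norm hQ') ha h1
      (h.ab' ha h1 (inf_le_left.trans inf_le_left) hQ.le inf_le_right hc) fun b hb => ?_
    have hD := h.iv_cent1 (h.ivG.norm hQ') hb.hb
    have hs := h.syl_inf hQ hQ' hD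
    rw [h.eq_bot hb (inf_le_left.trans hQ.le) (inf_le_left.trans hc)
      (inf_le_right.trans inf_le_right), IsSylowIn.bot_iff] at hs
    refine h.cent_of (h.ind_mul' hb) hD inf_le_right hI (solvable_of_isPGroup hQ.isPGroup)
      (inf_le_left.trans inf_le_right) (coprime_card_of_isPGroup
        ((Nat.Prime.coprime_iff_not_dvd Fact.out).2 hs).symm hQ.isPGroup) ?_
    rw [h.eq_bot (h.ind_mul hb) (inf_le_left.trans hQ.le) (inf_le_left.trans hc) inf_le_right]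
    exact bot_le
  obtain ⟨S, rfl⟩ := hQ.exists_sylow_map
  refine h.not_hnpc ((dvd_card_of_isPGroup hQ.isPGroup h0).trans (card_dvd_of_le hQ.le))
    (PCompl.hnpc_of_normalizer_le_centralizer S fun g hg => ?_)
  exact H1.mem_centralizer_map_subtype.1 (hN ⟨g.2, le_normalizer_map _ (mem_map_of_mem _ hg)⟩)

theorem hnpc_norm {p : ℕ} [Fact p.Prime] {P : Subgroup X} (hP : IsSylowIn p P G) (hP' : A ≤ 𝐍(P))
    (hc : ∀ a ∈ A, a ≠ 1 → ∃ b, Ind A a b ∧ P ⊓ 𝐂[b] = ⊥) {D : Subgroup X} (hD : Iv A G D)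
    (h0 : D ≠ ⊥) (hs : Group.IsSolvable D) : HasNormalPComplement p ↥(G ⊓ 𝐍(D)) := by
  have hM := h.ivG.norm hD.n
  have hs := h.sol_norm hD h0 hs
  set M := G ⊓ 𝐍(D)
  obtain ⟨L, l1, l2⟩ := exists_invariant_hallOf {p}ᶜ hM.n (h.cop' hM.le) hs
  have hL : Iv A G L := ⟨l1.1.trans hM.le, l2⟩
  have hO := hM.pCoreOf p
  have hOp := H1.pCoreOf_isPGroup (p := p) M
  have hLc : (Nat.card L).Coprime p := coprime_iff_isPiSubgroup.2 (hall_isPi l1)
  have h1 : L ≤ 𝐂(pCoreOf p M) := h.gen hL fun a ha h1 => by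
    obtain ⟨b, hb, e⟩ := hc a ha h1
    refine h.cent_of hb (h.iv_cent1 hL ha) inf_le_right hO (solvable_of_isPGroup hOp)
      (inf_le_left.trans (l1.1.trans (H1.le_normalizer_pCoreOf M)))
      (coprime_card_of_isPGroup (hLc.coprime_dvd_left (card_dvd_of_le inf_le_left)) hOp) ?_
    exact ((inf_le_inf_right _ (h.le_syl hP hP' hO hOp)).trans e.le).trans bot_le
  have h2 := (h.nilMod hM hs).le_norm_sup_hall (le_norm_fittingOf M) l1 le_normalizer
    (le_norm_fittingOf M)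
  have h3 : fittingOf M ≤ 𝐍(L) := H1.fittingOf_le_of_forall fun q _ => by
    by_cases e : q = p
    · subst e
      exact (le_centralizer_comm h1).trans (cent_le_norm _)
    · refine le_trans ?_ le_normalizer
      exact le_hall_of_norm' l1 (isPi_of_isPGroup (H1.pCoreOf_isPGroup M) e) (H1.pCoreOf_le M)
        (l1.1.trans (H1.le_normalizer_pCoreOf M))
  have h4 : M ≤ 𝐍(L) := h2.trans (norm_le_norm_hall (Hall.isPiHallOf_of_le l1 le_sup_right
    (sup_le (FT.fittingOf_le M) l1.1)) (sup_le h3 le_normalizer))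
  have := normal_subgroupOf_of_le_normalizer h4
  obtain ⟨h5, k, h6⟩ := Hall.isPiHall_compl_singleton_iff.1 (Hall.isPiHallOf_iff.1 l1).2
  exact PCompl.hnpc_of_normal _ h5 h6

theorem exists_supp {p : ℕ} [Fact p.Prime] (hp2 : p ≠ 2) {P : Subgroup X} (hP : IsSylowIn p P G)
    (hP' : A ≤ 𝐍(P)) (h0 : P ≠ ⊥) : ∃ a ∈ A, a ≠ 1 ∧ ∀ b, Ind A a b → P ⊓ 𝐂[b] ≠ ⊥ := by
  by_contra hc
  push Not at hc
  have key : ∀ D : Subgroup G, D.map G.subtype ≠ ⊥ → D.map G.subtype ≤ P →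
      𝐍(P) ≤ 𝐍(D.map G.subtype) → HasNormalPComplement p (normalizer (D : Set G)) := by
    intro D h1 h2 h3
    refine PCompl.hnpc_of_injective (h.hnpc_norm hP hP' hc ⟨map_subtype_le _, hP'.trans h3⟩ h1
      (solvable_of_isPGroup (hP.isPGroup.to_le h2)))
      ((G.subtype.comp (normalizer (D : Set G)).subtype).codRestrict _ fun g =>
        ⟨g.1.2, le_normalizer_map _ (mem_map_of_mem _ g.2)⟩) fun x y e => ?_
    have e' := congrArg Subtype.val e
    exact Subtype.ext (Subtype.ext e')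
  obtain ⟨S, rfl⟩ := hP.exists_sylow_map
  have hd : Disjoint (S : Subgroup G) G.subtype.ker := by simp
  refine h.not_hnpc ((dvd_card_of_isPGroup hP.isPGroup h0).trans (card_dvd_of_le hP.le))
    (H5.thompson_normal_p_complement hp2 S
      (PCompl.hnpc_of_le (key _ ?_ ?_ ?_) (centralizer_le_normalizer _)) (key _ ?_ ?_ ?_))
  any_goals rw [← H5.centerOf_map _ _ hd]
  any_goals rw [← H5.thompsonAOf_map _ _ hd]
  · exact H5.centerOf_ne_bot hP.isPGroup h0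
  · exact inf_le_left
  · exact H1.le_normalizer_inf le_rfl (H1.le_normalizer_centralizer le_rfl)
  · exact H5.thompsonAOf_ne_bot h0
  · exact H5.thompsonAOf_le _
  · exact H5.normalizer_le_normalizer_thompsonAOf _

end Hyp

/-- maximal invariant `π`-subgroups -/
def MaxI (A G : Subgroup X) (π : Set ℕ) (H : Subgroup X) : Prop :=
  Maximal (fun H => Iv A G H ∧ IsPiSubgroup π H) H

/-- `H` controls the normalizer of `D` -/
def Ctl (A G : Subgroup X) (π : Set ℕ) (H D : Subgroup X) : Prop :=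
  ∀ U, Iv A G U → IsPiSubgroup π U → U ≤ 𝐍(D) → U ≤ H

theorem exists_maxI {π : Set ℕ} {U : Subgroup X} (h1 : Iv A G U) (h2 : IsPiSubgroup π U) :
    ∃ H, U ≤ H ∧ MaxI A G π H :=
  Finite.exists_le_maximal (p := fun H => Iv A G H ∧ IsPiSubgroup π H) ⟨h1, h2⟩

section two
variable {p t : ℕ} [hp : Fact p.Prime] [ht : Fact t.Prime] {π : Set ℕ}

theorem sol_of_pi (hπ : π = {p, t}) {H : Subgroup X} (h : IsPiSubgroup π H) :
    Group.IsSolvable H :=
  isSolvable_of_two_primes hp.1 ht.1 fun q hq hd => by simpa [hπ] using h q hq hd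

theorem pCoreOf_le_cent (hne : p ≠ t) (H : Subgroup X) : pCoreOf p H ≤ 𝐂(pCoreOf t H) :=
  comm_eq_bot_iff.1 (H1.commutator_eq_bot_of_coprime
    ((H1.pCoreOf_le H).trans (H1.le_normalizer_pCoreOf H))
    ((H1.pCoreOf_le H).trans (H1.le_normalizer_pCoreOf H))
    (coprime_of_isPGroup_ne (H1.pCoreOf_isPGroup H) (H1.pCoreOf_isPGroup H) hne))

theorem p'core_le (hπ : π = {p, t}) {H : Subgroup X} (h : IsPiSubgroup π H) :
    (pPrimeCore p H).map H.subtype ≤ pCoreOf t H := by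
  refine H1.le_pCoreOf (map_subtype_le _)
    (le_normalizer.trans (normalizer_le_normalizer_map_pPrimeCore p H))
    (isPGroup_iff_isPiSubgroup.2 fun q hq hd => ?_)
  have h1 := coprime_iff_isPiSubgroup.1 (map_pPrimeCore_coprime p H) q hq hd
  have h2 := h q hq (hd.trans (card_dvd_of_le (map_subtype_le _)))
  simp only [hπ, Set.mem_insert_iff, Set.mem_compl_iff] at h1 h2
  tauto

theorem fit_le (hπ : π = {p, t}) {H : Subgroup X} (h : IsPiSubgroup π H)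
    (h0 : pCoreOf t H = ⊥) : fittingOf H ≤ pCoreOf p H :=
  H1.fittingOf_le_of_forall fun q hq => by
    by_cases e : pCoreOf q H = ⊥
    · exact e.le.trans bot_le
    have := mem_of_isPi_of_isPGroup (H1.pCoreOf_isPGroup H) e
      (isPiSubgroup_of_le h (H1.pCoreOf_le H))
    rw [hπ] at this
    rcases this with rfl | rfl
    · exact le_rfl
    · exact absurd h0 e

theorem pi_p (hπ : π = {p, t}) {U : Subgroup X} (h : IsPGroup p U) : IsPiSubgroup π U :=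
  isPi_of_isPGroup h (by simp [hπ])

theorem bender1 (hne : p ≠ t) (hπ : π = {p, t}) {H K U : Subgroup X} (hK : Iv A G K)
    (hK' : IsPiSubgroup π K) (hU : A ≤ 𝐍(U)) (h1 : U ≤ pCoreOf p H) (h2 : U ≤ K)
    (hc : Ctl A G π H U) : pCoreOf t H ⊓ K ≤ pCoreOf t K := by
  refine (le_p'core_of_cent_pgroup (sol_of_pi hπ hK') ((H1.pCoreOf_isPGroup H).to_le h1) h2
    inf_le_right ?_ (inf_le_left.trans ((pCoreOf_le_cent hne.symm H).trans (centralizer_le h1)))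
    (H1.le_normalizer_inf ?_ (inf_le_left.trans le_normalizer))).trans (p'core_le hπ hK')
  · obtain ⟨k, hk⟩ := ((H1.pCoreOf_isPGroup (p := t) H).to_le
      (inf_le_left : _ ⊓ K ≤ _)).exists_card_eq
    rw [hk]
    exact Nat.Coprime.pow_left _ ((Nat.coprime_primes ht.1 hp.1).2 hne.symm)
  · exact (hc _ (hK.cent hU) (isPi_inf_left hK') (inf_le_right.trans (cent_le_norm _))).trans
      (H1.le_normalizer_pCoreOf H)

theorem bender2 (hne : p ≠ t) (hπ : π = {p, t}) {H K U V : Subgroup X} (hK : Iv A G K)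
    (hK' : IsPiSubgroup π K) (hU : A ≤ 𝐍(U)) (h1 : U ≤ pCoreOf p H) (h2 : U ≤ K)
    (hc : Ctl A G π H U) (h3 : V ≤ pCoreOf t H) (h4 : V ≤ K) (hc' : Ctl A G π H V) :
    pCoreOf p K ≤ H :=
  hc' _ (hK.pCoreOf p) (pi_p hπ (H1.pCoreOf_isPGroup K)) ((pCoreOf_le_cent hne K).trans
    ((centralizer_le ((le_inf h3 h4).trans (bender1 hne hπ hK hK' hU h1 h2 hc))).trans
      (cent_le_norm _)))

namespace Hyp
variable (h : Hyp r A G)
include h

omit hp ht in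
theorem ctl_of_norm {H D : Subgroup X} (hH : MaxI A G π H) (hD : Iv A G D) (h0 : D ≠ ⊥)
    (hs : Group.IsSolvable D) (hn : H ≤ 𝐍(D)) : Ctl A G π H D := fun U h1 h2 h3 =>
  le_sup_left.trans (hH.2 ⟨h1.sup hH.1.1, h.join hD h0 hs h1 hH.1.1 h2 hH.1.2 h3 hn⟩ le_sup_right)

omit ht in
theorem ctl_core {H : Subgroup X} (hH : MaxI A G π H) (h0 : pCoreOf p H ≠ ⊥) :
    Ctl A G π H (pCoreOf p H) :=
  h.ctl_of_norm hH (hH.1.1.pCoreOf p) h0 (solvable_of_isPGroup (H1.pCoreOf_isPGroup H))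
    (H1.le_normalizer_pCoreOf H)

theorem uniq (hne : p ≠ t) (hπ : π = {p, t}) {H K V : Subgroup X} (hH : MaxI A G π H)
    (hK : MaxI A G π K) (h0 : pCoreOf p H ≠ ⊥) (h2 : pCoreOf p H ≤ K)
    (hV : A ≤ 𝐍(V)) (hV0 : V ≠ ⊥) (h3 : V ≤ pCoreOf t H) (h4 : V ≤ K) (hc' : Ctl A G π H V) :
    K ≤ H := by
  have hπ' := hπ.trans (Set.pair_comm p t)
  have hc := h.ctl_core hH h0
  have hU := (hH.1.1.pCoreOf p).n
  have a1 := (le_inf le_rfl h2).trans (bender1 hne.symm hπ' hK.1.1 hK.1.2 hV h3 h4 hc')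
  have a2 := (le_inf h3 h4).trans (bender1 hne hπ hK.1.1 hK.1.2 hU le_rfl h2 hc)
  have a3 := bender2 hne hπ hK.1.1 hK.1.2 hU le_rfl h2 hc h3 h4 hc'
  have a4 := bender2 hne.symm hπ' hK.1.1 hK.1.2 hV h3 h4 hc' le_rfl h2 hc
  have a5 := (le_inf le_rfl a3).trans (bender1 hne.symm hπ' hH.1.1 hH.1.2 (hK.1.1.pCoreOf t).n
    le_rfl a4 (h.ctl_core hK fun e => hV0 (le_bot_iff.1 (e ▸ a2))))
  exact hc _ hK.1.1 hK.1.2 (a1.antisymm a5 ▸ H1.le_normalizer_pCoreOf K)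

theorem ctl_of (hne : p ≠ t) (hπ : π = {p, t}) {H V D : Subgroup X} (hH : MaxI A G π H)
    (h0 : pCoreOf p H ≠ ⊥) (hV : A ≤ 𝐍(V)) (hV0 : V ≠ ⊥) (h3 : V ≤ pCoreOf t H)
    (hc' : Ctl A G π H V) (hD : Iv A G D) (hD0 : D ≠ ⊥) (hs : Group.IsSolvable D)
    (h1 : pCoreOf p H ≤ 𝐍(D)) (h2 : V ≤ 𝐍(D)) : Ctl A G π H D := by
  intro U u1 u2 u3
  have hle : pCoreOf p H ⊔ V ≤ H := sup_le (H1.pCoreOf_le H) (h3.trans (H1.pCoreOf_le H))
  have hI : Iv A G (pCoreOf p H ⊔ V) :=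
    (hH.1.1.pCoreOf p).sup ⟨le_sup_right.trans (hle.trans hH.1.1.le), hV⟩
  obtain ⟨K, k1, k2⟩ := exists_maxI (u1.sup hI)
    (h.join hD hD0 hs u1 hI u2 (isPiSubgroup_of_le hH.1.2 hle) u3 (sup_le h1 h2))
  exact le_sup_left.trans (k1.trans (h.uniq hne hπ hH k2 h0
    (le_sup_left.trans (le_sup_right.trans k1)) hV hV0 h3
    (le_sup_right.trans (le_sup_right.trans k1)) hc'))

theorem syl_le (hne : p ≠ t) (hπ : π = {p, t}) {H P : Subgroup X} (hH : MaxI A G π H)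
    (h0 : pCoreOf p H ≠ ⊥) (h1 : pCoreOf t H ≠ ⊥) (hP : IsSylowIn p P G) (hP' : A ≤ 𝐍(P)) :
    P ≤ H := by
  have hPI : Iv A G P := ⟨hP.le, hP'⟩
  have hOP := h.le_syl hP hP' (hH.1.1.pCoreOf p) (H1.pCoreOf_isPGroup H)
  have pP : ∀ {U}, U ≤ P → IsPiSubgroup π U := fun hU => pi_p hπ (hP.isPGroup.to_le hU)
  have sP : ∀ {U}, U ≤ P → Group.IsSolvable U := fun hU =>
    solvable_of_isPGroup (hP.isPGroup.to_le hU)
  obtain ⟨a, ha, ha1, hD0⟩ := h.exists_ne_bot (hPI.cent hP')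
    (H5.centerOf_ne_bot hP.isPGroup fun e => h0 (le_bot_iff.1 (e ▸ hOP)))
  have hD := h.iv_cent1 (hPI.cent hP') ha
  set D := P ⊓ 𝐂(P) ⊓ 𝐂[a]
  have hDP : D ≤ P := inf_le_left.trans inf_le_left
  have hDC : D ≤ 𝐂(P) := inf_le_left.trans inf_le_right
  have hDH : D ≤ H := h.ctl_core hH h0 D hD (pP hDP)
    ((hDC.trans (centralizer_le hOP)).trans (cent_le_norm _))
  have hT := hH.1.1.pCoreOf t
  have hTp := H1.pCoreOf_isPGroup (p := t) H
  have hZ := hT.cent hT.n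
  have hZ0 : pCoreOf t H ⊓ 𝐂(pCoreOf t H) ≠ ⊥ := H5.centerOf_ne_bot hTp h1
  set Z := pCoreOf t H ⊓ 𝐂(pCoreOf t H)
  have hZZ : Z ≤ 𝐂(Z) := inf_le_right.trans (centralizer_le inf_le_left)
  have hHZ : H ≤ 𝐍(Z) := H1.le_normalizer_inf (H1.le_normalizer_pCoreOf H)
    (H1.le_normalizer_centralizer (H1.le_normalizer_pCoreOf H))
  have sT : ∀ {U}, U ≤ Z → Group.IsSolvable U := fun hU =>
    solvable_of_isPGroup (hTp.to_le (hU.trans inf_le_left))
  have cZ := h.ctl_of_norm hH hZ hZ0 (sT le_rfl) hHZ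
  have cop : ∀ {U V}, U ≤ P → V ≤ Z → (Nat.card U).Coprime (Nat.card V) := fun hU hV =>
    coprime_of_isPGroup_ne (hP.isPGroup.to_le hU) (hTp.to_le (hV.trans inf_le_left)) hne
  have cW : ∀ {W}, Iv A G W → W ≠ ⊥ → W ≤ Z → Ctl A G π H W := fun hW hW0 hWZ =>
    h.ctl_of hne hπ hH h0 hZ.n hZ0 inf_le_left cZ hW hW0 (sT hWZ)
      (((pCoreOf_le_cent hne H).trans (centralizer_le (hWZ.trans inf_le_left))).trans
        (cent_le_norm _)) ((hZZ.trans (centralizer_le hWZ)).trans (cent_le_norm _))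
  by_cases hW0 : ⁅Z, D⁆ = ⊥
  · exact h.ctl_of hne hπ hH h0 hZ.n hZ0 inf_le_left cZ hD hD0 (sP hDP)
      ((le_centralizer_comm (hDC.trans (centralizer_le hOP))).trans (cent_le_norm _))
      ((comm_eq_bot_iff.1 hW0).trans (cent_le_norm _)) P hPI (pP le_rfl)
      ((le_centralizer_comm hDC).trans (cent_le_norm _))
  have hDZ := hDH.trans hHZ
  have hW := hZ.comm hD.n hDZ
  have hWZ := commutator_le_left_of_le_normalizer hDZ
  have hWa : ⁅Z, D⁆ ⊓ 𝐂[a] = ⊥ := le_bot_iff.1 ((le_inf inf_le_left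
    (h.ab' ha ha1 (inf_le_left.trans hW.le) hD.le inf_le_right inf_le_right)).trans
    (commutator_inf_centralizer_eq_bot hDZ (cop hDP le_rfl)
      (le_centralizer_iff_isMulCommutative.1 hZZ)).le)
  have hN : ∀ {U}, U ≤ P → U ≤ H → U ≤ 𝐍(⁅Z, D⁆) := fun h1 h2 =>
    le_normalizer_commutator (h2.trans hHZ)
      ((h1.trans (le_centralizer_comm hDC)).trans (cent_le_norm _))
  have hb : ∀ b, Ind A a b → P ⊓ 𝐂[b] ≤ P ⊓ H ⊓ 𝐂(⁅Z, D⁆) := fun b hb => by
    have hPb := h.iv_cent1 hPI hb.hb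
    have hWb := h.iv_cent1 hW hb.hb
    have e1 : P ⊓ 𝐂[b] ≤ H := by
      refine cW hWb (fun e => hW0 ?_) (inf_le_left.trans hWZ) _ hPb (pP inf_le_left)
        ((h.ab' hb.hb (h.ind_symm hb).ne hPb.le hWb.le inf_le_right inf_le_right).trans
          (cent_le_norm _))
      refine commutator_eq_bot_of_commutator_commutator_eq_bot hDZ (cop hDP le_rfl)
        (commutator_eq_bot_iff_le_centralizer'.2 (h.cent_of hb hD inf_le_right hW (sT hWZ)
          (hN hDP hDH) (cop hDP hWZ) (e.le.trans bot_le)))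
    exact le_inf (le_inf inf_le_left e1) (h.cent_of (h.ind_symm hb) hPb inf_le_right hW (sT hWZ)
      (hN inf_le_left e1) (cop inf_le_left hWZ) (hWa.le.trans bot_le))
  have hR := hPI.inf hH.1.1.n
  set R := P ⊓ H
  have hNI := hPI.norm hR.n
  set N := P ⊓ 𝐍(R)
  have hza := zpowers_le_of_mem ha
  have hB := hNI.comm (h.le_norm_zpowers ha) (hza.trans hNI.n)
  -- general commutator bound
  have key : ∀ {U K}, Iv A G U → U ≤ P → U ≤ 𝐍(K) → A ≤ 𝐍(K) → (∀ b, Ind A a b → P ⊓ 𝐂[b] ≤ K) →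
      ⁅U, zpowers a⁆ ≤ K := fun {U K} hU hUP hUK hAK hK => by
    have : U ≤ K ⊔ (U ⊓ 𝐂[a]) := h.gen' hU ha ha1 le_sup_right fun b hb =>
      ((inf_le_inf_right _ hUP).trans (hK b hb)).trans le_sup_left
    refine commutator_le.2 fun x hx y hy => ?_
    obtain ⟨k, hk, c, hc, rfl⟩ := mem_sup_norm (inf_le_left.trans hUK) (this hx)
    have hcy : y * c = c * y := (FT.centralizer_zpowers_eq a).ge hc.2 y hy
    have : ⁅k * c, y⁆ = k * (y * k⁻¹ * y⁻¹) := by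
      rw [commutatorElement_def, mul_inv_rev, mul_assoc k, ← hcy]; group
    rw [this]
    exact mul_mem hk (conj_mem_of_mem_normalizer (hAK (hza hy)) (inv_mem hk))
  have hBR : ⁅N, zpowers a⁆ ≤ R := key hNI inf_le_left inf_le_right hR.n fun b hb' =>
    (hb b hb').trans inf_le_left
  have hBC : ⁅N, zpowers a⁆ ≤ 𝐂(⁅Z, D⁆) := by
    rw [← commutator_commutator_eq (hza.trans hNI.n) (coprime_mono h.cop hza hNI.le)]
    exact (commutator_mono hBR le_rfl).trans ((key hR inf_le_left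
      (H1.le_normalizer_inf le_normalizer (H1.le_normalizer_centralizer
        (hN inf_le_left inf_le_right))) (hR.cent hW.n).n hb).trans inf_le_right)
  have hRN : R ≤ N := le_inf inf_le_left le_normalizer
  by_cases hB0 : ⁅N, zpowers a⁆ = ⊥
  · have hPa : P ≤ 𝐂[a] := h.gen' hPI ha ha1 inf_le_right fun b hb' =>
      ((hb b hb').trans inf_le_left).trans (hRN.trans
        ((comm_eq_bot_iff.1 hB0).trans (FT.centralizer_zpowers_eq a).le))
    exact h.ctl_core hH h0 P hPI (pP le_rfl)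
      ((h.ab' ha ha1 hP.le (hOP.trans hP.le) hPa (hOP.trans hPa)).trans (cent_le_norm _))
  have hNB : N ≤ 𝐍(⁅N, zpowers a⁆) := normalizer_commutator_ge_left _ _
  have hNH := h.ctl_of hne hπ hH h0 hW.n hW0 (hWZ.trans inf_le_left) (cW hW hW0 hWZ) hB hB0
    (sP (hBR.trans inf_le_left)) (((le_inf hOP (H1.pCoreOf_le H)).trans hRN).trans hNB)
    ((le_centralizer_comm hBC).trans (cent_le_norm _)) N hNI (pP inf_le_left) hNB
  by_contra hc
  exact (lt_inf_normalizer_of_isPGroup hP.isPGroup (inf_lt_left.2 hc)).not_ge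
    (le_inf inf_le_left hNH)

theorem syl_le' (hπ : π = {p, t}) {H P : Subgroup X} (hH : MaxI A G π H)
    (h1 : pCoreOf t H = ⊥) (hP : IsSylowIn p P G) (hP' : A ≤ 𝐍(P)) :
    P ≤ H ∧ H ≤ 𝐍(P) ∧ H ⊓ 𝐂(P) ≤ P := by
  have hPI : Iv A G P := ⟨hP.le, hP'⟩
  have hs := sol_of_pi hπ hH.1.2
  have hF := fit_le hπ hH.1.2 h1
  have hS := h.syl_inf hP hP' hH.1.1
  have hO := H1.pCoreOf_le_sylow hS
  have h2 := (h.nilMod hH.1.1 hs).le_norm_sup_sylow (le_norm_fittingOf H) hS le_normalizer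
    (le_norm_fittingOf H)
  rw [sup_eq_right.2 (hF.trans hO)] at h2
  have h4 : H ⊓ 𝐂(fittingOf H) ≤ fittingOf H :=
    H1.inf_centralizer_fittingOf_le (H1.layerIn_eq_bot_of_isSolvable hs)
  have h3 : P ≤ H := by
    by_cases h0 : P ⊓ H = ⊥
    · have : fittingOf H = ⊥ := le_bot_iff.1 (h0 ▸ hF.trans hO)
      rw [this, cent_bot, inf_top_eq] at h4
      exact hH.2 ⟨hPI, pi_p hπ hP.isPGroup⟩ (h4.trans bot_le)
    have hR := hPI.inf hH.1.1.n
    by_contra hc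
    exact (lt_inf_normalizer_of_isPGroup hP.isPGroup (inf_lt_left.2 hc)).not_ge
      (le_inf inf_le_left (h.ctl_of_norm hH hR h0 (solvable_of_isPGroup hS.isPGroup) h2 _
        (hPI.norm hR.n) (pi_p hπ (hP.isPGroup.to_le inf_le_left)) inf_le_right))
  rw [inf_eq_left.2 h3] at h2 hO
  exact ⟨h3, h2, ((inf_le_inf_left _ (centralizer_le (hF.trans hO))).trans h4).trans (hF.trans hO)⟩

theorem dich (hne : p ≠ t) (hπ : π = {p, t}) {P Q : Subgroup X} (hP : IsSylowIn p P G)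
    (hP' : A ≤ 𝐍(P)) (hQ : IsSylowIn t Q G) (hQ' : A ≤ 𝐍(Q)) (hn : ¬ IsPiSubgroup π (P ⊔ Q))
    {U : Subgroup X} (h1 : Iv A G U) (h2 : IsPiSubgroup π U) :
    (U ≤ 𝐍(P) ∧ U ⊓ 𝐂(P) ≤ P) ∨ (U ⊔ Q ≤ 𝐍(Q) ∧ IsPiSubgroup π (U ⊔ Q)) := by
  obtain ⟨H, k1, k2⟩ := exists_maxI h1 h2
  have hπ' := hπ.trans (Set.pair_comm p t)
  by_cases e1 : pCoreOf t H = ⊥
  · obtain ⟨-, a2, a3⟩ := h.syl_le' hπ k2 e1 hP hP'
    exact Or.inl ⟨k1.trans a2, (inf_le_inf_right _ k1).trans a3⟩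
  by_cases e2 : pCoreOf p H = ⊥
  · obtain ⟨a1, a2, -⟩ := h.syl_le' hπ' k2 e2 hQ hQ'
    exact Or.inr ⟨sup_le (k1.trans a2) le_normalizer, isPiSubgroup_of_le k2.1.2 (sup_le k1 a1)⟩
  exact absurd (isPiSubgroup_of_le k2.1.2 (sup_le (h.syl_le hne hπ k2 e2 e1 hP hP')
    (h.syl_le hne.symm hπ' k2 e1 e2 hQ hQ'))) hn

theorem dich' (hne : p ≠ t) (hπ : π = {p, t}) {P Q : Subgroup X} (hP : IsSylowIn p P G)
    (hP' : A ≤ 𝐍(P)) (hQ : IsSylowIn t Q G) (hQ' : A ≤ 𝐍(Q)) (hn : ¬ IsPiSubgroup π (P ⊔ Q))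
    {b : X} (hb : b ∈ A) (hb1 : b ≠ 1) : Q ⊓ 𝐂[b] ≤ 𝐍(P) ∨ P ⊓ 𝐂[b] ≤ 𝐍(Q) := by
  have h1 := h.iv_cent1 ⟨hP.le, hP'⟩ hb
  have h2 := h.iv_cent1 ⟨hQ.le, hQ'⟩ hb
  rcases h.dich hne hπ hP hP' hQ hQ' hn (h1.sup h2) (isPi_sup'
    ((h.ab' hb hb1 h2.le h1.le inf_le_right inf_le_right).trans (cent_le_norm _))
    (pi_p hπ (hP.isPGroup.to_le inf_le_left))
    (pi_p (hπ.trans (Set.pair_comm p t)) (hQ.isPGroup.to_le inf_le_left))) with e | e
  · exact Or.inl (le_sup_right.trans e.1)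
  · exact Or.inr (le_sup_left.trans (le_sup_left.trans e.1))

theorem inf_norm_eq_bot (hne : p ≠ t) (hπ : π = {p, t}) {P Q : Subgroup X} (hP : IsSylowIn p P G)
    (hP' : A ≤ 𝐍(P)) (hQ : IsSylowIn t Q G) (hQ' : A ≤ 𝐍(Q)) (hn : ¬ IsPiSubgroup π (P ⊔ Q)) :
    Q ⊓ 𝐍(P) = ⊥ := by
  have hπ' := hπ.trans (Set.pair_comm p t)
  have hPI : Iv A G P := ⟨hP.le, hP'⟩
  have hQI : Iv A G Q := ⟨hQ.le, hQ'⟩
  have hX := hQI.norm hP'
  have hPQ : P ⊓ Q = ⊥ := inf_eq_bot_of_cop (coprime_of_isPGroup_ne hP.isPGroup hQ.isPGroup hne)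
  have key : ∀ a b, Ind A a b → Q ⊓ 𝐍(P) ⊓ 𝐂[a] ≠ ⊥ → Q ⊓ 𝐂[b] ≤ 𝐍(P) := by
    intro a b hi h0
    refine (h.dich' hne hπ hP hP' hQ hQ' hn hi.hb (h.ind_symm hi).ne).resolve_right fun e => h0 ?_
    have hD := h.iv_cent1 hX hi.ha
    set D := Q ⊓ 𝐍(P) ⊓ 𝐂[a]
    have hDQ : D ≤ Q := inf_le_left.trans inf_le_left
    have hDP : D ≤ 𝐍(P) := inf_le_left.trans inf_le_right
    have hc : D ≤ 𝐂(P) := h.cent_of hi hD inf_le_right hPI (solvable_of_isPGroup hP.isPGroup) hDP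
      (coprime_of_isPGroup_ne (hQ.isPGroup.to_le hDQ) hP.isPGroup hne.symm)
      (comm_eq_bot_iff.1 (le_bot_iff.1 (hPQ ▸ le_inf
        ((commutator_mono inf_le_left le_rfl).trans (commutator_le_left_of_le_normalizer hDP))
        ((commutator_mono le_rfl hDQ).trans (comm_le_right e)))))
    have hπD := isPi_sup' hDP (pi_p hπ hP.isPGroup) (pi_p hπ' (hQ.isPGroup.to_le hDQ))
    rcases h.dich hne hπ hP hP' hQ hQ' hn (hPI.sup hD) hπD with e | e
    · exact le_bot_iff.1 (hPQ ▸ le_inf ((le_inf le_sup_right hc).trans e.2) hDQ)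
    · exact absurd (isPiSubgroup_of_le e.2 (sup_le_sup_right le_sup_left _)) hn
  by_contra h0
  obtain ⟨a, ha, ha1, h1⟩ := h.exists_ne_bot hX h0
  by_cases h2 : ∃ b, Ind A a b ∧ Q ⊓ 𝐍(P) ⊓ 𝐂[b] ≠ ⊥
  · obtain ⟨b, hb, h2⟩ := h2
    exact hn (isPi_sup' (h.gen' hQI ha ha1 (key b a (h.ind_symm hb) h2) fun c hc => key a c hc h1)
      (pi_p hπ hP.isPGroup) (pi_p hπ' hQ.isPGroup))
  push Not at h2
  refine h.not_le_cent hQ hQ' (fun e => h0 (by rw [e, bot_inf_eq])) ha ha1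
    (h.gen' hQI ha ha1 inf_le_right fun b hb => ?_)
  exact (le_inf (le_inf inf_le_left (key a b hb h1)) inf_le_right).trans
    ((h2 b hb).le.trans bot_le)

theorem perm_odd (hne : p ≠ t) (hp2 : p ≠ 2) (hπ : π = {p, t}) {P Q : Subgroup X}
    (hP : IsSylowIn p P G) (hP' : A ≤ 𝐍(P)) (hQ : IsSylowIn t Q G) (hQ' : A ≤ 𝐍(Q))
    (hP0 : P ≠ ⊥) (hQ0 : Q ≠ ⊥) : IsPiSubgroup π (P ⊔ Q) := by
  by_contra hn
  obtain ⟨a, ha, ha1, h1⟩ := h.exists_supp hp2 hP hP' hP0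
  refine h.not_le_cent hQ hQ' hQ0 ha ha1 (h.gen' ⟨hQ.le, hQ'⟩ ha ha1 inf_le_right fun b hb => ?_)
  rcases h.dich' hne hπ hP hP' hQ hQ' hn hb.hb (h.ind_symm hb).ne with e | e
  · exact (le_inf inf_le_left e).trans
      ((h.inf_norm_eq_bot hne hπ hP hP' hQ hQ' hn).le.trans bot_le)
  · exact absurd (le_bot_iff.1 ((le_inf inf_le_left e).trans (h.inf_norm_eq_bot hne.symm
      (hπ.trans (Set.pair_comm p t)) hQ hQ' hP hP' (sup_comm P Q ▸ hn)).le)) (h1 b hb)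

theorem perm (hne : p ≠ t) {P Q : Subgroup X}
    (hP : IsSylowIn p P G) (hP' : A ≤ 𝐍(P)) (hQ : IsSylowIn t Q G) (hQ' : A ≤ 𝐍(Q))
    (hP0 : P ≠ ⊥) (hQ0 : Q ≠ ⊥) : IsPiSubgroup {p, t} (P ⊔ Q) := by
  by_cases hp2 : p = 2
  · rw [sup_comm]
    exact h.perm_odd hne.symm (hp2 ▸ hne.symm) (Set.pair_comm p t) hQ hQ' hP hP' hQ0 hP0
  · exact h.perm_odd hne hp2 rfl hP hP' hQ hQ' hP0 hQ0

end Hyp

theorem exists_mul_of_pi {P Q H : Subgroup X} (hP : IsSylowIn p P H)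
    (hQ : IsSylowIn t Q H) (hne : p ≠ t) (h : IsPiSubgroup {p, t} (P ⊔ Q)) {g : X}
    (hg : g ∈ P ⊔ Q) : ∃ a ∈ P, ∃ b ∈ Q, a * b = g := by
  have hle := sup_le hP.le hQ.le
  refine exists_mul_of_hallOf (sylow_iff_hall.1 (hP.mono le_sup_left hle))
    (hall_congr (sylow_iff_hall.1 (hQ.mono le_sup_right hle)) fun q hq hd => ?_) hg
  have := h q hq hd
  simp only [Set.mem_insert_iff, Set.mem_singleton_iff, Set.mem_compl_iff] at this ⊢
  rcases this with rfl | rfl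
  · simp [hne]
  · simp [hne.symm]

end two

omit [Finite X] in
theorem exists_mul_iSup {ι : Type*} {U : Subgroup X} {K : ι → Subgroup X} (s : Finset ι)
    (h : ∀ i ∈ s, ∀ g ∈ U ⊔ K i, ∃ a ∈ U, ∃ b ∈ K i, a * b = g) {g : X}
    (hg : g ∈ U ⊔ ⨆ i ∈ s, K i) : ∃ a ∈ U, ∃ b ∈ ⨆ i ∈ s, K i, a * b = g := by
  let P : X → Prop := fun x => ∃ a ∈ U, ∃ b ∈ ⨆ i ∈ s, K i, a * b = x
  let T : Subgroup X :=
    { carrier := {g | ∀ x, P x ↔ P (g * x)}
      one_mem' := fun x => by rw [one_mul]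
      mul_mem' := fun {a b} ha hb x => by rw [hb x, ha (b * x), mul_assoc]
      inv_mem' := fun {a} ha x => by rw [ha (a⁻¹ * x), mul_inv_cancel_left] }
  have key : ∀ L : Subgroup X, (∀ g ∈ L, ∀ x, P x → P (g * x)) → L ≤ T := fun L hL g hg x =>
    ⟨hL g hg x, fun hx => by simpa using hL g⁻¹ (inv_mem hg) _ hx⟩
  have h1 : U ⊔ ⨆ i ∈ s, K i ≤ T := by
    refine sup_le (key _ ?_) (iSup₂_le fun i hi => key _ ?_)
    · rintro g hg _ ⟨a, ha, b, hb, rfl⟩
      exact ⟨g * a, mul_mem hg ha, b, hb, mul_assoc _ _ _⟩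
    · rintro g hg _ ⟨a, ha, b, hb, rfl⟩
      obtain ⟨a', ha', b', hb', e⟩ := h i hi (g * a) (mul_mem (mem_sup_right hg) (mem_sup_left ha))
      exact ⟨a', ha', b' * b, mul_mem ((le_iSup₂ (f := fun i (_ : i ∈ s) => K i) i hi) hb') hb,
        by rw [← mul_assoc, e, mul_assoc]⟩
  simpa using (h1 hg 1).1 ⟨1, one_mem _, 1, one_mem _, mul_one 1⟩

theorem card_iSup_le {ι : Type*} [DecidableEq ι] {K : ι → Subgroup X} (s : Finset ι)
    (h : ∀ i ∈ s, ∀ j ∈ s, i ≠ j → ∀ g ∈ K i ⊔ K j, ∃ a ∈ K i, ∃ b ∈ K j, a * b = g) :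
    Nat.card ↥(⨆ i ∈ s, K i) ≤ ∏ i ∈ s, Nat.card (K i) := by
  induction s using Finset.induction_on with
  | empty => simp
  | insert i s hi ih =>
    rw [Finset.prod_insert hi, Finset.iSup_insert]
    refine le_trans ?_ (Nat.mul_le_mul_left _ (ih fun a ha b hb =>
      h a (Finset.mem_insert_of_mem ha) b (Finset.mem_insert_of_mem hb)))
    rw [← Nat.card_prod]
    refine Nat.card_le_card_of_surjective (fun x : K i × ↥(⨆ i ∈ s, K i) =>
      (⟨x.1 * x.2, mul_mem (mem_sup_left x.1.2) (mem_sup_right x.2.2)⟩ : ↥(K i ⊔ ⨆ i ∈ s, K i)))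
      fun g => ?_
    obtain ⟨a, ha, b, hb, e⟩ := exists_mul_iSup s (fun j hj => h i (Finset.mem_insert_self _ _) j
      (Finset.mem_insert_of_mem hj) fun e => hi (e ▸ hj)) g.2
    exact ⟨(⟨a, ha⟩, ⟨b, hb⟩), Subtype.ext e⟩

theorem Hyp.false (h : Hyp r A G) : False := by
  have hex : ∀ p : ℕ, ∃ P : Subgroup X, p.Prime → IsSylowIn p P G ∧ A ≤ 𝐍(P) := fun p => by
    by_cases hp : p.Prime
    · have := Fact.mk hp
      obtain ⟨P, hP⟩ := exists_inv_sylow p h.norm h.cop (Or.inl h.solA)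
      exact ⟨P, fun _ => hP⟩
    · exact ⟨⊥, fun e => absurd e hp⟩
  choose S hS using hex
  set n := Nat.card G with hn
  have hn0 : n ≠ 0 := Nat.card_pos.ne'
  have hpi : ∀ p ∈ n.primeFactors, ∀ t ∈ n.primeFactors, p ≠ t →
      IsPiSubgroup {p, t} (S p ⊔ S t) := fun p hp t ht hne => by
    have := Fact.mk (Nat.prime_of_mem_primeFactors hp)
    have := Fact.mk (Nat.prime_of_mem_primeFactors ht)
    obtain ⟨a1, a2⟩ := hS p Fact.out
    obtain ⟨b1, b2⟩ := hS t Fact.out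
    exact h.perm hne a1 a2 b1 b2 (a1.ne_bot (Nat.dvd_of_mem_primeFactors hp))
      (b1.ne_bot (Nat.dvd_of_mem_primeFactors ht))
  have hmul : ∀ p ∈ n.primeFactors, ∀ t ∈ n.primeFactors, p ≠ t →
      ∀ g ∈ S p ⊔ S t, ∃ a ∈ S p, ∃ b ∈ S t, a * b = g := fun p hp t ht hne g hg => by
    have := Fact.mk (Nat.prime_of_mem_primeFactors hp)
    have := Fact.mk (Nat.prime_of_mem_primeFactors ht)
    exact exists_mul_of_pi (hS p Fact.out).1 (hS t Fact.out).1 hne (hpi p hp t ht hne) hg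
  have key : ∀ p ∈ n.primeFactors, ∀ t ∈ n.primeFactors, p ≠ t →
      pCoreOf t (S p ⊔ S t) = ⊥ := fun p hp t ht hne => by
    have hpp := Fact.mk (Nat.prime_of_mem_primeFactors hp)
    have := Fact.mk (Nat.prime_of_mem_primeFactors ht)
    obtain ⟨a1, a2⟩ := hS p Fact.out
    obtain ⟨b1, b2⟩ := hS t Fact.out
    have hD := (Iv.sup (A := A) ⟨a1.le, a2⟩ ⟨b1.le, b2⟩).pCoreOf t
    have hPD : S p ≤ 𝐍(pCoreOf t (S p ⊔ S t)) := le_sup_left.trans (H1.le_normalizer_pCoreOf _)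
    have hDS := h.le_syl b1 b2 hD (H1.pCoreOf_isPGroup _)
    set D := pCoreOf t (S p ⊔ S t)
    have hK := card_iSup_le (K := S) (n.primeFactors.erase p) fun i hi j hj =>
      hmul i (Finset.mem_of_mem_erase hi) j (Finset.mem_of_mem_erase hj)
    have hG : G ≤ S p ⊔ ⨆ i ∈ n.primeFactors.erase p, S i := le_of_forall_sylow fun q hq hd => by
      refine ⟨S q, (hS q hq.1).1, ?_⟩
      by_cases e : q = p
      · exact e ▸ le_sup_left
      · exact (le_iSup₂ (f := fun i (_ : i ∈ n.primeFactors.erase p) => S i) q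
          (Finset.mem_erase.2 ⟨e, Nat.mem_primeFactors.2 ⟨hq.1, hd, hn0⟩⟩)).trans le_sup_right
    have hDK : D ≤ ⨆ i ∈ n.primeFactors.erase p, S i := hDS.trans
      (le_iSup₂ (f := fun i (_ : i ∈ n.primeFactors.erase p) => S i) t
        (Finset.mem_erase.2 ⟨hne.symm, ht⟩))
    have hKG : ⨆ i ∈ n.primeFactors.erase p, S i ≤ G := iSup₂_le fun i hi =>
      (hS i (Nat.prime_of_mem_primeFactors (Finset.mem_of_mem_erase hi))).1.le
    have hm := fun g (hg : g ∈ G) => exists_mul_iSup _ (fun i hi =>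
      hmul p hp i (Finset.mem_of_mem_erase hi) (Finset.ne_of_mem_erase hi).symm) (hG hg)
    set K := ⨆ i ∈ n.primeFactors.erase p, S i
    have hc : conjClosure D (G ⊔ A) ≤ K := H1.conjClosure_le_iff.2 fun g hg => by
      obtain ⟨x, hx, a, ha, rfl⟩ := mem_sup_norm h.norm hg
      obtain ⟨u, hu, k, hk, e⟩ := hm x⁻¹ (inv_mem hx)
      rw [map_conj_mul, map_conj_eq_of_mem_normalizer (hD.n ha), ← inv_inv x, ← e, mul_inv_rev,
        map_conj_mul, map_conj_eq_of_mem_normalizer (hPD (inv_mem hu))]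
      exact cj_le_of_norm hDK (le_normalizer (inv_mem hk))
    have hn' := H1.le_normalizer_conjClosure D (G ⊔ A)
    rcases h.simple _ (hc.trans hKG) (le_sup_right.trans hn') (le_sup_left.trans hn') with e | e
    · exact le_bot_iff.1 (e ▸ H1.le_conjClosure D _)
    exfalso
    have h1 : n ≤ Nat.card K := card_le_of_le (e.ge.trans hc)
    have h2 : ∏ i ∈ n.primeFactors, Nat.card (S i) = n := by
      conv_rhs => rw [← Nat.prod_factorization_pow_eq_self hn0]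
      refine Finset.prod_congr rfl fun i hi => ?_
      have := Fact.mk (Nat.prime_of_mem_primeFactors hi)
      exact (hS i Fact.out).1.card_eq_ordProj
    rw [← Finset.mul_prod_erase _ _ hp] at h2
    have h3 : 1 < Nat.card (S p) := (one_lt_card_iff_ne_bot _).2
      (a1.ne_bot (Nat.dvd_of_mem_primeFactors hp))
    have : 0 < n := Nat.pos_of_ne_zero hn0
    nlinarith
  have h3 : 2 < n.primeFactors.card := lt_of_not_ge fun hc =>
    h.nsol (isSolvable_of_card_primeFactors_le_two hc)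
  obtain ⟨p, hp, t, ht, hne⟩ := Finset.one_lt_card.1 (lt_trans one_lt_two h3)
  have := Fact.mk (Nat.prime_of_mem_primeFactors hp)
  have := Fact.mk (Nat.prime_of_mem_primeFactors ht)
  have h1 := fit_le rfl (hpi p hp t ht hne) (key p hp t ht hne)
  have h2 := key t ht p hp hne.symm
  rw [sup_comm] at h2
  have h4 := H1.inf_centralizer_fittingOf_le
    (H1.layerIn_eq_bot_of_isSolvable (sol_of_pi rfl (hpi p hp t ht hne)))
  rw [le_bot_iff.1 (h1.trans h2.le), cent_bot, inf_top_eq] at h4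
  exact (hS p Fact.out).1.ne_bot (Nat.dvd_of_mem_primeFactors hp)
    (le_bot_iff.1 (le_sup_left.trans h4))

omit [Finite X] in
theorem Base.sub (h : Base r A G) {H : Subgroup X} (h1 : H ≤ G) (h2 : A ≤ 𝐍(H)) : Base r A H :=
  ⟨h.prime, h.elem, h.card, h2, h.cop' h1, fun a ha e =>
    h.ab' ha e (inf_le_left.trans h1) (inf_le_left.trans h1) inf_le_right inf_le_right⟩

omit [Finite X] in
theorem Base.subgroupOf (h : Base r A G) {L : Subgroup X} (h1 : A ≤ L) (h2 : G ≤ L) :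
    Base r (A.subgroupOf L) (G.subgroupOf L) := by
  refine ⟨h.prime, ⟨⟨⟨fun a b => Subtype.ext (Subtype.ext (h.le_cent b.2 _ a.2))⟩⟩,
    fun a ha => Subtype.ext (h.elem.2 _ ha)⟩, by rw [card_subgroupOf_of_le h1, h.card],
    fun a ha => mem_normalizer_iff.2 fun x => mem_normalizer_iff.1 (h.norm ha) x, ?_,
    fun a ha e x hx y hy => Subtype.ext ?_⟩
  · rw [card_subgroupOf_of_le h1, card_subgroupOf_of_le h2]
    exact h.cop
  · have key : ∀ z ∈ G.subgroupOf L ⊓ 𝐂[a], (z : X) ∈ G ⊓ 𝐂[(a : X)] := fun z hz =>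
      ⟨hz.1, mem_centralizer_singleton_iff.2
        (congrArg Subtype.val (mem_centralizer_singleton_iff.1 hz.2))⟩
    exact h.ab a ha (fun e' => e (Subtype.ext e')) (key x hx) y (key y hy)

theorem Base.map {Y : Type u} [Group Y] (h : Base r A G) (f : X →* Y) (hf : f.ker ≤ G) :
    Base r (A.map f) (G.map f) := by
  have hc : Nat.card (A.map f) = Nat.card A := by
    refine (Nat.card_congr (Equiv.ofBijective (f.subgroupMap A) ⟨?_, f.subgroupMap_surjective A⟩)).symm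
    refine (injective_iff_map_eq_one _).2 fun a ha => Subtype.ext ?_
    exact mem_bot.1 (inf_eq_bot_of_cop h.cop ▸
      (⟨a.2, hf (congrArg Subtype.val ha)⟩ : (a : X) ∈ A ⊓ G))
  refine ⟨h.prime, ⟨haveI := h.elem.1; inferInstance, ?_⟩, hc.trans h.card,
    H1.map_normalizer_le' h.norm f, ?_, ?_⟩
  · rintro _ ⟨a, ha, rfl⟩
    rw [← map_pow, h.elem.2 a ha, map_one]
  · rw [hc]
    exact h.cop.coprime_dvd_right (card_map_dvd _ f)
  · rintro _ ⟨a, ha, rfl⟩ e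
    have hz := zpowers_le_of_mem ha
    have := map_inf_centralizer_map f (hz.trans h.norm) (coprime_mono h.cop hz inf_le_left)
      (Or.inl isSolvable_of_isMulCommutative)
    rw [MonoidHom.map_zpowers, FT.centralizer_zpowers_eq, FT.centralizer_zpowers_eq] at this
    rw [this]
    rintro _ ⟨x, hx, rfl⟩ _ ⟨y, hy, rfl⟩
    rw [← map_mul, ← map_mul, h.ab a ha (fun e' => e (by rw [e', map_one])) hx y hy]

theorem solvable_aux (n : ℕ) : ∀ (X : Type u) [Group X] [Finite X] (A G : Subgroup X),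
    Nat.card G = n → Base r A G → Group.IsSolvable G := by
  induction n using Nat.strong_induction_on with
  | _ n ih =>
  intro X _ _ A G hn h
  by_contra hns
  have hsol : ∀ H ≤ G, H ≠ G → A ≤ 𝐍(H) → Group.IsSolvable H := fun H h1 h2 h3 =>
    ih _ (hn ▸ card_lt_card_of_lt (lt_of_le_of_ne h1 h2)) X A H rfl (h.sub h1 h3)
  have hsimple : ∀ N ≤ G, A ≤ 𝐍(N) → G ≤ 𝐍(N) → N = ⊥ ∨ N = G := fun N h1 h2 h3 => by
    by_contra hc
    push Not at hc
    have hN := hsol N h1 hc.2 h2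
    have := normal_subgroupOf_of_le_normalizer (le_refl 𝐍(N))
    have hb := (h.subgroupOf h2 h3).map (QuotientGroup.mk' (N.subgroupOf 𝐍(N)))
      (by rw [QuotientGroup.ker_mk']; exact comap_mono h1)
    have e := card_map_mk'_mul_card_inf (G.subgroupOf 𝐍(N)) (N.subgroupOf 𝐍(N))
    have hle : N.subgroupOf 𝐍(N) ≤ G.subgroupOf 𝐍(N) := comap_mono h1
    rw [inf_eq_left.2 hle, card_subgroupOf_of_le h3,
      card_subgroupOf_of_le le_normalizer] at e
    have h4 := (one_lt_card_iff_ne_bot _).2 hc.1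
    have hs := ih _ (by rw [← hn, ← e]; exact lt_mul_of_one_lt_right Nat.card_pos h4) _ _ _ rfl hb
    have hs2 := isSolvable_map (isSolvable_of_map_mk' (N := N.subgroupOf 𝐍(N))
      (isSolvable_comap_of_injective hN _ (subtype_injective _)) hs) 𝐍(N).subtype
    rw [H1.map_subtype_subgroupOf h3] at hs2
    exact hns hs2
  refine Hyp.false (r := r) ⟨h, ?_, hsimple, hsol, hns⟩
  have hc : G ≤ 𝐂(G ⊓ 𝐂(A)) := h.gen ⟨le_rfl, h.norm⟩ fun a ha e =>
    h.ab' ha e inf_le_left inf_le_left inf_le_right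
      (inf_le_right.trans (centralizer_le (Set.singleton_subset_iff.2 ha)))
  refine (hsimple _ inf_le_left (H1.le_normalizer_inf h.norm
    (H1.le_normalizer_centralizer le_normalizer)) (hc.trans (cent_le_norm _))).resolve_right
    fun e => hns ?_
  rw [e] at hc
  have := le_centralizer_iff_isMulCommutative.1 hc
  exact isSolvable_of_isMulCommutative

theorem Base.solvable (h : Base r A G) : Group.IsSolvable G := solvable_aux _ X A G rfl h

end CfsgLib.H8Mart
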