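import Mathlib

/-! Odd order automorphisms of doubly transitive groups. -/

set_option autoImplicit false

namespace CfsgLib.H8TwoTrans

open MulAction Matrix

theorem arith {n k a b N l : ℤ} {j : ℕ} (hn : 2 ≤ n) (hk1 : 1 ≤ k) (hkn : k ≤ n)
    (hcop : IsCoprime k n) (hl : 0 ≤ l) (h1 : a ^ 2 = N ^ (2 * j + 1))
    (h2 : k ^ (2 * j + 1) = a + b * n) (h3 : k ^ 2 = N + l * n) (h4 : k = N + l) :
    k = 1 ∨ k = n - 1 := by
  have hNn : IsCoprime N n := by
    have : IsCoprime (k ^ 2) n := hcop.pow_left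
    rw [h3] at this
    exact IsCoprime.of_add_mul_right_left this
  have hN0 : N ≠ 0 := by
    rintro rfl
    have := Int.isUnit_iff.mp (isCoprime_zero_left.mp hNn)
    omega
  have hkn' : k ≠ n := by
    rintro rfl
    have := Int.isUnit_iff.mp (isCoprime_self.mp hcop)
    omega
  obtain ⟨u, hu⟩ : N ^ j ∣ a := by
    rw [← Int.pow_dvd_pow_iff two_ne_zero, h1]
    exact ⟨N, by ring⟩
  have hNj : N ^ j ≠ 0 := pow_ne_zero _ hN0
  have hu2 : u ^ 2 = N := by
    have : (N ^ j) ^ 2 * u ^ 2 = (N ^ j) ^ 2 * N := by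
      rw [← mul_pow, ← hu, h1]; ring
    exact mul_left_cancel₀ (pow_ne_zero _ hNj) this
  have h5 : n ∣ (k - u) * N ^ j := by
    have h6 : n ∣ (k ^ 2) ^ j - N ^ j :=
      (show n ∣ k ^ 2 - N from ⟨l, by rw [h3]; ring⟩).trans (sub_dvd_pow_sub_pow _ _ _)
    have h7 : (k - u) * N ^ j = b * n - k * ((k ^ 2) ^ j - N ^ j) := by
      have : k * (k ^ 2) ^ j = N ^ j * u + b * n := by rw [← hu, ← h2]; ring
      linear_combination this
    rw [h7]
    exact dvd_sub (dvd_mul_left _ _) (h6.mul_left _)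
  obtain ⟨c, hc⟩ : n ∣ k - u := (hNn.pow_left (m := j)).symm.dvd_of_dvd_mul_right h5
  have h8 : u ≤ k ∧ -u ≤ k := by constructor <;> nlinarith [sq_nonneg (u - 1), sq_nonneg (u + 1)]
  have hc0 : 0 ≤ c := by nlinarith
  have hc2 : c < 2 := by
    by_contra h9
    have : k < n := lt_of_le_of_ne hkn hkn'
    nlinarith
  obtain rfl | rfl : c = 0 ∨ c = 1 := by omega
  · left
    have : u = k := by linarith
    subst this
    nlinarith
  · right
    have hu' : u = k - n := by linarith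
    subst hu'
    have h9 : (n - k) * (n * (n - k - 1)) = 0 := by
      have : N = k - l := by linarith
      subst this
      linear_combination (n - 1) * hu2 + h3
    rcases mul_eq_zero.mp h9 with h | h
    · omega
    · rcases mul_eq_zero.mp h with h | h <;> omega

variable {G Ω : Type*} [Group G] [MulAction G Ω] [Fintype Ω] [DecidableEq Ω]

/-- the all-one matrix -/
def J (Ω : Type*) : Matrix Ω Ω ℤ := Matrix.of fun _ _ => 1

theorem comb_apply (a b : ℤ) (x y : Ω) :
    (a • (1 : Matrix Ω Ω ℤ) + b • J Ω) x y = (if x = y then a else 0) + b := by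
  rw [Matrix.add_apply, Matrix.smul_apply, Matrix.smul_apply, one_apply]
  simp [J]

theorem exists_eq_of_invariant (h2 : IsMultiplyPretransitive G Ω 2) (B : Matrix Ω Ω ℤ)
    (hB : ∀ (g : G) x y, B (g • x) (g • y) = B x y) {x0 y0 : Ω} (h0 : x0 ≠ y0) :
    B = (B x0 x0 - B x0 y0) • (1 : Matrix Ω Ω ℤ) + B x0 y0 • J Ω := by
  have h1 : IsPretransitive G Ω := isPretransitive_of_is_two_pretransitive
  ext x y
  rw [comb_apply]
  by_cases h : x = y
  · subst h
    obtain ⟨g, rfl⟩ := exists_smul_eq G x0 x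
    simp [hB]
  · obtain ⟨g, rfl, rfl⟩ := is_two_pretransitive_iff.mp h2 h0 h
    simp [hB, h0]

theorem card_orbit (h2 : IsMultiplyPretransitive G Ω 2) (o : Ω) (α : MulAut G)
    (hα : Odd (orderOf α)) (ω : Ω)
    (hk : (Nat.card (orbit ((stabilizer G o).map α.toMonoidHom) ω)).Coprime (Fintype.card Ω)) :
    Nat.card (orbit ((stabilizer G o).map α.toMonoidHom) ω) = 1 ∨
      Nat.card (orbit ((stabilizer G o).map α.toMonoidHom) ω) = Fintype.card Ω - 1 := by
  classical
  have h1 : IsPretransitive G Ω := isPretransitive_of_is_two_pretransitive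
  set k := Nat.card (orbit ((stabilizer G o).map α.toMonoidHom) ω) with hkdef
  have hne : Nonempty (orbit ((stabilizer G o).map α.toMonoidHom) ω) := ⟨⟨ω, mem_orbit_self ω⟩⟩
  have hkpos : 0 < k := Nat.card_pos
  have hkle : k ≤ Fintype.card Ω := by
    rw [← Nat.card_eq_fintype_card]
    exact Nat.card_le_card_of_injective _ Subtype.val_injective
  rcases subsingleton_or_nontrivial Ω with hs | hs
  · have := Fintype.card_le_one_iff_subsingleton.mpr hs
    omega
  have hn2 : 2 ≤ Fintype.card Ω := Fintype.one_lt_card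
  obtain ⟨o', ho'⟩ := exists_ne o
  let R : Ω → Ω → Prop := fun x y => ∃ g : G, g • o = y ∧ α g • ω = x
  have hR : ∀ (g : G) x y, R (α g • x) (g • y) ↔ R x y := by
    intro g x y
    constructor
    · rintro ⟨h, h3, h4⟩
      exact ⟨g⁻¹ * h, by rw [mul_smul, h3, inv_smul_smul],
        by rw [map_mul, mul_smul, h4, map_inv, inv_smul_smul]⟩
    · rintro ⟨h, rfl, rfl⟩
      exact ⟨g * h, by rw [mul_smul], by rw [map_mul, mul_smul]⟩
  let A : Matrix Ω Ω ℤ := Matrix.of fun x y => if R x y then 1 else 0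
  have hA : ∀ (g : G) x y, A (α g • x) (g • y) = A x y := fun g x y => by simp [A, hR]
  have hcol0 : ∑ x, A x o = k := by
    simp only [A, of_apply, Finset.sum_boole]
    congr 1
    rw [hkdef, ← Fintype.card_subtype, ← Nat.card_eq_fintype_card]
    refine Nat.card_congr (Equiv.subtypeEquivRight fun x => ⟨?_, ?_⟩)
    · rintro ⟨g, h3, rfl⟩
      exact ⟨⟨α g, g, h3, rfl⟩, rfl⟩
    · rintro ⟨⟨_, g, h3, rfl⟩, rfl⟩
      exact ⟨g, h3, rfl⟩
  have hcol : ∀ y, ∑ x, A x y = k := by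
    intro y
    obtain ⟨g, rfl⟩ := exists_smul_eq G o y
    rw [← hcol0, ← Equiv.sum_comp (MulAction.toPerm (α g))]
    exact Finset.sum_congr rfl fun x _ => hA g x o
  have hrow0 : ∀ x, ∑ y, A x y = ∑ y, A o y := by
    intro x
    obtain ⟨g, rfl⟩ := exists_smul_eq G o x
    obtain ⟨g, rfl⟩ := α.surjective g
    rw [← Equiv.sum_comp (MulAction.toPerm g)]
    exact Finset.sum_congr rfl fun y _ => hA g o y
  have hrow : ∀ x, ∑ y, A x y = k := by
    intro x
    have h3 : ∑ x, ∑ y, A x y = ∑ y, ∑ x, A x y := Finset.sum_comm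
    simp only [hrow0, hcol, Finset.sum_const, Finset.card_univ, nsmul_eq_mul] at h3
    rw [hrow0]
    exact mul_left_cancel₀ (by positivity) h3
  have hAJ : A * J Ω = (k : ℤ) • J Ω := by ext x y; simp [mul_apply, J, hrow]
  have hJA : J Ω * A = (k : ℤ) • J Ω := by ext x y; simp [mul_apply, J, hcol]
  have hAtJ : Aᵀ * J Ω = (k : ℤ) • J Ω := by ext x y; simp [mul_apply, J, hcol]
  have hJJ : J Ω * J Ω = (Fintype.card Ω : ℤ) • J Ω := by ext x y; simp [mul_apply, J]
  have hJt : (J Ω)ᵀ = J Ω := rfl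
  have hpow : ∀ (j : ℕ) (g : G) x y, (A ^ j) ((α ^ j) g • x) (g • y) = (A ^ j) x y := by
    intro j
    induction j with
    | zero => intro g x y; simp [one_apply]
    | succ j ih =>
      intro g x y
      rw [pow_succ' A, mul_apply, mul_apply, ← Equiv.sum_comp (MulAction.toPerm ((α ^ j) g))]
      refine Finset.sum_congr rfl fun z _ => ?_
      rw [pow_succ' α, MulAut.mul_apply, toPerm_apply, hA, ih]
  obtain ⟨j, hj⟩ := hα
  obtain ⟨a, b, hB⟩ : ∃ a b : ℤ, A ^ (2 * j + 1) = a • (1 : Matrix Ω Ω ℤ) + b • J Ω :=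
    ⟨_, _, exists_eq_of_invariant h2 _ (fun g x y => by
      have := hpow (2 * j + 1) g x y
      rwa [← hj, pow_orderOf_eq_one, MulAut.one_apply, hj] at this) ho'.symm⟩
  have hC := exists_eq_of_invariant h2 (Aᵀ * A) (fun g x y => by
    rw [mul_apply, mul_apply, ← Equiv.sum_comp (MulAction.toPerm (α g))]
    exact Finset.sum_congr rfl fun z _ => by simp [hA]) ho'.symm
  have hl : 0 ≤ (Aᵀ * A) o o' := by
    rw [mul_apply]
    exact Finset.sum_nonneg fun z _ => by
      simp only [A, transpose_apply, of_apply]; split_ifs <;> simp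
  have hd : (Aᵀ * A) o o = k := by
    rw [mul_apply, ← hcol0]
    exact Finset.sum_congr rfl fun z _ => by
      simp only [A, transpose_apply, of_apply]; split_ifs <;> simp
  obtain ⟨l, hl'⟩ : ∃ l, l = (Aᵀ * A) o o' := ⟨_, rfl⟩
  rw [← hl', hd] at hC
  rw [← hl'] at hl
  have hinj : ∀ a b a' b' : ℤ, a • (1 : Matrix Ω Ω ℤ) + b • J Ω = a' • 1 + b' • J Ω → a = a' := by
    intro a b a' b' h
    have h3 := congrFun (congrFun h o) o
    have h4 := congrFun (congrFun h o) o'
    simp only [comb_apply, if_true, ho'.symm, if_false] at h3 h4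
    linarith
  have hinjJ : ∀ b b' : ℤ, b • J Ω = b' • J Ω → b = b' := by
    intro b b' h
    simpa [J] using congrFun (congrFun h o) o
  have hCj : ∀ i : ℕ, ∃ c : ℤ, (A ^ i)ᵀ * A ^ i = (k - l) ^ i • (1 : Matrix Ω Ω ℤ) + c • J Ω := by
    intro i
    induction i with
    | zero => exact ⟨0, by simp⟩
    | succ i ih =>
      obtain ⟨c, hc⟩ := ih
      refine ⟨(k - l) ^ i * l + c * k * k, ?_⟩
      rw [pow_succ A, transpose_mul, Matrix.mul_assoc, ← Matrix.mul_assoc (A ^ i)ᵀ, hc,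
        Matrix.add_mul, Matrix.smul_mul, Matrix.smul_mul, Matrix.one_mul, hJA, Matrix.mul_add,
        Matrix.mul_smul, Matrix.mul_smul, Matrix.mul_smul, hAtJ, hC]
      module
  have hpJ : ∀ i : ℕ, A ^ i * J Ω = ((k : ℤ) ^ i) • J Ω := by
    intro i
    induction i with
    | zero => simp
    | succ i ih => rw [pow_succ A, Matrix.mul_assoc, hAJ, Matrix.mul_smul, ih, smul_smul, pow_succ']
  have e1 : a ^ 2 = (k - l) ^ (2 * j + 1) := by
    obtain ⟨c, hc⟩ := hCj (2 * j + 1)
    refine hinj _ (2 * a * b + b * b * Fintype.card Ω) _ c ?_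
    rw [← hc, hB]
    simp only [transpose_add, transpose_smul, transpose_one, hJt, Matrix.add_mul, Matrix.mul_add,
      Matrix.smul_mul, Matrix.mul_smul, Matrix.one_mul, Matrix.mul_one, hJJ]
    module
  have e2 : (k : ℤ) ^ (2 * j + 1) = a + b * Fintype.card Ω := by
    refine hinjJ _ _ ?_
    rw [← hpJ, hB, Matrix.add_mul, Matrix.smul_mul, Matrix.smul_mul, Matrix.one_mul, hJJ,
      smul_smul, add_smul]
  have e3 : (k : ℤ) ^ 2 = (k - l) + l * Fintype.card Ω := by
    refine hinjJ _ _ ?_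
    have : Aᵀ * A * J Ω = ((k : ℤ) ^ 2) • J Ω := by
      rw [Matrix.mul_assoc, hAJ, Matrix.mul_smul, hAtJ, smul_smul, sq]
    rw [← this, hC, Matrix.add_mul, Matrix.smul_mul, Matrix.smul_mul, Matrix.one_mul, hJJ,
      smul_smul, add_smul]
  have := arith (n := Fintype.card Ω) (k := k) (by exact_mod_cast hn2) (by exact_mod_cast hkpos)
    (by exact_mod_cast hkle) (Nat.isCoprime_iff_coprime.mpr hk) hl e1 e2 e3 (by ring)
  omega

omit [DecidableEq Ω] in
theorem exists_perm [Finite G] (h2 : IsMultiplyPretransitive G Ω 2) (o : Ω) (α : MulAut G)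
    (hα : Odd (orderOf α)) (ω : Ω)
    (hk : (Nat.card (orbit ((stabilizer G o).map α.toMonoidHom) ω)).Coprime (Fintype.card Ω)) :
    ∃ σ : Equiv.Perm Ω, ∀ (g : G) x, σ (g • x) = α g • σ x := by
  classical
  have h1 : IsPretransitive G Ω := isPretransitive_of_is_two_pretransitive
  obtain ⟨y, hy⟩ : ∃ y : Ω, ∀ h ∈ stabilizer G o, α h • y = y := by
    rcases card_orbit h2 o α hα ω hk with h | h
    · refine ⟨ω, fun g hg => ?_⟩
      have := (Nat.card_eq_one_iff_unique.mp h).1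
      exact congrArg Subtype.val (this.elim
        (⟨_, mem_orbit ω (⟨α g, g, hg, rfl⟩ : (stabilizer G o).map α.toMonoidHom)⟩ :
          orbit ((stabilizer G o).map α.toMonoidHom) ω) ⟨ω, mem_orbit_self ω⟩)
    · have h3 : (orbit ((stabilizer G o).map α.toMonoidHom) ω)ᶜ.ncard = 1 := by
        have := Set.ncard_add_ncard_compl (orbit ((stabilizer G o).map α.toMonoidHom) ω)
        rw [← Nat.card_coe_set_eq, h, Nat.card_eq_fintype_card] at this
        have : 0 < Fintype.card Ω := Fintype.card_pos_iff.mpr ⟨o⟩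
        omega
      obtain ⟨y, hy⟩ := Set.ncard_eq_one.mp h3
      refine ⟨y, fun g hg => ?_⟩
      have h4 : y ∈ (orbit ((stabilizer G o).map α.toMonoidHom) ω)ᶜ := hy ▸ rfl
      have h5 : α g • y ∈ (orbit ((stabilizer G o).map α.toMonoidHom) ω)ᶜ := fun h5 => h4 (by
        have := mem_orbit_of_mem_orbit
          (⟨α g, g, hg, rfl⟩ : (stabilizer G o).map α.toMonoidHom)⁻¹ h5
        have h6 : (⟨α g, g, hg, rfl⟩ : (stabilizer G o).map α.toMonoidHom)⁻¹ • α g • y = y :=
          inv_smul_smul (α g) y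
        rwa [h6] at this)
      rwa [hy] at h5
  choose t ht using fun x => exists_smul_eq G o x
  have key : ∀ g : G, α (t (g • o)) • y = α g • y := fun g => by
    have := hy (g⁻¹ * t (g • o)) (by rw [mem_stabilizer_iff, mul_smul, ht, inv_smul_smul])
    rwa [map_mul, map_inv, mul_smul, inv_smul_eq_iff] at this
  have hf : ∀ (g : G) x, α (t (g • x)) • y = α g • α (t x) • y := fun g x => by
    conv_lhs => rw [← ht x, ← mul_smul g, key, map_mul, mul_smul]
  have hs : Function.Surjective fun x => α (t x) • y := fun z => by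
    obtain ⟨g, rfl⟩ := exists_smul_eq G y z
    obtain ⟨g, rfl⟩ := α.surjective g
    exact ⟨g • o, key g⟩
  exact ⟨Equiv.ofBijective _ ⟨Finite.injective_iff_surjective.mpr hs, hs⟩, hf⟩

theorem conj_of_equivariant {Ω : Type*} (G : Subgroup (Equiv.Perm Ω)) (α : MulAut G)
    (σ : Equiv.Perm Ω) (h : ∀ (g : G) x, σ (g • x) = α g • σ x) :
    σ ∈ Subgroup.normalizer (G : Set (Equiv.Perm Ω)) ∧
      ∀ g : G, ((α g : G) : Equiv.Perm Ω) = σ * (g : Equiv.Perm Ω) * σ⁻¹ := by
  have h1 : ∀ g : G, ((α g : G) : Equiv.Perm Ω) = σ * (g : Equiv.Perm Ω) * σ⁻¹ := fun g => by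
    ext x
    simpa [Subgroup.smul_def] using (h g (σ⁻¹ x)).symm
  refine ⟨Subgroup.mem_normalizer_iff.mpr fun g => ⟨fun hg => h1 ⟨g, hg⟩ ▸ (α ⟨g, hg⟩).2,
    fun hg => ?_⟩, h1⟩
  have h2 := h1 (α.symm ⟨_, hg⟩)
  rw [MulEquiv.apply_symm_apply] at h2
  have : g = (α.symm ⟨_, hg⟩ : G) := by simpa using h2
  exact this ▸ (α.symm ⟨_, hg⟩).2

end CfsgLib.H8TwoTrans
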