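import Cfsg.Agent.Lib.CoprimeGen
import Cfsg.Agent.Lib.CoprimeAut
import Mathlib.GroupTheory.Schreier
import Mathlib.GroupTheory.Transfer

/-! Coprime action of an abelian group of rank at least three: bounds for the derived subgroup. -/

set_option autoImplicit false

namespace CfsgLib.LdRk3

open Subgroup Cfsg CfsgLib.Cop
open scoped commutatorElement IsMulCommutative

variable {X : Type*} [Group X] [Finite X]

/-- `B` is a subgroup of `A` with cyclic quotient. -/
def Coc (A B : Subgroup X) : Prop := B ≤ A ∧ ∃ a ∈ A, B ⊔ zpowers a = A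

open Classical in
theorem card_le_prod {A : Subgroup X} (hA : IsMulCommutative A) (s : Finset (Subgroup X))
    (hs : ∀ B, Coc A B → B ∈ s) (H : Subgroup X) : A ≤ normalizer (H : Set X) →
    (Nat.card A).Coprime (Nat.card H) → Group.IsSolvable H →
    Nat.card H ≤ ∏ B ∈ s, Nat.card ↥(H ⊓ centralizer (B : Set X)) := by
  induction H using WellFoundedLT.induction with | _ H ih =>
  intro hAH hcop hsol
  by_cases hH : H = ⊥
  · subst hH
    simp
  have h1 : ⁅H, H⁆ < H := by
    have := (nontrivial_iff_ne_bot H).2 hH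
    have h1 : _root_.commutator H < ⊤ := Group.IsSolvable.commutator_lt_top_of_nontrivial H
    refine lt_of_le_of_ne (commutator_le_self H) fun h => h1.ne ?_
    apply map_injective H.subtype_injective
    rw [map_subtype_commutator, h, ← MonoidHom.range_eq_map, range_subtype]
  obtain ⟨N, ⟨h2, h3, h4⟩, hmax⟩ := exists_maximal_of_wellFoundedGT
    (fun N : Subgroup X => ⁅H, H⁆ ≤ N ∧ N < H ∧ A ≤ normalizer (N : Set X))
    ⟨_, le_rfl, h1, le_normalizer_commutator hAH hAH⟩
  obtain ⟨B, hB1, hB2, hB3⟩ := exists_cocyclic_commutator_le hA hAH h4 h3 h2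
    fun W h5 h6 h7 => by
      rcases h6.lt_or_eq with h8 | h8
      · exact Or.inl (le_antisymm (hmax ⟨h2.trans h5, h8, h7⟩ h5) h5)
      · exact Or.inr h8
  have h5 : (Nat.card A).Coprime (Nat.card N) := hcop.coprime_dvd_right (card_dvd_of_le h3.le)
  have h6 : Group.IsSolvable N := solvable_of_le hsol h3.le
  have h7 := sup_centralizer_eq_of_commutator_le h3.le hB3
    (h5.coprime_dvd_left (card_dvd_of_le hB1)) (Or.inr h6)
  have h8 := ih N h3 h4 h5 h6
  have h9 : Nat.card H * Nat.card ↥(N ⊓ centralizer (B : Set X)) =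
      Nat.card N * Nat.card ↥(H ⊓ centralizer (B : Set X)) := by
    have e : N ⊓ centralizer (B : Set X) = N ⊓ (H ⊓ centralizer (B : Set X)) := by
      rw [← inf_assoc, inf_eq_left.2 h3.le]
    have := card_sup_mul_card_inf (N := N) (H := H ⊓ centralizer (B : Set X))
      (inf_le_left.trans (le_normalizer_of_commutator_le (G := H) h2 h3.le))
    rw [sup_comm, h7, inf_comm, ← e] at this
    rw [this, mul_comm]
  have hBs := hs B ⟨hB1, hB2⟩
  rw [← Finset.mul_prod_erase _ _ hBs] at h8 ⊢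
  have h10 : ∏ B' ∈ s.erase B, Nat.card ↥(N ⊓ centralizer (B' : Set X)) ≤
      ∏ B' ∈ s.erase B, Nat.card ↥(H ⊓ centralizer (B' : Set X)) :=
    Finset.prod_le_prod' fun B' _ => card_le_of_le (inf_le_inf_right _ h3.le)
  refine Nat.le_of_mul_le_mul_right ?_
    (Nat.card_pos (α := ↥(N ⊓ centralizer (B : Set X))))
  rw [h9]
  calc _ ≤ (Nat.card ↥(N ⊓ centralizer (B : Set X)) *
        ∏ B' ∈ s.erase B, Nat.card ↥(H ⊓ centralizer (B' : Set X))) *
        Nat.card ↥(H ⊓ centralizer (B : Set X)) :=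
        Nat.mul_le_mul_right _ (h8.trans (Nat.mul_le_mul_left _ h10))
    _ = _ := by ring

theorem ncard_coc (A : Subgroup X) : {B | Coc A B}.ncard ≤ 2 ^ Nat.card A := by
  have := Fintype.ofFinite A
  rw [Nat.card_eq_fintype_card, ← Fintype.card_set, ← Nat.card_eq_fintype_card, ← Set.ncard_univ]
  refine Set.ncard_le_ncard_of_injOn (fun B => (B.subgroupOf A : Set A)) (fun _ _ => trivial)
    fun B hB C hC e => ?_
  have := subgroupOf_inj.1 (SetLike.coe_injective e)
  rwa [inf_eq_left.2 hB.1, inf_eq_left.2 hC.1] at this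

theorem card_dvd_fact {A G : Subgroup X} (hA : IsMulCommutative A)
    (hAG : A ≤ normalizer (G : Set X)) (hcop : (Nat.card A).Coprime (Nat.card G)) {M n : ℕ}
    (hn : Nat.card A ≤ n) (hM : ∀ B, Coc A B → Nat.card ↥(G ⊓ centralizer (B : Set X)) ≤ M) :
    Nat.card G ∣ (M ^ 2 ^ n).factorial := by
  refine (Nat.dvd_iff_prime_pow_dvd_dvd _ _).2 fun p k hp hk => ?_
  have : Fact p.Prime := ⟨hp⟩
  obtain ⟨P, hP, hAP⟩ := exists_invariant_sylowOf p hAG hcop (Or.inl isSolvable_of_isMulCommutative)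
  have h1 := card_le_prod hA (Set.toFinite {B | Coc A B}).toFinset (fun B hB => by simpa using hB)
    P hAP (hcop.coprime_dvd_right (card_dvd_of_le hP.1))
    (solvable_of_isPGroup (isPGroup_of_isPiHallOf hP))
  have h2 := Finset.prod_le_pow_card (Set.toFinite {B | Coc A B}).toFinset
    (fun B => Nat.card ↥(P ⊓ centralizer (B : Set X))) M fun B hB =>
      (card_le_of_le (inf_le_inf_right _ hP.1)).trans (hM B (by simpa using hB))
  have h3 : 0 < M := Nat.card_pos.trans_le (hM A ⟨le_rfl, 1, one_mem _, by simp⟩)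
  rw [← Set.ncard_eq_toFinset_card _ (Set.toFinite _)] at h2
  refine Nat.dvd_factorial (pow_pos hp.pos _) (le_trans ?_ (h1.trans (h2.trans
    (Nat.pow_le_pow_right h3 ((ncard_coc A).trans (Nat.pow_le_pow_right two_pos hn))))))
  rw [← card_inf_mul_relIndex P G, inf_eq_left.2 hP.1] at hk
  exact Nat.le_of_dvd Nat.card_pos (Nat.Coprime.dvd_of_dvd_mul_right
    ((hp.coprime_iff_not_dvd.2 (isPiHallOf_singleton_iff.1 hP).2.2).pow_left k) hk)

theorem card_le_of_gen {S : Set X} (hS : closure S = ⊤) {N e n : ℕ} (hN : S.ncard ≤ N)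
    (he : 0 < e) (h : ∀ s ∈ S, s ^ e = 1) (hn : (center X).index ≤ n) :
    Nat.card X ≤ (n * e) ^ (n * N) * n := by
  have h1 : ∀ x : X, MonoidHom.transferCenterPow X x ^ e = 1 := fun x => by
    have hx : x ∈ closure S := hS ▸ mem_top x
    induction hx using closure_induction with
    | mem x hx => rw [← map_pow, h x hx, map_one]
    | one => simp
    | mul x y _ _ a b => rw [map_mul, mul_pow, a, b, one_mul]
    | inv x _ a => rw [map_inv, inv_pow, a, inv_one]
  have h2 : Nat.card (center X) ∣ ((center X).index * e) ^ Group.rank (center X) :=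
    card_dvd_exponent_pow_rank' _ fun z => Subtype.ext (by
      have := congrArg Subtype.val (h1 z)
      rw [coe_pow, MonoidHom.transferCenterPow_apply, ← pow_mul] at this
      simpa using this)
  have h3 : Group.rank X ≤ N := by
    refine (Group.rank_le (S := (Set.toFinite S).toFinset) (by simpa using hS)).trans ?_
    rwa [← Set.ncard_eq_toFinset_card _ (Set.toFinite _)]
  have h4 := rank_le_index_mul_rank (center X)
  have h5 : 0 < (center X).index := Nat.pos_of_ne_zero FiniteIndex.index_ne_zero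
  rw [← card_mul_index (center X)]
  refine Nat.mul_le_mul ((Nat.le_of_dvd (by positivity) h2).trans ?_) hn
  exact (Nat.pow_le_pow_left (Nat.mul_le_mul_right _ hn) _).trans (Nat.pow_le_pow_right
    (Nat.mul_pos (h5.trans_le hn) he) (h4.trans (Nat.mul_le_mul hn h3)))

/-- the index of a centralizer is at most the number of commutators -/
theorem relIndex_cent_le {K D : Subgroup X} {s : X} (h : ∀ y ∈ K, ⁅y, s⁆ ∈ D) :
    (centralizer {s}).relIndex K ≤ Nat.card D := by
  refine Nat.card_le_card_of_injective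
    (fun q : K ⧸ (centralizer {s}).subgroupOf K => (⟨⁅(q.out : X), s⁆, h _ q.out.2⟩ : D))
    fun a b e => ?_
  have := congrArg Subtype.val e
  simp only [commutatorElement_def, mul_left_inj] at this
  rw [← a.out_eq, ← b.out_eq]
  refine QuotientGroup.eq.2 (mem_subgroupOf.2 (mem_centralizer_singleton_iff.2 ?_))
  generalize a.out = x, b.out = y at this
  rw [coe_mul, coe_inv]
  calc (x : X)⁻¹ * y * s = (x : X)⁻¹ * (y * s * (y : X)⁻¹) * y := by group
    _ = _ := by rw [← this]; group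

theorem card_map_dvd_fact {Y : Type*} [Group Y] [Finite Y] (f : X →* Y) {A G : Subgroup X}
    (hA : IsMulCommutative A) (hAG : A ≤ normalizer (G : Set X))
    (hcop : (Nat.card A).Coprime (Nat.card G)) {M : ℕ}
    (hM : ∀ B, Coc A B → f.ker.relIndex (G ⊓ centralizer (B : Set X)) ≤ M) :
    Nat.card (G.map f) ∣ (M ^ 2 ^ Nat.card A).factorial := by
  refine card_dvd_fact (A := A.map f) inferInstance ((map_mono hAG).trans (le_normalizer_map f))
    ((hcop.coprime_dvd_left (card_map_dvd _ f)).coprime_dvd_right (card_map_dvd _ f))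
    (Nat.le_of_dvd Nat.card_pos (card_map_dvd _ f)) fun B ⟨h1, _, ⟨a, ha, rfl⟩, h2⟩ => ?_
  have h3 : (B.comap f ⊓ A).map f = B := le_antisymm (map_le_iff_le_comap.2 inf_le_left)
    fun b hb => by
      obtain ⟨c, hc, rfl⟩ := h1 hb
      exact ⟨c, ⟨hb, hc⟩, rfl⟩
  rw [← h3, map_inf_centralizer_map f (inf_le_right.trans hAG) ((hcop.coprime_dvd_left
    (card_dvd_of_le inf_le_right)).coprime_dvd_right (card_dvd_of_le inf_le_left))
    (Or.inl (solvable_of_le isSolvable_of_isMulCommutative (inf_le_right : _ ≤ A))),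
    ← relIndex_ker]
  refine hM _ ⟨inf_le_right, a, ha, le_antisymm (sup_le inf_le_right (zpowers_le.2 ha))
    fun c hc => ?_⟩
  have h4 : f c ∈ (B.comap f ⊓ A ⊔ zpowers a).map f := by
    rw [Subgroup.map_sup, h3, MonoidHom.map_zpowers, h2]
    exact ⟨c, hc, rfl⟩
  obtain ⟨d, hd, e⟩ := h4
  have h5 : d ∈ A := (sup_le inf_le_right (zpowers_le.2 ha) : _ ≤ A) hd
  rw [← mul_inv_cancel_left d c]
  refine mul_mem hd (mem_sup_left (mem_inf.2 ⟨?_, mul_mem (inv_mem h5) hc⟩))
  simp [e]

/-- the bound -/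
def bd (a m : ℕ) : ℕ :=
  (((m ^ (a * m)) ^ 2 ^ a).factorial * m.factorial) ^ (((m ^ (a * m)) ^ 2 ^ a).factorial * (a * m)) *
    ((m ^ (a * m)) ^ 2 ^ a).factorial

theorem main {A G : Subgroup X} [G.Normal] (hA : IsMulCommutative A) (hT : G ⊔ A = ⊤)
    (hcop : (Nat.card A).Coprime (Nat.card G))
    (h2 : ∀ B C, Coc A B → Coc A C → ∃ b ∈ B, b ∈ C ∧ b ≠ 1) {m : ℕ}
    (hm : ∀ a ∈ A, a ≠ 1 → Nat.card ↥⁅G ⊓ centralizer {a}, G ⊓ centralizer {a}⁆ ≤ m) :
    Nat.card ↥⁅G, G⁆ ≤ bd (Nat.card A) m := by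
  have hAG : A ≤ normalizer (G : Set X) := le_normalizer_of_normal
  let S : Set X := {s | (∃ a ∈ A, a ≠ 1 ∧ s ∈ ⁅G ⊓ centralizer {a}, G ⊓ centralizer {a}⁆) ∧
    ∃ B, Coc A B ∧ s ∈ centralizer (B : Set X)}
  have hSG : ∀ s ∈ S, s ∈ G := fun s ⟨⟨a, _, _, h⟩, _⟩ => (commutator_le_self _ h).1
  have hAa : ∀ a ∈ A, A ≤ normalizer ((G ⊓ centralizer {a} : Subgroup X) : Set X) := fun a ha =>
    fun b hb => mem_normalizer_fintype fun x hx => ⟨‹G.Normal›.conj_mem _ hx.1 _, by
      have e := congrArg Subtype.val (hA.is_comm.comm ⟨a, ha⟩ ⟨b, hb⟩)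
      have e' := mem_centralizer_singleton_iff.1 hx.2
      simp only [coe_mul] at e
      refine mem_centralizer_singleton_iff.2 ?_
      calc b * x * b⁻¹ * a = b * x * b⁻¹ * (a * b) * b⁻¹ := by group
        _ = b * (x * a) * b⁻¹ := by rw [e]; group
        _ = b * a * x * b⁻¹ := by rw [e']; group
        _ = _ := by rw [← e]; group⟩
  have h3 : ∀ a ∈ A, a ≠ 1 → ⁅G ⊓ centralizer {a}, G ⊓ centralizer {a}⁆ ≤ closure S :=
    fun a ha h1 => le_of_cocyclic_centralizer_le hA (le_normalizer_commutator (hAa a ha) (hAa a ha))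
      (hcop.coprime_dvd_right (card_dvd_of_le ((commutator_le_self _).trans inf_le_left)))
      fun B e1 e2 s hs => subset_closure ⟨⟨a, ha, h1, hs.1⟩, B, ⟨e1, e2⟩, hs.2⟩
  have h4 : ∀ B C, Coc A B → Coc A C → ∃ b ∈ A, b ≠ 1 ∧ ∀ x ∈ G ⊓ centralizer (B : Set X),
      ∀ y ∈ G ⊓ centralizer (C : Set X), ⁅x, y⁆ ∈ ⁅G ⊓ centralizer {b}, G ⊓ centralizer {b}⁆ :=
    fun B C hB hC => by
      obtain ⟨b, e1, e2, e3⟩ := h2 B C hB hC
      exact ⟨b, hB.1 e1, e3, fun x hx y hy => commutator_mem_commutator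
        ⟨hx.1, centralizer_le (Set.singleton_subset_iff.2 e1) hx.2⟩
        ⟨hy.1, centralizer_le (Set.singleton_subset_iff.2 e2) hy.2⟩⟩
  have h5 : (closure S).Normal := by
    refine normalizer_eq_top_iff.1 (top_le_iff.1 (hT ▸ sup_le ?_ ?_))
    · refine le_of_cocyclic_centralizer_le hA hAG hcop fun B e1 e2 =>
        le_normalizer_closure_iff.2 fun y hy s hs => ?_
      obtain ⟨C, hC, e3⟩ := hs.2
      obtain ⟨b, e4, e5, e6⟩ := h4 B C ⟨e1, e2⟩ hC
      have := mul_mem (h3 b e4 e5 (e6 y hy s ⟨hSG s hs, e3⟩)) (subset_closure hs)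
      rwa [commutatorElement_def, inv_mul_cancel_right] at this
    · refine le_normalizer_closure_iff.2 fun y hy s ⟨⟨a, e1, e2, e3⟩, _⟩ => h3 a e1 e2 ?_
      exact conj_mem_of_le_normalizer (le_normalizer_commutator (hAa a e1) (hAa a e1)) hy e3
  have h6 : ⁅G, G⁆ ≤ closure S := by
    have key : ∀ x : X, (∀ B, Coc A B → ∀ y ∈ G ⊓ centralizer (B : Set X), ⁅x, y⁆ ∈ closure S) →
        ∀ y ∈ G, ⁅y, x⁆ ∈ closure S := fun x hx y hy => by
      have e : ∀ y, y ∈ (centralizer {QuotientGroup.mk' (closure S) x}).comap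
          (QuotientGroup.mk' (closure S)) ↔ ⁅y, x⁆ ∈ closure S := fun y => by
        rw [mem_comap, mem_centralizer_singleton_iff, ← commutatorElement_eq_one_iff_mul_comm,
          ← map_commutatorElement, ← MonoidHom.mem_ker, QuotientGroup.ker_mk']
      refine (e y).1 (le_of_cocyclic_centralizer_le hA hAG hcop (fun B e1 e2 z hz => (e z).2 ?_) hy)
      rw [← commutatorElement_inv]
      exact inv_mem (hx B ⟨e1, e2⟩ z hz)
    refine commutator_le.2 fun x hx y hy => key y (fun B hB z hz => key z (fun C hC w hw => ?_) y hy)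
      x hx
    obtain ⟨b, e1, e2, e3⟩ := h4 B C hB hC
    exact h3 b e1 e2 (e3 z hz w hw)
  have h7 : S.ncard ≤ Nat.card A * m := by
    classical
    have := Fintype.ofFinite X
    let T : X → Finset X := fun a => if a = 1 then ∅ else
      (⁅G ⊓ centralizer {a}, G ⊓ centralizer {a}⁆ : Subgroup X).carrier.toFinset
    refine (Set.ncard_le_ncard (s := S) (t := ↑((A : Set X).toFinset.biUnion T))
      (fun s hs => ?_) (Set.toFinite _)).trans ?_
    · obtain ⟨⟨a, e1, e2, e3⟩, -⟩ := hs
      simp only [Finset.coe_biUnion, Set.coe_toFinset, Set.mem_iUnion]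
      exact ⟨a, e1, by simpa [T, e2] using e3⟩
    · rw [Set.ncard_coe_finset]
      refine (Finset.card_biUnion_le_card_mul _ _ m fun a ha => ?_).trans ?_
      · by_cases e : a = 1
        · simp [T, e]
        · simpa [T, e, Nat.card_eq_fintype_card, Fintype.card_subtype] using
            hm a (by simpa using ha) e
      · simp [Set.toFinset_card, Nat.card_eq_fintype_card]
  by_cases hm0 : m = 0
  · obtain rfl : A = ⊥ := eq_bot_iff.2 fun a ha => by
      by_contra e
      exact absurd (hm0 ▸ hm a ha e) (not_le.2 Nat.card_pos)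
    obtain ⟨b, e, -, e'⟩ := h2 ⊥ ⊥ ⟨le_rfl, 1, one_mem _, by simp⟩ ⟨le_rfl, 1, one_mem _, by simp⟩
    exact absurd e e'
  have h8 : ∀ B, Coc A B → (centralizer (closure S : Set X)).relIndex
      (G ⊓ centralizer (B : Set X)) ≤ m ^ (Nat.card A * m) := fun B hB => by
    have := Fintype.ofFinite S
    have e : centralizer (closure S : Set X) = ⨅ s : S, centralizer {(s : X)} := by
      rw [centralizer_closure]
      ext x
      simp [mem_iInf, mem_centralizer_iff]
    rw [e]
    refine (relIndex_iInf_le _).trans ((Finset.prod_le_pow_card _ _ m fun s _ => ?_).trans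
      (Nat.pow_le_pow_right (Nat.pos_of_ne_zero hm0) ?_))
    · obtain ⟨C, hC, e3⟩ := s.2.2
      obtain ⟨b, e4, e5, e6⟩ := h4 B C hB hC
      exact (relIndex_cent_le fun y hy => e6 y hy s ⟨hSG s s.2, e3⟩).trans (hm b e4 e5)
    · rwa [Finset.card_univ, ← Nat.card_eq_fintype_card, Nat.card_coe_set_eq]
  have h10 : (centralizer (closure S : Set X)).Normal := normal_centralizer
  have h9 := card_map_dvd_fact (QuotientGroup.mk' (centralizer (closure S : Set X))) hA hAG hcop
    (M := m ^ (Nat.card A * m)) (by rw [QuotientGroup.ker_mk']; exact h8)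
  rw [← relIndex_ker, QuotientGroup.ker_mk'] at h9
  replace h9 := Nat.le_of_dvd (Nat.factorial_pos _) h9
  unfold bd
  generalize ((m ^ (Nat.card A * m)) ^ 2 ^ Nat.card A).factorial = n at h9 ⊢
  have h11 : ∀ s ∈ S, s ^ m.factorial = 1 := fun s ⟨⟨a, e1, e2, e3⟩, _⟩ =>
    orderOf_dvd_iff_pow_eq_one.1 ((Subgroup.orderOf_dvd_natCard _ e3).trans
      (Nat.dvd_factorial Nat.card_pos (hm a e1 e2)))
  have h12 := (relIndex_le_of_le_right ((closure_le _).2 hSG) FiniteIndex.index_ne_zero).trans h9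
  clear_value S
  have h13 : (((↑) : closure S → X) ⁻¹' S).ncard ≤ Nat.card A * m :=
    (Set.ncard_le_ncard_of_injOn Subtype.val (fun _ h => h) Subtype.val_injective.injOn).trans h7
  have e : center (closure S) = (centralizer (closure S : Set X)).subgroupOf (closure S) := by
    ext x
    simp [mem_center_iff, mem_subgroupOf, mem_centralizer_iff, Subtype.ext_iff]
  exact (card_le_of_le h6).trans (card_le_of_gen closure_closure_coe_preimage h13
    (Nat.factorial_pos m) (fun s hs => Subtype.ext (h11 s hs)) (by rw [e]; exact h12))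

end CfsgLib.LdRk3
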