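import Cfsg.Agent.Lib.SchurBasic
import Cfsg.Agent.Lib.CommCalc

/-!
Central extensions given by bimultiplicative cocycles; central extensions of direct products.
-/

set_option autoImplicit false

namespace CfsgLib.H4

open Subgroup
open scoped commutatorElement IsMulCommutative

/-- The central extension of `G` by `T` with the bimultiplicative cocycle `β`. -/
@[ext] structure BExt {G T : Type*} [Group G] [CommGroup T] (β : G →* G →* T) where
  /-- central coordinate -/
  t : T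
  /-- quotient coordinate -/
  g : G

namespace BExt

variable {G T : Type*} [Group G] [CommGroup T] {β : G →* G →* T}

instance instMulBExt : Mul (BExt β) := ⟨fun x y => ⟨x.t * y.t * β x.g y.g, x.g * y.g⟩⟩
instance instOneBExt : One (BExt β) := ⟨⟨1, 1⟩⟩
instance instInvBExt : Inv (BExt β) := ⟨fun x => ⟨x.t⁻¹ * β x.g x.g, x.g⁻¹⟩⟩

@[simp] theorem mul_t (x y : BExt β) : (x * y).t = x.t * y.t * β x.g y.g := rfl
@[simp] theorem mul_g (x y : BExt β) : (x * y).g = x.g * y.g := rfl
@[simp] theorem one_t : (1 : BExt β).t = 1 := rfl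
@[simp] theorem one_g : (1 : BExt β).g = 1 := rfl
@[simp] theorem inv_t (x : BExt β) : x⁻¹.t = x.t⁻¹ * β x.g x.g := rfl
@[simp] theorem inv_g (x : BExt β) : x⁻¹.g = x.g⁻¹ := rfl

instance instGroupBExt : Group (BExt β) := Group.ofLeftAxioms
  (fun x y z => by
    ext
    · simp only [mul_t, mul_g, map_mul, MonoidHom.mul_apply]
      generalize β x.g z.g = a
      generalize β y.g z.g = b
      generalize β x.g y.g = c
      ac_rfl
    · simp [mul_assoc])
  (fun x => by ext <;> simp)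
  (fun x => by
    ext
    · simp only [mul_t, inv_t, inv_g, map_inv, MonoidHom.inv_apply, one_t]
      rw [mul_right_comm x.t⁻¹, inv_mul_cancel, one_mul, mul_inv_cancel]
    · simp)

variable (β) in
/-- the projection -/
def proj : BExt β →* G where
  toFun x := x.g
  map_one' := rfl
  map_mul' _ _ := rfl

@[simp] theorem proj_apply (x : BExt β) : proj β x = x.g := rfl

theorem isCentExt_proj : IsCentExt (proj β) := by
  refine ⟨fun g => ⟨⟨1, g⟩, rfl⟩, fun x hx => ?_⟩
  have hx' : x.g = 1 := hx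
  rw [mem_center_iff]
  intro y
  ext
  · simp [hx', mul_comm]
  · simp [hx']

theorem commutatorElement_of_commute (x y : BExt β) (h : x.g * y.g = y.g * x.g) :
    ⁅x, y⁆ = ⟨β x.g y.g * (β y.g x.g)⁻¹, 1⟩ := by
  have : x * y = (⟨β x.g y.g * (β y.g x.g)⁻¹, 1⟩ : BExt β) * (y * x) := by
    ext
    · simp only [mul_t, mul_g, map_one, MonoidHom.one_apply, mul_one]
      rw [mul_comm y.t, mul_comm _ (x.t * y.t * _), mul_assoc (x.t * y.t), mul_comm (β y.g x.g),
        inv_mul_cancel_right]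
    · simp [h]
  rw [commutatorElement_def, this]
  group

end BExt

section Prod

variable {E Q₁ Q₂ : Type*} [Group E] [Group Q₁] [Group Q₂]

/-- the preimage of the first factor, mapping onto it. -/
def prodFst (π : E →* Q₁ × Q₂) : ((MonoidHom.snd Q₁ Q₂).comp π).ker →* Q₁ :=
  ((MonoidHom.fst Q₁ Q₂).comp π).comp (Subgroup.subtype _)

/-- the preimage of the second factor, mapping onto it. -/
def prodSnd (π : E →* Q₁ × Q₂) : ((MonoidHom.fst Q₁ Q₂).comp π).ker →* Q₂ :=
  ((MonoidHom.snd Q₁ Q₂).comp π).comp (Subgroup.subtype _)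

theorem isCentExt_prodFst {π : E →* Q₁ × Q₂} (hπ : IsCentExt π) : IsCentExt (prodFst π) := by
  constructor
  · intro q
    obtain ⟨x, hx⟩ := hπ.surj (q, 1)
    exact ⟨⟨x, congrArg Prod.snd hx⟩, congrArg Prod.fst hx⟩
  · intro x hx
    have : (x : E) ∈ π.ker := Prod.ext hx x.2
    rw [mem_center_iff]
    intro y
    exact Subtype.ext (mem_center_iff.mp (hπ.central this) y)

theorem isCentExt_prodSnd {π : E →* Q₁ × Q₂} (hπ : IsCentExt π) : IsCentExt (prodSnd π) := by
  constructor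
  · intro q
    obtain ⟨x, hx⟩ := hπ.surj (1, q)
    exact ⟨⟨x, congrArg Prod.fst hx⟩, congrArg Prod.snd hx⟩
  · intro x hx
    have : (x : E) ∈ π.ker := Prod.ext x.2 hx
    rw [mem_center_iff]
    intro y
    exact Subtype.ext (mem_center_iff.mp (hπ.central this) y)

/-- decomposition of `mult` for a central extension of a direct product. -/
theorem exists_prod_decomp {π : E →* Q₁ × Q₂} (hπ : IsCentExt π) :
    ∃ c : Q₁ →* Q₂ →* center E, (∀ a b, (c a b : E) ∈ mult π) ∧
      ∀ C : Subgroup (center E), (∀ a b, c a b ∈ C) → ∀ x ∈ mult π,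
        ∃ d₁ ∈ mult (prodFst π), ∃ d₂ ∈ mult (prodSnd π), ∃ z ∈ C, x = d₁ * d₂ * (z : E) := by
  let s : Q₁ × Q₂ → E := Function.surjInv hπ.surj
  have hs : ∀ q, π (s q) = q := Function.surjInv_eq hπ.surj
  have hker : ∀ a b, ⁅s (a, 1), s (1, b)⁆ ∈ π.ker := by
    intro a b
    rw [MonoidHom.mem_ker, map_commutatorElement, hs, hs, commutatorElement_eq_one_iff_mul_comm]
    simp
  let c₀ : Q₁ → Q₂ → center E := fun a b => ⟨⁅s (a, 1), s (1, b)⁆, hπ.central (hker a b)⟩
  have hr : ∀ a b b', c₀ a (b * b') = c₀ a b * c₀ a b' := by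
    intro a b b'
    apply Subtype.ext
    change ⁅s (a, 1), s (1, b * b')⁆ = ⁅s (a, 1), s (1, b)⁆ * ⁅s (a, 1), s (1, b')⁆
    rw [commutatorElement_eq_of_map_eq hπ.central (a' := s (a, 1)) (b' := s (1, b) * s (1, b')) rfl
      (by simp [hs]), commutatorElement_mul_right_eq_mul_conj, mul_assoc, mul_assoc,
      ← mem_center_iff.mp (hπ.central (hker a b')), mul_inv_cancel_left]
  have hl : ∀ a a' b, c₀ (a * a') b = c₀ a b * c₀ a' b := by
    intro a a' b
    rw [mul_comm (c₀ a b)]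
    apply Subtype.ext
    change ⁅s (a * a', 1), s (1, b)⁆ = ⁅s (a', 1), s (1, b)⁆ * ⁅s (a, 1), s (1, b)⁆
    rw [commutatorElement_eq_of_map_eq hπ.central (a' := s (a, 1) * s (a', 1)) (b' := s (1, b))
      (by simp [hs]) rfl, commutatorElement_mul_left_eq_conj_mul,
      mem_center_iff.mp (hπ.central (hker a' b)), mul_inv_cancel_right]
  let c : Q₁ →* Q₂ →* center E :=
    MonoidHom.mk' (fun a => MonoidHom.mk' (c₀ a) (hr a)) (fun a a' => MonoidHom.ext (hl a a'))
  refine ⟨c, fun a b => ⟨hker a b, commutator_mem_commutator (mem_top _) (mem_top _)⟩, ?_⟩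
  intro C hC x hx
  set E₁ := ((MonoidHom.snd Q₁ Q₂).comp π).ker with hE₁
  set E₂ := ((MonoidHom.fst Q₁ Q₂).comp π).ker with hE₂
  have htop : E₁ ⊔ E₂ = ⊤ := by
    rw [eq_top_iff]
    intro y _
    have : y = s ((π y).1, 1) * ((s ((π y).1, 1))⁻¹ * y) := by simp
    rw [this]
    refine mul_mem (mem_sup_left ?_) (mem_sup_right ?_)
    · simp [hE₁, hs]
    · simp [hE₂, hs]
  let C' : Subgroup E := (C.map (center E).subtype) ⊓ π.ker
  have hC' : C'.Normal := normal_of_le_center (inf_le_left.trans (map_subtype_le _))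
  have h12 : ⁅E₁, E₂⁆ ≤ C' := by
    rw [commutator_le]
    intro a ha b hb
    have : ⁅a, b⁆ = ⁅s ((π a).1, 1), s (1, (π b).2)⁆ :=
      commutatorElement_eq_of_map_eq hπ.central (by rw [hs]; exact Prod.ext rfl ha)
        (by rw [hs]; exact Prod.ext hb rfl)
    rw [this]
    exact ⟨⟨c _ _, hC _ _, rfl⟩, hker _ _⟩
  have hle : commutator E ≤ (⁅E₁, E₁⁆ ⊔ ⁅E₂, E₂⁆) ⊔ C' := by
    rw [commutator_def, ← htop, CommCalc.commutator_sup_left, CommCalc.commutator_sup_right,
      CommCalc.commutator_sup_right, commutator_comm E₂ E₁]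
    exact sup_le (sup_le (le_sup_of_le_left le_sup_left) (le_sup_of_le_right h12))
      (sup_le (le_sup_of_le_right h12) (le_sup_of_le_left le_sup_right))
  have h1 := hle hx.2
  rw [← SetLike.mem_coe, mul_normal, mul_normal] at h1
  obtain ⟨_, ⟨d₁, hd₁, d₂, hd₂, rfl⟩, _, ⟨⟨z, hz, rfl⟩, hz'⟩, rfl⟩ := h1
  rw [← map_subtype_commutator] at hd₁ hd₂
  obtain ⟨d₁, hd₁, rfl⟩ := hd₁
  obtain ⟨d₂, hd₂, rfl⟩ := hd₂
  have h2 : π d₁ * π d₂ = 1 := by
    have h3 : π (d₁ * d₂ * (z : E)) = 1 := hx.1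
    have h4 : π z = 1 := hz'
    rwa [map_mul, map_mul, h4, mul_one] at h3
  have h3 : (π d₁).2 = 1 := d₁.2
  have h4 : (π d₂).1 = 1 := d₂.2
  refine ⟨d₁, ⟨?_, hd₁⟩, d₂, ⟨?_, hd₂⟩, z, hz, rfl⟩
  · have := congrArg Prod.fst h2
    rwa [Prod.fst_mul, h4, mul_one] at this
  · have := congrArg Prod.snd h2
    rwa [Prod.snd_mul, h3, one_mul] at this

end Prod

theorem hasSchurMultiplier_congr_left {G H A : Type*} [Group G] [Group H] [CommGroup A]
    (e : G ≃* H) (h : Cfsg.HasSchurMultiplier G A) : Cfsg.HasSchurMultiplier H A := by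
  have := finite_of_hasSchurMultiplier' h
  have : Finite H := Finite.of_equiv _ e.toEquiv
  have h1 : IsCentExt (e.toMonoidHom.comp (uProj G)) :=
    ⟨e.surjective.comp (uProj_isCentExt G).surj, fun x hx => (uProj_isCentExt G).central
      ((MulEquiv.map_eq_one_iff e).mp hx)⟩
  have h2 : LiftsAll (e.toMonoidHom.comp (uProj G)) :=
    (uProj_liftsAll G).lift (uProj_isCentExt H) e.toMonoidHom
  obtain ⟨f⟩ := hasSchurMultiplier_iff_uProj.mp h
  refine (hasSchurMultiplier_iff h1 h2).mpr ⟨f.trans (MulEquiv.subgroupCongr ?_)⟩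
  ext x
  simp [mem_mult]

end CfsgLib.H4
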